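/-
Characters of the root lattice as diagonal matrices.
-/
import Cfsg.Agent.Lib.Chev.FieldFix
import Cfsg.Prelude.Def_ChevAutomorphisms

set_option autoImplicit false

namespace Cfsg.Lib.Chev

open Cfsg.Lie

variable {D : ChevalleyDatum} {A : Aux} (hc : Cert D A) {F : Type*} [Field F]

/-- every positive root is simple or a simple root plus a smaller positive root -/
def decompOK (D : ChevalleyDatum) (A : Aux) : Bool :=
  allB D.nroots fun s => !(A.pos s) || (List.range D.rank).any fun i =>
    Nat.beq s (D.simple i) || (List.range s).any fun s' =>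
      A.pos s' && decide (D.chainRoot (D.simple i) s' 1 = some s)

include hc in
theorem character_eq_chi (hd : decompOK D A = true) {χ : ℕ → Fˣ} (hχ : D.IsRootCharacter χ) :
    ∀ s, s < D.nroots → χ s = chi A D.rank (fun j => χ (D.simple j)) s := by
  simp only [decompOK, allB_iff, Bool.or_eq_true, Bool.not_eq_true', List.any_eq_true, List.mem_range,
    Nat.beq_eq, Bool.and_eq_true, decide_eq_true_eq] at hd
  have hpos : ∀ s, s < D.nroots → A.pos s = true → χ s = chi A D.rank (fun j => χ (D.simple j)) s := by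
    intro s
    induction s using Nat.strong_induction_on with
    | _ s ih =>
      intro hs hp
      rcases hd s hs with h | ⟨i, hi, rfl | ⟨s', hs', hp', hk⟩⟩
      · rw [hp] at h; cases h
      · rw [chi, Finset.prod_eq_single i]
        · rw [co_simple hc hi hi, if_pos rfl, zpow_one]
        · intro j hj hne
          rw [co_simple hc hi (Finset.mem_range.1 hj), if_neg, zpow_zero]
          exact fun e => hne (by omega)
        · intro h; exact absurd (Finset.mem_range.2 hi) h
      · have hp0 := simple_lt hc hi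
        rw [hχ.2 _ _ _ hp0 (hs'.trans hs) hk, ih s' hs' (hs'.trans hs) hp',
          (isChar_chi hc (fun j => χ (D.simple j))).chain _ s' 0 s hp0 hk, zero_add, pow_one, mul_comm]
        congr 1
        rw [chi, Finset.prod_eq_single i]
        · rw [co_simple hc hi hi, if_pos rfl, zpow_one]
        · intro j hj hne
          rw [co_simple hc hi (Finset.mem_range.1 hj), if_neg, zpow_zero]
          exact fun e => hne (by omega)
        · intro h; exact absurd (Finset.mem_range.2 hi) h
  intro s hs
  cases hp : A.pos s with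
  | true => exact hpos s hs hp
  | false =>
    have h1 := hpos (negI D s) (negI_lt hs) (by rw [pos_neg hc hs, hp]; rfl)
    rw [← neg_eq hc hs, hχ.1 s hs, neg_eq hc hs, (isChar_chi hc _).neg s hs] at h1
    exact inv_injective h1

include hc in
theorem charDiag_eq (hd : decompOK D A = true) {χ : ℕ → Fˣ} (hχ : D.IsRootCharacter χ) :
    dg D χ = dg D (chi A D.rank fun j => χ (D.simple j)) :=
  dg_eq_iff.2 (character_eq_chi hc hd hχ)

theorem coe_dg (f : ℕ → Fˣ) : (dg D f : Matrix D.Idx D.Idx F) = D.charDiag F f := rfl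

include hc in
theorem charDiag_conj_x (hd : decompOK D A = true) {χ : ℕ → Fˣ} (hχ : D.IsRootCharacter χ)
    {r : ℕ} (hr : r < D.nroots) (t : F) :
    D.charDiag F χ * D.x F r t * D.charDiag F (fun s => (χ s)⁻¹) = D.x F r ((χ r : F) * t) := by
  have h := dg_conj_x hc hr (isChar_chi hc fun j => χ (D.simple j)) t
  rw [← charDiag_eq hc hd hχ, ← character_eq_chi hc hd hχ r hr] at h
  have h' := congrArg Units.val h
  rw [Units.val_mul, Units.val_mul, coe_xg hc hr, coe_xg hc hr] at h'
  exact h'

include hc in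
theorem charDiag_mem_H {f : ℕ → Fˣ} (hf : IsChar D f) (hg : dg D f ∈ D.group F) :
    dg D f ∈ D.diagonalSubgroup F := by
  obtain ⟨b, hb, L, u, hu, e⟩ := exists_word_form hc hg
  have hB : dg D f ∈ D.borelSubgroup F := by
    by_cases h1 : wp hc L = 1
    · rw [e]
      exact (D.borelSubgroup F).mul_mem ((D.borelSubgroup F).mul_mem hb
        (H_le_B (mem_H_of_acts_one hc (wg_mem_N hc L) (h1 ▸ acts_wg hc L)))) (U_le_B (Uw_le_U hc hu))
    exfalso
    obtain ⟨L', ⟨h, hh, hn⟩, hlen⟩ := exists_reduced hc (wg_mem_N (F := F) hc L)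
    have hπ : wp hc L = wp hc L' := (acts_wg (F := F) hc L).unique hc (hn ▸ acts_hwg hc hh L')
    obtain ⟨s, hs1, hs2⟩ := exists_pos_to_neg hc (wp hc L') rfl hlen (fun h => h1 (by rw [hπ, h, wp_nil]))
    rw [← hπ] at hs2
    have h2 := (acts_wg (F := F) hc L).neg_subset hc hs2 1
    have hx : u⁻¹ * xg D F s 1 * u ∈ D.posUnipotent F :=
      (D.posUnipotent F).mul_mem ((D.posUnipotent F).mul_mem ((D.posUnipotent F).inv_mem (Uw_le_U hc hu))
        (xg_mem_U hc s.2 hs1 1)) (Uw_le_U hc hu)
    have h3 : dg D f * (u⁻¹ * xg D F s 1 * u) * (dg D f)⁻¹ ∈ D.posUnipotent F := by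
      rw [posUnipotent_eq hc] at hx ⊢
      revert hx
      generalize u⁻¹ * xg D F s 1 * u = y
      intro hy
      induction hy using Subgroup.closure_induction with
      | mem x hx =>
        obtain ⟨r, t, hr, hP, -, rfl⟩ := hx
        rw [dg_conj_x hc hr hf]
        exact xg_mem_UG hr hP (Nat.zero_le _) _
      | one => simp
      | mul x y _ _ hx hy =>
        rw [show dg D f * (x * y) * (dg D f)⁻¹ = dg D f * x * (dg D f)⁻¹ * (dg D f * y * (dg D f)⁻¹) by group]
        exact (UG D F _ 0).mul_mem hx hy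
      | inv x _ hx =>
        rw [show dg D f * x⁻¹ * (dg D f)⁻¹ = (dg D f * x * (dg D f)⁻¹)⁻¹ by group]
        exact (UG D F _ 0).inv_mem hx
    have h4 : wg D F L * xg D F s 1 * (wg D F L)⁻¹ ∈ D.borelSubgroup F ⊓ D.negUnipotent F := by
      refine ⟨?_, h2⟩
      have := (D.borelSubgroup F).mul_mem ((D.borelSubgroup F).mul_mem ((D.borelSubgroup F).inv_mem hb)
        (U_le_B h3)) hb
      rw [e] at this
      rwa [show b⁻¹ * (b * wg D F L * u * (u⁻¹ * xg D F s 1 * u) * (b * wg D F L * u)⁻¹) * b =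
        wg D F L * xg D F s 1 * (wg D F L)⁻¹ by group] at this
    rw [B_inf_V hc, Subgroup.mem_bot, conj_eq_one_iff] at h4
    exact one_ne_zero ((xg_eq_one_iff hc s.2 (1 : F)).1 h4)
  obtain ⟨v, hv, h, hh, e'⟩ := (mem_B_iff hc).1 hB
  obtain ⟨f', -, rfl⟩ := H_diagonal hc hh
  have hv' : v = dg D (fun s => f s * (f' s)⁻¹) := by
    rw [show (fun s => f s * (f' s)⁻¹) = f * f'⁻¹ from rfl, ← dg_mul, ← dg_inv, e', mul_inv_cancel_right]
  have h5 := (U_le_raise hc hv).1
  have key : dg D f = dg D f' := dg_eq_iff.2 fun s hs => by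
    have := h5 (Sum.inr ⟨s, hs⟩) (Sum.inr ⟨s, hs⟩) (by simp)
    rw [hv'] at this
    have h6 : ((f s * (f' s)⁻¹ : Fˣ) : F) = 1 := by simpa [dg, Matrix.sub_apply, sub_eq_zero] using this
    exact mul_inv_eq_one.1 (Units.ext h6)
  rw [key]; exact hh

end Cfsg.Lib.Chev
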