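/-
The structure of the group presented by (R1), (R2): the kernel of the map to the Chevalley group is
generated by torus elements, hence central.
-/
import Cfsg.Prelude.Def_SteinbergCover
import Cfsg.Agent.Lib.Chev.All
import Cfsg.Agent.Lib.Chev.Borel
import Cfsg.Agent.Lib.Chev.Torus
import Cfsg.Agent.Lib.Chev.BN

set_option autoImplicit false
set_option linter.unusedSectionVars false

namespace Cfsg.Lib.Chev.CoverStruct

open Cfsg.Lie Cfsg.Lib.Chev

variable {D : ChevalleyDatum} {A : Aux} (hc : Cert D A) {K : Type*} [Field K]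

/-- the generator -/
def X (D : ChevalleyDatum) {K : Type*} [Field K] (r : ℕ) (t : K) : D.SteinbergCover K := D.scGen K r t

theorem X_eq {r : ℕ} (hr : r < D.nroots) (t : K) :
    (X D r t : D.SteinbergCover K) = PresentedGroup.of (⟨r, hr⟩, t) := by
  simp [X, ChevalleyDatum.scGen, ChevalleyDatum.stX, hr, PresentedGroup.of]

theorem X_add {r : ℕ} (hr : r < D.nroots) (t u : K) : X D r t * X D r u = X D r (t + u) := by
  rw [← mul_inv_eq_one]
  simp only [X, ChevalleyDatum.scGen, ← map_mul, ← map_inv]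
  exact PresentedGroup.one_of_mem (Or.inl ⟨r, t, u, hr, rfl⟩)

theorem X_zero {r : ℕ} (hr : r < D.nroots) : X D r (0 : K) = 1 := by simpa using X_add (D := D) hr (0 : K) 0

theorem X_inv {r : ℕ} (hr : r < D.nroots) (t : K) : (X D r t)⁻¹ = X D r (-t) :=
  inv_eq_of_mul_eq_one_right (by rw [X_add hr, add_neg_cancel, X_zero hr])

/-- the value of a word -/
def ev (D : ChevalleyDatum) {K : Type*} [Field K] (L : List (ℕ × K)) : D.SteinbergCover K :=
  (L.map fun p => X D p.1 p.2).prod

theorem mk_stWord (L : List (ℕ × K)) : PresentedGroup.mk (D.steinbergRelsAB K) (D.stWord L) = ev D L := by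
  simp only [ev, ChevalleyDatum.stWord, map_list_prod, List.map_map]; rfl

include hc in
theorem X_comm {r s : ℕ} (hr : r < D.nroots) (hs : s < D.nroots) (h1 : s ≠ r) (h2 : s ≠ negI D r) (t u : K) :
    (X D s u)⁻¹ * (X D r t)⁻¹ * X D s u * X D r t = ev D (D.commWord K r s t u) := by
  rw [← mul_inv_eq_one, ← mk_stWord]
  simp only [X, ChevalleyDatum.scGen, ← map_mul, ← map_inv]
  exact PresentedGroup.one_of_mem (Or.inr ⟨r, s, t, u, hr, hs, h1, (neg_eq hc hr).symm ▸ h2, rfl⟩)

theorem closure_X : Subgroup.closure {g : D.SteinbergCover K | ∃ r t, r < D.nroots ∧ g = X D r t} = ⊤ := by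
  rw [← top_le_iff, ← PresentedGroup.closure_range_of, Subgroup.closure_le]
  rintro _ ⟨⟨⟨r, hr⟩, t⟩, rfl⟩
  exact Subgroup.subset_closure ⟨r, t, hr, (X_eq hr t).symm⟩

theorem hom_ext {G : Type*} [Group G] {f g : D.SteinbergCover K →* G}
    (h : ∀ r < D.nroots, ∀ t, f (X D r t) = g (X D r t)) : f = g :=
  PresentedGroup.ext fun p => by
    obtain ⟨⟨r, hr⟩, t⟩ := p
    rw [← X_eq hr]; exact h r hr t

/-- homomorphisms out of the cover -/
theorem exists_hom {G : Type*} [Group G] (f : ℕ → K → G)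
    (h1 : ∀ r t u, r < D.nroots → f r t * f r u = f r (t + u))
    (h2 : ∀ r s t u, r < D.nroots → s < D.nroots → s ≠ r → s ≠ D.neg r →
      (f s u)⁻¹ * (f r t)⁻¹ * f s u * f r t = ((D.commWord K r s t u).map fun p => f p.1 p.2).prod)
    (hlt : ∀ r s t u, r < D.nroots → s < D.nroots → ∀ p ∈ D.commWord K r s t u, p.1 < D.nroots) :
    ∃ φ : D.SteinbergCover K →* G, ∀ r t, r < D.nroots → φ (X D r t) = f r t := by
  let F0 : Fin D.nroots × K → G := fun p => f p.1 p.2
  have hX : ∀ r t, r < D.nroots → FreeGroup.lift F0 (D.stX r t) = f r t := fun r t hr => by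
    simp [ChevalleyDatum.stX, hr, F0]
  have hrel : ∀ g ∈ D.steinbergRelsAB K, FreeGroup.lift F0 g = 1 := by
    rintro g (⟨r, t, u, hr, rfl⟩ | ⟨r, s, t, u, hr, hs, n1, n2, rfl⟩)
    · rw [map_mul, map_mul, map_inv, hX _ _ hr, hX _ _ hr, hX _ _ hr, h1 _ _ _ hr, mul_inv_cancel]
    · simp only [map_mul, map_inv, ChevalleyDatum.stWord, map_list_prod, List.map_map, hX _ _ hr, hX _ _ hs]
      rw [mul_inv_eq_one, h2 _ _ _ _ hr hs n1 n2]
      congr 1
      exact List.map_congr_left fun p hp => (hX _ _ (hlt _ _ _ _ hr hs p hp)).symm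
  refine ⟨PresentedGroup.toGroup hrel, fun r t hr => ?_⟩
  rw [X_eq hr, PresentedGroup.toGroup.of]

include hc in
theorem word_lt {r s : ℕ} (t u : K) (hr : r < D.nroots) (hs : s < D.nroots) :
    ∀ p ∈ D.commWord K r s t u, p.1 < D.nroots := by
  intro p hp
  obtain ⟨q, hq, rfl⟩ := List.mem_map.1 hp
  exact (commTerms_comb hc hr hs q hq).1

include hc in
theorem exists_theta : ∃ θ : D.SteinbergCover K →* GL D.Idx K,
    ∀ r t, r < D.nroots → θ (X D r t) = xg D K r t := by
  refine exists_hom (xg D K) (fun r t u hr => xg_add hc hr t u) (fun r s t u hr hs n1 n2 => ?_)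
    (fun r s t u hr hs => word_lt hc t u hr hs)
  rw [neg_eq hc hr] at n2
  have hW : ∀ L : List (ℕ × K), (∀ p ∈ L, p.1 < D.nroots) →
      (((L.map fun p => xg D K p.1 p.2).prod : GL D.Idx K) : Matrix D.Idx D.Idx K) = D.wordMat K L := by
    intro L
    induction L with
    | nil => intro _; simp [ChevalleyDatum.wordMat]
    | cons a L ih =>
      intro h
      simp [ChevalleyDatum.wordMat, coe_xg hc (h a List.mem_cons_self)] at *
      rw [ih fun a b hb => h.2 a b hb]
  rw [show ∀ a b : GL D.Idx K, b⁻¹ * a⁻¹ * b * a = (a * b)⁻¹ * (b * a) from fun a b => by group,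
    inv_mul_eq_iff_eq_mul]
  refine Units.ext ?_
  simp only [Units.val_mul, coe_xg hc hr, coe_xg hc hs]
  rw [hW _ (word_lt hc t u hr hs)]
  exact comm_formula hc hr hs n1 n2 t u

/-- the projection to the Chevalley group -/
noncomputable def theta : D.SteinbergCover K →* GL D.Idx K := (exists_theta hc).choose

theorem theta_X {r : ℕ} (hr : r < D.nroots) (t : K) : theta hc (X D r t) = xg D K r t :=
  (exists_theta hc).choose_spec r t hr

/-! ### automorphisms -/

include hc in
theorem exists_sig_hom (i : Fin D.rank) : ∃ φ : D.SteinbergCover K →* D.SteinbergCover K,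
    ∀ r t, r < D.nroots → φ (X D r t) = X D (A.w i r) (((A.eta i r : ℤ) : K) * t) := by
  refine exists_hom (fun r t => X D (A.w i r) (((A.eta i r : ℤ) : K) * t))
    (fun r t u hr => by rw [X_add (w_lt hc i.2 hr), mul_add]) (fun r s t u hr hs n1 n2 => ?_)
    (fun r s t u hr hs => word_lt hc t u hr hs)
  rw [neg_eq hc hr] at n2
  rw [X_comm hc (w_lt hc i.2 hr) (w_lt hc i.2 hs) (fun h => n1 (w_inj hc i.2 hs hr h))
    (fun h => n2 (w_inj hc i.2 hs (negI_lt hr) (h.trans (w_neg hc i.2 hr).symm)))]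
  simp only [ev, ChevalleyDatum.commWord, commTerms_w hc i.2 hr hs, List.map_map]
  congr 1
  refine List.map_congr_left fun c _ => ?_
  simp only [Function.comp_apply, tf, Int.cast_mul, Int.cast_pow, ← mul_neg, mul_pow]
  congr 1
  have hr2 : ((A.eta i r : ℤ) : K) ^ c.2.2.1 * ((A.eta i r : ℤ) : K) ^ c.2.2.1 = 1 := by
    rw [← mul_pow, ← Int.cast_mul, eta_mul_self, Int.cast_one, one_pow]
  have hs2 : ((A.eta i s : ℤ) : K) ^ c.2.2.2 * ((A.eta i s : ℤ) : K) ^ c.2.2.2 = 1 := by
    rw [← mul_pow, ← Int.cast_mul, eta_mul_self, Int.cast_one, one_pow]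
  linear_combination ((A.eta i c.1 : K) * (c.2.1 : K) * (-t) ^ c.2.2.1 * u ^ c.2.2.2 *
      (((A.eta i s : ℤ) : K) ^ c.2.2.2 * ((A.eta i s : ℤ) : K) ^ c.2.2.2)) * hr2 +
    ((A.eta i c.1 : K) * (c.2.1 : K) * (-t) ^ c.2.2.1 * u ^ c.2.2.2) * hs2

include hc in
theorem commTerms_exp {r s : ℕ} (hr : r < D.nroots) (hs : s < D.nroots) :
    ∀ c ∈ D.commTerms r s, ∀ m < D.rank,
      A.co m c.1 = (c.2.2.1 : ℤ) * A.co m r + (c.2.2.2 : ℤ) * A.co m s := by
  intro c hc'
  simp only [ChevalleyDatum.commTerms, List.mem_filterMap, Option.map_eq_some_iff] at hc'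
  obtain ⟨cand, hmem, k, hk, rfl⟩ := hc'
  simp only [List.mem_cons, List.not_mem_nil, or_false] at hmem
  intro m hm
  rcases hmem with rfl | rfl | rfl | rfl | rfl | rfl | rfl
  · rw [co_chainRoot hc hr le_rfl hk hm]; push_cast; ring
  · rw [co_chainRoot hc hr (by norm_num) hk hm]; push_cast; ring
  · rw [co_chainRoot hc hs (by norm_num) hk hm]; push_cast; ring
  · rw [co_chainRoot hc hr (by norm_num) hk hm]; push_cast; ring
  · rw [co_chainRoot hc hs (by norm_num) hk hm]; push_cast; ring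
  · obtain ⟨k3, h3, hk⟩ := Option.bind_eq_some_iff.1 hk
    have hk3 := chainRoot_lt hc hr h3
    rw [co_chainRoot hc hk3 le_rfl hk hm, co_chainRoot hc hr (by norm_num) h3 hm]
    push_cast; ring
  · obtain ⟨k3, h3, hk⟩ := Option.bind_eq_some_iff.1 hk
    have hk3 := chainRoot_lt hc hs h3
    rw [co_chainRoot hc hk3 le_rfl hk hm, co_chainRoot hc hs (by norm_num) h3 hm]
    push_cast; ring

include hc in
theorem exists_scale_hom {i : ℕ} (hi : i < D.rank) (u₀ : Kˣ) : ∃ φ : D.SteinbergCover K →* D.SteinbergCover K,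
    ∀ r t, r < D.nroots → φ (X D r t) = X D r (((u₀ ^ A.cA i r : Kˣ) : K) * t) := by
  refine exists_hom (fun r t => X D r (((u₀ ^ A.cA i r : Kˣ) : K) * t))
    (fun r t u hr => by rw [X_add hr, mul_add]) (fun r s t u hr hs n1 n2 => ?_)
    (fun r s t u hr hs => word_lt hc t u hr hs)
  rw [neg_eq hc hr] at n2
  rw [X_comm hc hr hs n1 n2]
  simp only [ev, ChevalleyDatum.commWord, List.map_map]
  congr 1
  refine List.map_congr_left fun c hcm => ?_
  have hk := (commTerms_comb hc hr hs c hcm).1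
  have e : A.cA i c.1 = (c.2.2.1 : ℤ) * A.cA i r + (c.2.2.2 : ℤ) * A.cA i s := by
    rw [cA_linear hc hi hk, cA_linear hc hi hr, cA_linear hc hi hs, Finset.mul_sum, Finset.mul_sum,
      ← Finset.sum_add_distrib]
    exact Finset.sum_congr rfl fun m hm => by
      rw [commTerms_exp hc hr hs c hcm m (Finset.mem_range.1 hm)]; ring
  simp only [Function.comp_apply]
  congr 1
  rw [e, zpow_add, Units.val_mul, mul_comm (c.2.2.1 : ℤ), mul_comm (c.2.2.2 : ℤ), zpow_mul, zpow_mul,
    zpow_natCast, zpow_natCast, Units.val_pow_eq_pow_val, Units.val_pow_eq_pow_val, ← mul_neg,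
    mul_pow, mul_pow]
  ring

/-! ### the unipotent subgroups -/

/-- generated by the roots in `P` from `c` on -/
def UB (D : ChevalleyDatum) (K : Type*) [Field K] (P : ℕ → Prop) (c : ℕ) : Subgroup (D.SteinbergCover K) :=
  Subgroup.closure {g | ∃ (r : ℕ) (t : K), r < D.nroots ∧ P r ∧ c ≤ r ∧ g = X D r t}

theorem X_mem_UB {P : ℕ → Prop} {c r : ℕ} (hr : r < D.nroots) (hP : P r) (hc' : c ≤ r) (t : K) :
    X D r t ∈ UB D K P c := Subgroup.subset_closure ⟨r, t, hr, hP, hc', rfl⟩

theorem UB_le {P : ℕ → Prop} {c : ℕ} {G : Subgroup (D.SteinbergCover K)}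
    (h : ∀ r t, r < D.nroots → P r → c ≤ r → X D r t ∈ G) : UB D K P c ≤ G :=
  (Subgroup.closure_le _).2 fun _ ⟨r, t, hr, hP, hcr, e⟩ => e ▸ h r t hr hP hcr

theorem conj_mem_of_gens {P : ℕ → Prop} {c : ℕ} {g : D.SteinbergCover K} {G : Subgroup (D.SteinbergCover K)}
    (h : ∀ r t, r < D.nroots → P r → c ≤ r → g * X D r t * g⁻¹ ∈ G) {u : D.SteinbergCover K}
    (hu : u ∈ UB D K P c) : g * u * g⁻¹ ∈ G :=
  (UB_le (G := G.comap (MulAut.conj g).toMonoidHom) fun r t hr hP hcr => h r t hr hP hcr) hu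

include hc in
theorem conj_X {G : Subgroup (D.SteinbergCover K)} {r s : ℕ} (hr : r < D.nroots) (hs : s < D.nroots)
    (h1 : s ≠ r) (h2 : s ≠ negI D r) (t u : K) (hsG : X D s u ∈ G)
    (hG : ∀ p ∈ D.commTerms r s, ∀ v, X D p.1 v ∈ G) : (X D r t)⁻¹ * X D s u * X D r t ∈ G := by
  have e : (X D r t)⁻¹ * X D s u * X D r t = X D s u * ev D (D.commWord K r s t u) := by
    rw [← X_comm hc hr hs h1 h2]; group
  rw [e]
  refine mul_mem hsG (list_prod_mem fun x hx => ?_)
  obtain ⟨p, hp, rfl⟩ := List.mem_map.1 hx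
  obtain ⟨q, hq, rfl⟩ := List.mem_map.1 hp
  exact hG q hq _

/-- positive roots -/
def posP (A : Aux) (r : ℕ) : Prop := A.pos r = true

theorem posP_def {r : ℕ} : posP A r ↔ A.pos r = true := Iff.rfl

include hc in
theorem mem_step {c : ℕ} (hcn : c < D.nroots) (hp : A.pos c = true) {g : D.SteinbergCover K}
    (hg : g ∈ UB D K (posP A) c) : ∃ t, ∃ v ∈ UB D K (posP A) (c + 1), g = X D c t * v := by
  have hnorm : ∀ t : K, ∀ v ∈ UB D K (posP A) (c + 1), (X D c t)⁻¹ * v * X D c t ∈ UB D K (posP A) (c + 1) := by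
    intro t v hv
    have := conj_mem_of_gens (g := (X D c t)⁻¹) (G := UB D K (posP A) (c + 1)) (fun r u hr hP hcr => by
      rw [inv_inv]
      refine conj_X hc hcn hr (by omega) (fun e => ?_) t u (X_mem_UB hr hP hcr u) fun q hq v => ?_
      · rw [posP_def, e, pos_neg hc hcn, hp] at hP; cases hP
      · obtain ⟨h1, h2⟩ := commTerms_comb hc hcn hr q hq
        have := (comb_gt hc hcn h1 hp hr hP h2).1
        exact X_mem_UB h1 (combClosed_pos hc c r q.1 hcn hr h1 hp hP h2) (by omega) v) hv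
    rwa [inv_inv] at this
  let S : Subgroup (D.SteinbergCover K) :=
    { carrier := {g | ∃ t : K, ∃ v ∈ UB D K (posP A) (c + 1), g = X D c t * v}
      one_mem' := ⟨0, 1, one_mem _, by rw [X_zero hcn, one_mul]⟩
      mul_mem' := by
        rintro a b ⟨t, v, hv, rfl⟩ ⟨t', v', hv', rfl⟩
        refine ⟨t + t', (X D c t')⁻¹ * v * X D c t' * v', mul_mem (hnorm t' v hv) hv', ?_⟩
        rw [← X_add hcn]; group
      inv_mem' := by
        rintro a ⟨t, v, hv, rfl⟩
        refine ⟨-t, (X D c (-t))⁻¹ * v⁻¹ * X D c (-t), hnorm _ _ (inv_mem hv), ?_⟩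
        rw [mul_inv_rev, X_inv hcn t]; group }
  refine UB_le (G := S) (fun r u hr hP hcr => ?_) hg
  rcases Nat.eq_or_lt_of_le hcr with rfl | hlt
  · exact ⟨u, 1, one_mem _, by rw [mul_one]⟩
  · exact ⟨0, _, X_mem_UB hr hP hlt u, by rw [X_zero hcn, one_mul]⟩

theorem theta_UB {P : ℕ → Prop} {c : ℕ} {v : D.SteinbergCover K} (hv : v ∈ UB D K P c) :
    theta hc v ∈ UG D K P c :=
  (UB_le (G := (UG D K P c).comap (theta hc)) fun r t hr hP hcr => by
    rw [Subgroup.mem_comap, theta_X hc hr]; exact xg_mem_UG hr hP hcr t) hv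

theorem theta_inj_pos : ∀ k c, c + k = D.nroots → ∀ g ∈ UB D K (posP A) c, theta hc g = 1 → g = 1 := by
  intro k
  induction k with
  | zero =>
    intro c h g hg _
    refine Subgroup.mem_bot.1 (UB_le (G := (⊥ : Subgroup _)) (fun r t hr _ hcr => ?_) hg)
    omega
  | succ k ih =>
    intro c h g hg h1
    by_cases hp : A.pos c = true
    · obtain ⟨t, v, hv, rfl⟩ := mem_step hc (by omega) hp hg
      rw [map_mul, theta_X hc (by omega)] at h1
      obtain ⟨ht, hv1⟩ := UG_unique_head hc (P := posP A) (fun r hr => hr) (by omega) hp (theta_UB hc hv)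
        (one_mem _) (h1.trans (by rw [xg_zero hc (r := c) (by omega), one_mul] : (1 : GL D.Idx K) = xg D K c 0 * 1))
      rw [ht, X_zero (by omega), one_mul]
      exact ih (c + 1) (by omega) v hv hv1
    · refine ih (c + 1) (by omega) g (UB_le (fun r t hr hP hcr => X_mem_UB hr hP ?_ t) hg) h1
      exact Nat.lt_of_le_of_ne hcr fun e => hp (e ▸ hP)

theorem theta_inj {a b : D.SteinbergCover K} (ha : a ∈ UB D K (posP A) 0) (hb : b ∈ UB D K (posP A) 0)
    (h : theta hc a = theta hc b) : a = b :=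
  mul_inv_eq_one.1 (theta_inj_pos hc D.nroots 0 (zero_add _) _ (mul_mem ha (inv_mem hb))
    (by rw [map_mul, map_inv, h, mul_inv_cancel]))

/-- negative roots -/
def negP (A : Aux) (r : ℕ) : Prop := A.pos r = false

include hc in
theorem exists_flip (L : List (Fin D.rank)) : ∃ φ : D.SteinbergCover K →* D.SteinbergCover K,
    Function.Injective φ ∧ (∀ g, theta hc (φ g) = wg D K L * theta hc g * (wg D K L)⁻¹) ∧
      ∀ (r : Fin D.nroots) (t : K), ∃ w, φ (X D r t) = X D (wp hc L r) w := by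
  induction L with
  | nil => exact ⟨MonoidHom.id _, fun _ _ h => h, fun g => by simp, fun r t => ⟨t, rfl⟩⟩
  | cons i L ih =>
    obtain ⟨ψ, hinj, hθ, hX⟩ := ih
    obtain ⟨σ, hσ⟩ := exists_sig_hom (K := K) hc i
    have h2 : (σ.comp (σ.comp σ)).comp σ = MonoidHom.id _ := hom_ext fun r hr t => by
      have hw := w_lt hc i.2 hr
      simp only [MonoidHom.comp_apply, hσ _ _ hr, hσ _ _ hw, w_w hc i.2 hr, MonoidHom.id_apply]
      congr 1
      have e1 : ((A.eta i r : ℤ) : K) * (A.eta i r : ℤ) = 1 := by rw [← Int.cast_mul, eta_mul_self, Int.cast_one]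
      have e2 : ((A.eta i (A.w i r) : ℤ) : K) * (A.eta i (A.w i r) : ℤ) = 1 := by rw [← Int.cast_mul, eta_mul_self, Int.cast_one]
      linear_combination (((A.eta i (A.w i r) : ℤ) : K) * (A.eta i (A.w i r) : ℤ) * t) * e1 + t * e2
    have hθσ : (theta hc).comp σ = (MulAut.conj (ng D K i)).toMonoidHom.comp (theta hc) :=
      hom_ext fun r hr t => by
        simp [hσ _ _ hr, theta_X hc hr, theta_X hc (w_lt hc i.2 hr), ng_conj_xg hc i.2 hr]
    refine ⟨σ.comp ψ, (Function.LeftInverse.injective (g := σ.comp (σ.comp σ)) (DFunLike.congr_fun h2)).comp hinj,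
      fun g => ?_, fun r t => ?_⟩
    · have := DFunLike.congr_fun hθσ (ψ g)
      simp only [MonoidHom.comp_apply, MulEquiv.coe_toMonoidHom, MulAut.conj_apply, hθ] at this
      rw [MonoidHom.comp_apply, this, wg_cons]; group
    · obtain ⟨w, hw⟩ := hX r t
      exact ⟨_, by rw [MonoidHom.comp_apply, hw, hσ _ _ (wp hc L r).2, wp_cons, Equiv.Perm.mul_apply, sig_apply]⟩

theorem theta_inj_neg {a b : D.SteinbergCover K} (ha : a ∈ UB D K (negP A) 0) (hb : b ∈ UB D K (negP A) 0)
    (h : theta hc a = theta hc b) : a = b := by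
  obtain ⟨L, hL⟩ := exists_longest hc
  obtain ⟨φ, hinj, hθ, hX⟩ := exists_flip (K := K) hc L
  have hmem : ∀ v ∈ UB D K (negP A) 0, φ v ∈ UB D K (posP A) 0 := fun v hv =>
    (UB_le (G := (UB D K (posP A) 0).comap φ) fun r t hr hP _ => by
      obtain ⟨w, hw⟩ := hX ⟨r, hr⟩ t
      rw [Subgroup.mem_comap, hw]
      refine X_mem_UB (wp hc L ⟨r, hr⟩).2 ?_ (Nat.zero_le _) _
      rw [posP_def, hL]
      simpa [negP] using hP) hv
  exact hinj (theta_inj hc (hmem a ha) (hmem b hb) (by rw [hθ, hθ, h]))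

/-! ### conjugation by `n_i(t)` -/

/-- `n_i(t)` -/
def N (D : ChevalleyDatum) {K : Type*} [Field K] (i : ℕ) (t : K) : D.SteinbergCover K :=
  X D (D.simple i) t * (X D (negI D (D.simple i)) (-t⁻¹) * X D (D.simple i) t)

theorem theta_N {i : ℕ} (hi : i < D.rank) (t : K) : theta hc (N D i t) = ngen D K (D.simple i) t := by
  simp [N, ngen, theta_X hc (simple_lt hc hi), theta_X hc (negI_lt (simple_lt hc hi))]

include hc in
theorem N_neg {i : ℕ} (hi : i < D.rank) (t : K) : N D i (-t) = (N D i t)⁻¹ := by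
  simp [N, mul_inv_rev, X_inv (simple_lt hc hi), X_inv (negI_lt (simple_lt hc hi)), mul_assoc, inv_neg]

include hc in
theorem ngen_conj_xg {i r : ℕ} (hi : i < D.rank) (hr : r < D.nroots) (t : Kˣ) (v : K) :
    ngen D K (D.simple i) (t : K) * xg D K r v * (ngen D K (D.simple i) (t : K))⁻¹ =
      xg D K (A.w i r) (((t ^ A.cA i (A.w i r) : Kˣ) : K) * (((A.eta i r : ℤ) : K) * v)) := by
  rw [ngen_simple_eq hc hi, show ∀ a b c : GL D.Idx K, a * b * c * (a * b)⁻¹ = a * (b * c * b⁻¹) * a⁻¹ from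
    fun a b c => by group, ng_conj_xg hc hi hr, hg, dg_conj_x hc (w_lt hc hi hr)]
  rw [show (fun k => t ^ A.cA i k) = torusVal A D.rank (fun k => if k = i then t else 1) from funext fun k => by
    rw [torusVal, Finset.prod_eq_single i] <;> simp +contextual [hi]]
  exact isChar_torusVal hc _

/-- roots with a coordinate off `i` of sign `e` -/
def offP (D : ChevalleyDatum) (A : Aux) (i : ℕ) (e : ℤ) (r : ℕ) : Prop :=
  ∃ j, j < D.rank ∧ j ≠ i ∧ 0 < e * A.co j r

include hc in
theorem offP_conj {i : ℕ} (hi : i < D.rank) {e : ℤ} {a : ℕ}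
    (ha : a = D.simple i ∨ a = negI D (D.simple i)) (t : K) {v : D.SteinbergCover K}
    (hv : v ∈ UB D K (offP D A i e) 0) : X D a t * v * (X D a t)⁻¹ ∈ UB D K (offP D A i e) 0 := by
  have han : a < D.nroots := by
    rcases ha with rfl | rfl
    exacts [simple_lt hc hi, negI_lt (simple_lt hc hi)]
  have h0 : ∀ j < D.rank, j ≠ i → A.co j a = 0 := fun j hj hne => by
    rcases ha with rfl | rfl
    · rw [co_simple hc hi hj, if_neg hne]
    · rw [co_neg hc hj (simple_lt hc hi), co_simple hc hi hj, if_neg hne, neg_zero]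
  refine conj_mem_of_gens (fun r u hr hP _ => ?_) hv
  obtain ⟨j, hj, hne, hpos⟩ := hP
  have n1 : r ≠ a := fun e' => by rw [e', h0 j hj hne, mul_zero] at hpos; exact lt_irrefl _ hpos
  have n2 : r ≠ negI D a := fun e' => by
    rw [e', co_neg hc hj han, h0 j hj hne, neg_zero, mul_zero] at hpos; exact lt_irrefl _ hpos
  rw [X_inv han, show X D a t = (X D a (-t))⁻¹ by rw [X_inv han, neg_neg]]
  refine conj_X hc han hr n1 n2 (-t) u (X_mem_UB hr ⟨j, hj, hne, hpos⟩ (Nat.zero_le _) u) fun q hq w => ?_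
  refine X_mem_UB (commTerms_comb hc han hr q hq).1 ⟨j, hj, hne, ?_⟩ (Nat.zero_le _) w
  obtain ⟨a', b', ha', hb', hk⟩ := (commTerms_comb hc han hr q hq).2
  rw [hk j hj, h0 j hj hne, mul_zero, zero_add, mul_left_comm]
  exact mul_pos (by exact_mod_cast hb') hpos

include hc in
theorem N_conj_off {i : ℕ} (hi : i < D.rank) {r : ℕ} (hr : r < D.nroots) (n1 : r ≠ D.simple i)
    (n2 : r ≠ negI D (D.simple i)) (t : Kˣ) (v : K) :
    N D i (t : K) * X D r v * (N D i (t : K))⁻¹ =
      X D (A.w i r) (((t ^ A.cA i (A.w i r) : Kˣ) : K) * (((A.eta i r : ℤ) : K) * v)) := by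
  have hw := w_lt hc hi hr
  have hθ : theta hc (N D i (t : K) * X D r v * (N D i (t : K))⁻¹) =
      theta hc (X D (A.w i r) (((t ^ A.cA i (A.w i r) : Kˣ) : K) * (((A.eta i r : ℤ) : K) * v))) := by
    rw [map_mul, map_mul, map_inv, theta_N hc hi, theta_X hc hr, theta_X hc hw, ngen_conj_xg hc hi hr]
  have key : ∀ e : ℤ, offP D A i e r → N D i (t : K) * X D r v * (N D i (t : K))⁻¹ ∈ UB D K (offP D A i e) 0 := by
    intro e he
    have h := offP_conj hc hi (Or.inl rfl) (t : K) (offP_conj hc hi (Or.inr rfl) (-(t : K)⁻¹)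
      (offP_conj hc hi (Or.inl rfl) (t : K) (X_mem_UB hr he (Nat.zero_le _) v)))
    have e' : N D i (t : K) * X D r v * (N D i (t : K))⁻¹ = X D (D.simple i) (t : K) *
        (X D (negI D (D.simple i)) (-(t : K)⁻¹) * (X D (D.simple i) (t : K) * X D r v * (X D (D.simple i) (t : K))⁻¹) *
          (X D (negI D (D.simple i)) (-(t : K)⁻¹))⁻¹) * (X D (D.simple i) (t : K))⁻¹ := by
      rw [N]; group
    rw [e']; exact h
  cases hp : A.pos r with
  | true =>
    obtain ⟨j, hj, hne, hpos⟩ := other_coord hc hi hr ⟨hp, n1⟩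
    have hle : UB D K (offP D A i 1) 0 ≤ UB D K (posP A) 0 := UB_le fun k u hk hP _ => by
      obtain ⟨j, hj, hne, hpos⟩ := hP
      exact X_mem_UB hk (posExcept_of_coord hc hi hk hj hne (by simpa using hpos)).1 (Nat.zero_le _) u
    exact theta_inj hc (hle (key 1 ⟨j, hj, hne, by simpa using hpos⟩))
      (X_mem_UB hw (pos_w hc hi hr hp n1) (Nat.zero_le _) _) hθ
  | false =>
    have hp' : A.pos (negI D r) = true := by rw [pos_neg hc hr, hp]; rfl
    have n3 : negI D r ≠ D.simple i := fun e => n2 (by rw [← e, negI_negI hr])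
    obtain ⟨j, hj, hne, hpos⟩ := other_coord hc hi (negI_lt hr) ⟨hp', n3⟩
    rw [co_neg hc hj hr] at hpos
    have hle : UB D K (offP D A i (-1)) 0 ≤ UB D K (negP A) 0 := UB_le fun k u hk hP _ => by
      obtain ⟨j, hj, hne, hpos⟩ := hP
      refine X_mem_UB hk ?_ (Nat.zero_le _) u
      have := (posExcept_of_coord hc hi (negI_lt hk) hj hne (by rw [co_neg hc hj hk]; simpa using hpos)).1
      rw [pos_neg hc hk] at this
      simpa [negP] using this
    refine theta_inj_neg hc (hle (key (-1) ⟨j, hj, hne, by simpa using hpos⟩)) (X_mem_UB hw ?_ (Nat.zero_le _) _) hθ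
    have h5 := pos_w hc hi (negI_lt hr) hp' n3
    rw [w_neg hc hi hr, pos_neg hc hw] at h5
    simpa [negP] using h5

/-- a pair whose commutator isolates the root `k` -/
def pairGood (D : ChevalleyDatum) (i k a b : ℕ) : Bool :=
  let p := D.simple i
  let q := negI D p
  Nat.blt a D.nroots && Nat.blt b D.nroots && !(Nat.beq b a) && !(Nat.beq b (negI D a)) &&
  !(Nat.beq a p) && !(Nat.beq a q) && !(Nat.beq b p) && !(Nat.beq b q) &&
  match (D.commTerms a b).filter fun c => Nat.beq c.1 p || Nat.beq c.1 q with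
  | [c] => Nat.beq c.1 k && Nat.beq c.2.1.natAbs 1 && (Nat.beq c.2.2.1 1 || Nat.beq c.2.2.2 1)
  | _ => false

/-- such pairs exist for all fundamental roots and their negatives -/
def linkOK (D : ChevalleyDatum) (A : Aux) : Bool :=
  allB D.rank fun i =>
    ((List.range D.rank).any fun j =>
      pairGood D i (D.simple i) (negI D (D.simple j)) (A.w j (D.simple i))) &&
    ((List.range D.rank).any fun j =>
      pairGood D i (negI D (D.simple i)) (D.simple j) (negI D (A.w j (D.simple i))))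

include hc in
theorem hom_agree {G : Type*} [Group G] (f g : D.SteinbergCover K →* G) {i k a b : ℕ}
    (hgood : pairGood D i k a b = true)
    (h : ∀ r t, r < D.nroots → r ≠ D.simple i → r ≠ negI D (D.simple i) → f (X D r t) = g (X D r t)) :
    ∀ z, f (X D k z) = g (X D k z) := by
  simp only [pairGood, Bool.and_eq_true, Nat.blt_eq, Bool.not_eq_true', ← Bool.not_eq_true, Nat.beq_eq] at hgood
  obtain ⟨⟨⟨⟨⟨⟨⟨⟨ha, hb⟩, hba⟩, hbna⟩, hap⟩, haq⟩, hbp⟩, hbq⟩, hm⟩ := hgood
  split at hm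
  swap; · cases hm
  rename_i c hfil
  simp only [Bool.and_eq_true, Bool.or_eq_true, Nat.beq_eq] at hm
  obtain ⟨⟨hck, hC⟩, hij⟩ := hm
  obtain ⟨pre, post, hsplit⟩ := List.append_of_mem
    (List.mem_of_mem_filter (show c ∈ (D.commTerms a b).filter _ by rw [hfil]; exact List.mem_singleton_self c))
  have hlen := congrArg List.length hfil
  have hcp : (Nat.beq c.1 (D.simple i) || Nat.beq c.1 (negI D (D.simple i))) = true :=
    (List.mem_filter.1 (show c ∈ (D.commTerms a b).filter _ by rw [hfil]; exact List.mem_singleton_self c)).2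
  rw [hsplit, List.filter_append, List.filter_cons_of_pos (by exact hcp), List.length_append, List.length_cons,
    List.length_singleton] at hlen
  have hpre : pre.filter (fun c => Nat.beq c.1 (D.simple i) || Nat.beq c.1 (negI D (D.simple i))) = [] :=
    List.eq_nil_iff_length_eq_zero.2 (by omega)
  have hpost : post.filter (fun c => Nat.beq c.1 (D.simple i) || Nat.beq c.1 (negI D (D.simple i))) = [] :=
    List.eq_nil_iff_length_eq_zero.2 (by omega)
  rw [List.filter_eq_nil_iff] at hpre hpost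
  intro z
  obtain ⟨t, u, htu⟩ : ∃ t u : K, (c.2.1 : K) * (-t) ^ c.2.2.1 * u ^ c.2.2.2 = z := by
    have hCC : (c.2.1 : K) * (c.2.1 : K) = 1 := by
      rcases Int.natAbs_eq_iff.mp hC with h | h <;> rw [h] <;> simp
    rcases hij with h1 | h1
    · exact ⟨-((c.2.1 : K) * z), 1, by rw [h1, neg_neg, pow_one, one_pow, mul_one, ← mul_assoc, hCC, one_mul]⟩
    · exact ⟨-1, (c.2.1 : K) * z, by rw [h1, neg_neg, one_pow, mul_one, pow_one, ← mul_assoc, hCC, one_mul]⟩
  have e := X_comm hc ha hb hba hbna t u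
  simp only [ev, ChevalleyDatum.commWord, hsplit, List.map_append, List.map_cons, List.prod_append,
    List.prod_cons, List.map_map, htu, hck] at e
  have hl : ∀ L : List (ℕ × ℤ × ℕ × ℕ), (∀ x ∈ L, x ∈ D.commTerms a b ∧
      ¬(Nat.beq x.1 (D.simple i) || Nat.beq x.1 (negI D (D.simple i))) = true) →
      f (L.map ((fun p : ℕ × K => X D p.1 p.2) ∘ fun c => (c.1, (c.2.1 : K) * (-t) ^ c.2.2.1 * u ^ c.2.2.2))).prod =
      g (L.map ((fun p : ℕ × K => X D p.1 p.2) ∘ fun c => (c.1, (c.2.1 : K) * (-t) ^ c.2.2.1 * u ^ c.2.2.2))).prod := by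
    intro L hL
    rw [map_list_prod, map_list_prod, List.map_map, List.map_map]
    congr 1
    refine List.map_congr_left fun x hx => ?_
    obtain ⟨hx1, hx2⟩ := hL x hx
    simp only [Bool.or_eq_true, Nat.beq_eq, not_or] at hx2
    exact h _ _ (commTerms_comb hc ha hb x hx1).1 hx2.1 hx2.2
  have ef := congrArg f e
  have eg := congrArg g e
  simp only [map_mul, map_inv, h _ _ ha hap haq, h _ _ hb hbp hbq] at ef eg
  rw [hl pre fun x hx => ⟨hsplit ▸ List.mem_append_left _ hx, hpre x hx⟩,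
    hl post fun x hx => ⟨hsplit ▸ List.mem_append_right _ (List.mem_cons_of_mem _ hx), hpost x hx⟩] at ef
  exact mul_right_cancel (mul_left_cancel (ef.symm.trans eg))

variable (hl : linkOK D A = true)

include hc hl in
theorem N_conj {i : ℕ} (hi : i < D.rank) {r : ℕ} (hr : r < D.nroots) (t : Kˣ) (v : K) :
    N D i (t : K) * X D r v * (N D i (t : K))⁻¹ =
      X D (A.w i r) (((t ^ A.cA i (A.w i r) : Kˣ) : K) * (((A.eta i r : ℤ) : K) * v)) := by
  obtain ⟨σ, hσ⟩ := exists_sig_hom (K := K) hc ⟨i, hi⟩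
  obtain ⟨μ, hμ⟩ := exists_scale_hom (K := K) hc hi t
  have hval : ∀ r v, r < D.nroots → μ.comp σ (X D r v) =
      X D (A.w i r) (((t ^ A.cA i (A.w i r) : Kˣ) : K) * (((A.eta i r : ℤ) : K) * v)) := fun r v hr => by
    rw [MonoidHom.comp_apply, hσ _ _ hr, hμ _ _ (w_lt hc hi hr)]
  have hoff : ∀ r v, r < D.nroots → r ≠ D.simple i → r ≠ negI D (D.simple i) →
      (MulAut.conj (N D i (t : K))).toMonoidHom (X D r v) = μ.comp σ (X D r v) := fun r v hr n1 n2 => by
    rw [hval r v hr]; exact N_conj_off hc hi hr n1 n2 t v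
  have hli := allB_iff.1 hl i hi
  simp only [Bool.and_eq_true, List.any_eq_true, List.mem_range] at hli
  obtain ⟨⟨j, -, g1⟩, ⟨j', -, g2⟩⟩ := hli
  rw [← hval r v hr]
  by_cases n1 : r = D.simple i
  · subst n1; exact hom_agree hc _ _ g1 hoff v
  by_cases n2 : r = negI D (D.simple i)
  · subst n2; exact hom_agree hc _ _ g2 hoff v
  exact hoff r v hr n1 n2

/-! ### the torus and the normal form -/

/-- `H` -/
def HB (D : ChevalleyDatum) (K : Type*) [Field K] : Subgroup (D.SteinbergCover K) :=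
  Subgroup.closure {g | ∃ (i : ℕ) (t : Kˣ), i < D.rank ∧ g = N D i (t : K) * (N D i (1 : K))⁻¹}

theorem hN_mem {i : ℕ} (hi : i < D.rank) (t : Kˣ) : N D i (t : K) * (N D i (1 : K))⁻¹ ∈ HB D K :=
  Subgroup.subset_closure ⟨i, t, hi, rfl⟩

include hc hl in
theorem HB_acts {h : D.SteinbergCover K} (hh : h ∈ HB D K) :
    theta hc h ∈ D.diagonalSubgroup K ∧ ∀ r < D.nroots, ∀ v, ∃ w, h * X D r v * h⁻¹ = X D r w := by
  induction hh using Subgroup.closure_induction'' with
  | one => exact ⟨by rw [map_one]; exact one_mem _, fun r _ v => ⟨v, by simp⟩⟩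
  | mem g hg =>
    obtain ⟨i, t, hi, rfl⟩ := hg
    refine ⟨?_, fun r hr v => ?_⟩
    · rw [map_mul, map_inv, theta_N hc hi, theta_N hc hi, ngen_simple_eq hc hi, ← Units.val_one (α := K),
        ngen_simple_eq hc hi, mul_inv_rev, ← mul_assoc, mul_inv_cancel_right]
      exact mul_mem (hg_mem hc hi t) (inv_mem (hg_mem hc hi 1))
    · have e := N_conj hc hl hi hr ((-1 : Kˣ)) v
      rw [Units.val_neg, Units.val_one, N_neg hc hi, inv_inv] at e
      refine ⟨_, by rw [mul_inv_rev, inv_inv, show N D i (t : K) * (N D i (1 : K))⁻¹ * X D r v *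
        (N D i (1 : K) * (N D i (t : K))⁻¹) = N D i (t : K) * ((N D i (1 : K))⁻¹ * X D r v * N D i (1 : K)) *
        (N D i (t : K))⁻¹ by group, e, N_conj hc hl hi (w_lt hc hi hr), w_w hc hi hr]⟩
  | inv_mem g hg =>
    obtain ⟨i, t, hi, rfl⟩ := hg
    refine ⟨?_, fun r hr v => ?_⟩
    · rw [map_inv, map_mul, map_inv, theta_N hc hi, theta_N hc hi, ngen_simple_eq hc hi, ← Units.val_one (α := K),
        ngen_simple_eq hc hi, mul_inv_rev (hg D A i 1), ← mul_assoc (hg D A i t * ng D K i),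
        mul_inv_cancel_right]
      exact inv_mem (mul_mem (hg_mem hc hi t) (inv_mem (hg_mem hc hi 1)))
    · have e := N_conj hc hl hi hr (-t) v
      rw [Units.val_neg, N_neg hc hi, inv_inv] at e
      refine ⟨_, by rw [mul_inv_rev, inv_inv, mul_inv_rev, inv_inv, show N D i (1 : K) * (N D i (t : K))⁻¹ * X D r v *
        (N D i (t : K) * (N D i (1 : K))⁻¹) = N D i (1 : K) * ((N D i (t : K))⁻¹ * X D r v * N D i (t : K)) *
        (N D i (1 : K))⁻¹ by group, e, ← Units.val_one (α := K), N_conj hc hl hi (w_lt hc hi hr), w_w hc hi hr]⟩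
  | mul a b _ _ iha ihb =>
    refine ⟨by rw [map_mul]; exact mul_mem iha.1 ihb.1, fun r hr v => ?_⟩
    obtain ⟨w, hw⟩ := ihb.2 r hr v
    obtain ⟨w', hw'⟩ := iha.2 r hr w
    exact ⟨w', by rw [← hw', ← hw]; group⟩

include hc hl in
theorem HB_conj_exact {h : D.SteinbergCover K} (hh : h ∈ HB D K) :
    ∃ f : ℕ → Kˣ, IsChar D f ∧ theta hc h = dg D f ∧
      ∀ r < D.nroots, ∀ v, h * X D r v * h⁻¹ = X D r ((f r : K) * v) := by
  obtain ⟨hθ, hact⟩ := HB_acts hc hl hh
  obtain ⟨f, hf, hfe⟩ := H_diagonal hc hθ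
  refine ⟨f, hf, hfe, fun r hr v => ?_⟩
  obtain ⟨w, hw⟩ := hact r hr v
  have e := congrArg (theta hc) hw
  rw [map_mul, map_mul, map_inv, theta_X hc hr, theta_X hc hr, hfe, dg_conj_x hc hr hf] at e
  rw [hw, xg_injective hc hr e]

/-- words in the `n_i` -/
def nw (D : ChevalleyDatum) (K : Type*) [Field K] (L : List (Fin D.rank)) : D.SteinbergCover K :=
  (L.map fun i : Fin D.rank => N D i (1 : K)).prod

theorem nw_cons (i : Fin D.rank) (L : List (Fin D.rank)) : nw D K (i :: L) = N D i (1 : K) * nw D K L := by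
  simp [nw]

theorem nw_append (L L' : List (Fin D.rank)) : nw D K (L ++ L') = nw D K L * nw D K L' := by simp [nw]

theorem theta_nw (L : List (Fin D.rank)) : theta hc (nw D K L) = wg D K L := by
  induction L with
  | nil => simp [nw]
  | cons i L ih => rw [nw_cons, map_mul, ih, wg_cons, theta_N hc i.2]; rfl

include hc hl in
theorem nw_acts (L : List (Fin D.rank)) : ∀ (r : Fin D.nroots) (v : K),
    ∃ w, nw D K L * X D r v * (nw D K L)⁻¹ = X D (wp hc L r) w := by
  induction L with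
  | nil => intro r v; exact ⟨v, by simp [nw]⟩
  | cons i L ih =>
    intro r v
    obtain ⟨w, hw⟩ := ih r v
    have e := N_conj hc hl i.2 (wp hc L r).2 (1 : Kˣ) w
    rw [Units.val_one] at e
    exact ⟨_, by rw [nw_cons, wp_cons, Equiv.Perm.mul_apply, sig_apply, ← e, ← hw]; group⟩

include hc hl in
theorem nw_conj_exact (L : List (Fin D.rank)) : ∃ c : Fin D.nroots → Kˣ,
    (∀ r, c (nR r) = (c r)⁻¹) ∧ ∀ (r : Fin D.nroots) (v : K),
      nw D K L * X D r v * (nw D K L)⁻¹ = X D (wp hc L r) ((c r : K) * v) := by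
  obtain ⟨-, c, hcn, hcx⟩ := acts_wg (F := K) hc L
  refine ⟨c, hcn, fun r v => ?_⟩
  obtain ⟨w, hw⟩ := nw_acts hc hl L r v
  have e := congrArg (theta hc) hw
  rw [map_mul, map_mul, map_inv, theta_X hc r.2, theta_X hc (wp hc L r).2, theta_nw, hcx] at e
  rw [hw, xg_injective hc (wp hc L r).2 e]

include hc hl in
theorem N_conj_HB {j : ℕ} (hj : j < D.rank) {h : D.SteinbergCover K} (hh : h ∈ HB D K) :
    N D j (1 : K) * h * (N D j (1 : K))⁻¹ ∈ HB D K := by
  obtain ⟨f, hf, -, hact⟩ := HB_conj_exact hc hl hh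
  have hs := simple_lt hc hj
  have e : h * N D j (1 : K) * h⁻¹ = N D j ((f (D.simple j) : Kˣ) : K) := by
    have a := hact _ hs 1
    have b := hact _ (negI_lt hs) (-(1 : K)⁻¹)
    rw [mul_one] at a
    rw [hf.neg _ hs, Units.val_inv_eq_inv_val, inv_one, mul_neg, mul_one] at b
    calc h * N D j (1 : K) * h⁻¹ = (h * X D (D.simple j) 1 * h⁻¹) * ((h * X D (negI D (D.simple j)) (-(1 : K)⁻¹) * h⁻¹) *
          (h * X D (D.simple j) 1 * h⁻¹)) := by rw [N]; group
      _ = _ := by rw [inv_one, a, b]; rfl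
  have : N D j (1 : K) * h * (N D j (1 : K))⁻¹ =
      (N D j ((f (D.simple j) : Kˣ) : K) * (N D j (1 : K))⁻¹)⁻¹ * h := by rw [← e]; group
  rw [this]
  exact mul_mem (inv_mem (hN_mem hj _)) hh

include hc hl in
theorem nw_conj_HB (L : List (Fin D.rank)) {h : D.SteinbergCover K} (hh : h ∈ HB D K) :
    nw D K L * h * (nw D K L)⁻¹ ∈ HB D K := by
  induction L with
  | nil => simpa [nw] using hh
  | cons i L ih =>
    rw [nw_cons, show N D i (1 : K) * nw D K L * h * (N D i (1 : K) * nw D K L)⁻¹ =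
      N D i (1 : K) * (nw D K L * h * (nw D K L)⁻¹) * (N D i (1 : K))⁻¹ by group]
    exact N_conj_HB hc hl i.2 ih

include hc in
theorem N_sq_mem {i : ℕ} (hi : i < D.rank) : N D i (1 : K) * N D i (1 : K) ∈ HB D K := by
  have := inv_mem (hN_mem (D := D) (K := K) hi (-1))
  rw [Units.val_neg, Units.val_one, N_neg hc hi, mul_inv_rev, inv_inv] at this
  exact this

theorem exists_cancel : ∀ (L : List (Fin D.rank)) (i : Fin D.rank), A.pos (wp hc L (sR hc i)) = false →
    ∃ L₁ j L₂, L = L₁ ++ j :: L₂ ∧ wp hc L₂ (sR hc i) = sR hc j := by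
  intro L
  induction L with
  | nil => intro i h; simp [sR, simple_pos hc i.2] at h
  | cons j L ih =>
    intro i h
    cases hp : A.pos (wp hc L (sR hc i)) with
    | false =>
      obtain ⟨L₁, j', L₂, e, h'⟩ := ih i hp
      exact ⟨j :: L₁, j', L₂, by rw [e]; rfl, h'⟩
    | true =>
      refine ⟨[], j, L, rfl, Fin.ext ?_⟩
      by_contra hne
      have := pos_w hc j.2 (wp hc L (sR hc i)).2 hp hne
      rw [wp_cons, Equiv.Perm.mul_apply, sig_apply, this] at h
      cases h

include hc hl in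
theorem nw_mem_HB : ∀ (n : ℕ) (L : List (Fin D.rank)), L.length = n → wp hc L = 1 → nw D K L ∈ HB D K := by
  intro n
  induction n using Nat.strong_induction_on with
  | _ n ih =>
    intro L hn h1
    rcases List.eq_nil_or_concat L with rfl | ⟨L', i, rfl⟩
    · simp [nw]
    rw [List.concat_eq_append] at hn h1 ⊢
    have hneg : A.pos (wp hc L' (sR hc i)) = false := by
      rw [wp_append, wp_cons, wp_nil, mul_one] at h1
      have : wp hc L' = sig hc i := by rw [← sig_inv hc i]; exact eq_inv_of_mul_eq_one_left h1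
      rw [this, sig_simple, pos_nR _ hc]
      simp [sR, simple_pos hc i.2]
    obtain ⟨L₁, j, L₂, rfl, hj⟩ := exists_cancel hc L' i hneg
    obtain ⟨c, hcn, hcx⟩ := nw_conj_exact (K := K) hc hl L₂
    have e : nw D K L₂ * N D i (1 : K) * (nw D K L₂)⁻¹ = N D j ((c (sR hc i) : Kˣ) : K) := by
      have a := hcx (sR hc i) 1
      have b := hcx (nR (sR hc i)) (-(1 : K)⁻¹)
      rw [(isRootAut_wp hc L₂).neg, hj, hcn] at b
      rw [hj] at a
      simp only [sR, nR, mul_one, inv_one, mul_neg, Units.val_inv_eq_inv_val] at a b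
      calc nw D K L₂ * N D i (1 : K) * (nw D K L₂)⁻¹ = (nw D K L₂ * X D (D.simple i) 1 * (nw D K L₂)⁻¹) *
          ((nw D K L₂ * X D (negI D (D.simple i)) (-(1 : K)⁻¹) * (nw D K L₂)⁻¹) *
            (nw D K L₂ * X D (D.simple i) 1 * (nw D K L₂)⁻¹)) := by rw [N]; group
        _ = _ := by rw [inv_one, a, b]; rfl
    have hshort : nw D K (L₁ ++ L₂) ∈ HB D K := by
      refine ih (L₁ ++ L₂).length (by simp at hn ⊢; omega) _ rfl ?_
      have hs : wp hc L₂ * sig hc i = sig hc j * wp hc L₂ := by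
        refine IsRootAut.ext hc ((isRootAut_wp hc L₂).mul (isRootAut_sig hc i))
          ((isRootAut_sig hc j).mul (isRootAut_wp hc L₂)) fun k => ?_
        obtain ⟨M, hM⟩ := (isRootAut_wp hc L₂).linear
        refine Fin.ext (root_ext hc ((wp hc L₂ * sig hc i) (sR hc k)).2 ((sig hc j * wp hc L₂) (sR hc k)).2 fun m hm => ?_)
        simp only [Equiv.Perm.mul_apply]
        rw [sig_apply, co_w hc j.2 hm (wp hc L₂ (sR hc k)).2, hM _ m hm]
        simp only [sig_apply]
        have hcA : A.cA j (wp hc L₂ (sR hc k)) = A.cA i (D.simple k) := by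
          rw [← pair_simple hc j.2, show D.simple j = ((wp hc L₂ (sR hc i) : Fin D.nroots) : ℕ) by rw [hj]; rfl,
            (isRootAut_wp hc L₂).pair, show ((sR hc i : Fin D.nroots) : ℕ) = D.simple i from rfl, pair_simple hc i.2]
          rfl
        have hMi : A.co m (D.simple j) = M m i := by
          rw [show D.simple j = ((wp hc L₂ (sR hc i) : Fin D.nroots) : ℕ) by rw [hj]; rfl, hM _ m hm,
            Finset.sum_eq_single (i : ℕ)]
          · simp [sR, co_simple hc i.2 i.2]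
          · intro l hl' hne
            simp [sR, co_simple hc i.2 (Finset.mem_range.1 hl'), hne]
          · intro h; exact absurd (Finset.mem_range.2 i.2) h
        have : ∀ l ∈ Finset.range D.rank, M m l * A.co l (A.w i (sR hc k)) =
            M m l * A.co l (sR hc k) - if l = (i : ℕ) then M m i * A.cA i (D.simple k) else 0 := fun l hl' => by
          rw [co_w hc i.2 (Finset.mem_range.1 hl') (sR hc k).2]
          split
          · subst_vars; simp [sR]; ring
          · ring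
        rw [Finset.sum_congr rfl this, Finset.sum_sub_distrib, Finset.sum_ite_eq', if_pos (Finset.mem_range.2 i.2),
          ← hM _ m hm, hcA, ← hMi, co_simple hc j.2 hm]
        split <;> ring
      rw [wp_append, wp_append, wp_cons, wp_cons, wp_nil, mul_one] at h1
      rw [wp_append, ← h1]
      rw [show wp hc L₁ * (sig hc j * wp hc L₂) * sig hc i = wp hc L₁ * (sig hc j * (wp hc L₂ * sig hc i)) by group,
        hs, ← mul_assoc (sig hc j), sig_sig, one_mul]
    have hH : N D j (1 : K) * N D j ((c (sR hc i) : Kˣ) : K) ∈ HB D K := by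
      have h2 := N_conj_HB hc hl j.2 (hN_mem (D := D) (K := K) j.2 (c (sR hc i)))
      have h3 := mul_mem h2 (N_sq_mem (K := K) hc j.2)
      rwa [show ∀ n m : D.SteinbergCover K, n * (m * n⁻¹) * n⁻¹ * (n * n) = n * m from fun n m => by group] at h3
    have : nw D K (L₁ ++ j :: L₂ ++ [i]) =
        (nw D K L₁ * (N D j (1 : K) * N D j ((c (sR hc i) : Kˣ) : K)) * (nw D K L₁)⁻¹) * nw D K (L₁ ++ L₂) := by
      simp only [nw_append, nw_cons, ← e]
      simp [nw]
      group
    rw [this]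
    exact mul_mem (nw_conj_HB hc hl L₁ hH) hshort

include hc in
theorem HB_conj_U {h : D.SteinbergCover K} (hh : h ∈ HB D K) (hl : linkOK D A = true) {u : D.SteinbergCover K}
    (hu : u ∈ UB D K (posP A) 0) : h * u * h⁻¹ ∈ UB D K (posP A) 0 := by
  obtain ⟨f, -, -, hact⟩ := HB_conj_exact hc hl hh
  exact conj_mem_of_gens (fun r t hr hP hcr => by rw [hact r hr]; exact X_mem_UB hr hP hcr _) hu

include hc hl in
theorem exists_normal_form_cover (g : D.SteinbergCover K) :
    ∃ u ∈ UB D K (posP A) 0, ∃ h ∈ HB D K, ∃ (L : List (Fin D.rank)), ∃ u' ∈ UB D K (posP A) 0,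
      g = u * h * nw D K L * u' := by
  let S : Set (D.SteinbergCover K) := {g | ∃ u ∈ UB D K (posP A) 0, ∃ h ∈ HB D K, ∃ (L : List (Fin D.rank)),
    ∃ u' ∈ UB D K (posP A) 0, g = u * h * nw D K L * u'}
  have sU : ∀ v ∈ UB D K (posP A) 0, ∀ z ∈ S, v * z ∈ S := by
    rintro v hv z ⟨u, hu, h, hh, L, u', hu', rfl⟩
    exact ⟨v * u, mul_mem hv hu, h, hh, L, u', hu', by group⟩
  have sH : ∀ k ∈ HB D K, ∀ z ∈ S, k * z ∈ S := by
    rintro k hk z ⟨u, hu, h, hh, L, u', hu', rfl⟩
    exact ⟨k * u * k⁻¹, HB_conj_U hc hk hl hu, k * h, mul_mem hk hh, L, u', hu', by group⟩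
  have sN : ∀ i : Fin D.rank, ∀ z ∈ S, N D i (1 : K) * z ∈ S := by
    rintro i z ⟨u, hu, h, hh, L, u', hu', rfl⟩
    have hp := simple_lt hc i.2
    have hq := negI_lt (D := D) hp
    obtain ⟨v, hv, a, rfl⟩ : ∃ v ∈ UB D K (offP D A i 1) 0, ∃ a, u = v * X D (D.simple i) a := by
      let T : Subgroup (D.SteinbergCover K) :=
        { carrier := {u | ∃ v ∈ UB D K (offP D A i 1) 0, ∃ a, u = v * X D (D.simple i) a}
          one_mem' := ⟨1, one_mem _, 0, by rw [X_zero hp, mul_one]⟩
          mul_mem' := by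
            rintro a b ⟨v, hv, t, rfl⟩ ⟨v', hv', t', rfl⟩
            refine ⟨_, mul_mem hv (offP_conj hc i.2 (Or.inl rfl) t hv'), t + t', ?_⟩
            rw [← X_add hp]; group
          inv_mem' := by
            rintro a ⟨v, hv, t, rfl⟩
            refine ⟨_, offP_conj hc i.2 (Or.inl rfl) (-t) (inv_mem hv), -t, ?_⟩
            rw [← X_inv hp]; group }
      refine UB_le (G := T) (fun r t hr hP _ => ?_) hu
      by_cases hri : r = D.simple i
      · exact ⟨1, one_mem _, t, by rw [one_mul, hri]⟩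
      · obtain ⟨j, hj, hne, hpos⟩ := other_coord hc i.2 hr ⟨hP, hri⟩
        exact ⟨_, X_mem_UB hr ⟨j, hj, hne, by simpa using hpos⟩ (Nat.zero_le _) t, 0, by rw [X_zero hp, mul_one]⟩
    have hnv : N D i (1 : K) * v * (N D i (1 : K))⁻¹ ∈ UB D K (posP A) 0 := by
      refine conj_mem_of_gens (fun r t hr hP _ => ?_) hv
      obtain ⟨j, hj, hne, hpos⟩ := hP
      obtain ⟨h1, h2⟩ := posExcept_of_coord hc i.2 hr hj hne (by simpa using hpos)
      have e := N_conj hc hl i.2 hr (1 : Kˣ) t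
      rw [Units.val_one] at e
      rw [e]
      exact X_mem_UB (w_lt hc i.2 hr) (pos_w hc i.2 hr h1 h2) (Nat.zero_le _) _
    obtain ⟨f, -, -, hact⟩ := HB_conj_exact hc hl hh
    have hb : ∃ b, X D (D.simple i) a * h = h * X D (D.simple i) b := by
      refine ⟨((f (D.simple i))⁻¹ : Kˣ) * a, ?_⟩
      have := hact _ hp (((f (D.simple i))⁻¹ : Kˣ) * a)
      rw [← mul_assoc, ← Units.val_mul, mul_inv_cancel, Units.val_one, one_mul] at this
      rw [← this]; group
    obtain ⟨b, hb⟩ := hb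
    rw [show N D i (1 : K) * (v * X D (D.simple i) a * h * nw D K L * u') =
      (N D i (1 : K) * v * (N D i (1 : K))⁻¹) * (N D i (1 : K) * (X D (D.simple i) a * h) * nw D K L * u') by group, hb,
      show N D i (1 : K) * (h * X D (D.simple i) b) * nw D K L * u' =
      (N D i (1 : K) * h * (N D i (1 : K))⁻¹) * (N D i (1 : K) * X D (D.simple i) b * nw D K L * u') by group]
    refine sU _ hnv _ (sH _ (N_conj_HB hc hl i.2 hh) _ ?_)
    obtain ⟨c, hcn, hcx⟩ := nw_conj_exact (K := K) hc hl L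
    set k := (wp hc L)⁻¹ (sR hc i) with hk
    have hk' : wp hc L k = sR hc i := (wp hc L).apply_symm_apply _
    have pull : ∀ w : K, X D (D.simple i) w * nw D K L = nw D K L * X D k ((((c k)⁻¹ : Kˣ) : K) * w) := fun w => by
      have := hcx k ((((c k)⁻¹ : Kˣ) : K) * w)
      rw [hk', ← mul_assoc, ← Units.val_mul, mul_inv_cancel, Units.val_one, one_mul] at this
      simp only [sR] at this
      rw [← this]; group
    have pull' : ∀ w : K, X D (negI D (D.simple i)) w * nw D K L = nw D K L * X D (nR k) ((((c (nR k))⁻¹ : Kˣ) : K) * w) := fun w => by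
      have := hcx (nR k) ((((c (nR k))⁻¹ : Kˣ) : K) * w)
      rw [(isRootAut_wp hc L).neg, hk', ← mul_assoc, ← Units.val_mul, mul_inv_cancel, Units.val_one, one_mul] at this
      simp only [sR, nR] at this ⊢
      rw [← this]; group
    have case1 : ∀ w : K, A.pos k = true → N D i (1 : K) * X D (D.simple i) w * nw D K L * u' ∈ S := fun w hpk => by
      refine ⟨1, one_mem _, 1, one_mem _, i :: L, _, mul_mem (X_mem_UB k.2 hpk (Nat.zero_le _) ((((c k)⁻¹ : Kˣ) : K) * w)) hu', ?_⟩
      rw [mul_assoc (N D i (1 : K)), pull, nw_cons]; group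
    by_cases hb0 : b = 0
    · subst hb0
      exact ⟨1, one_mem _, 1, one_mem _, i :: L, u', hu', by rw [X_zero hp, nw_cons]; group⟩
    cases hpk : A.pos k with
    | true => exact case1 b hpk
    | false =>
      have e1 := N_conj hc hl i.2 hp (1 : Kˣ) b
      rw [Units.val_one, one_zpow, Units.val_one, one_mul, w_simple hc i.2, eta_simple hc i.2, Int.cast_neg, Int.cast_one,
        neg_one_mul] at e1
      have e2 : X D (negI D (D.simple i)) (-b) = X D (D.simple i) (-b⁻¹) * N D i b⁻¹ * X D (D.simple i) (-b⁻¹) := by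
        rw [← X_inv hp, N, inv_inv]; group
      have e3 : ∀ w, ∃ w', X D (D.simple i) w * N D i (1 : K) = N D i (1 : K) * X D (negI D (D.simple i)) w' := fun w => by
        have e := N_conj hc hl i.2 hq (1 : Kˣ) (-w)
        rw [Units.val_one, one_zpow, Units.val_one, one_mul, w_neg_simple hc i.2, eta_neg hc i.2 hp, eta_simple hc i.2,
          Int.cast_neg, Int.cast_one, neg_one_mul, neg_neg] at e
        exact ⟨-w, by rw [← e]; group⟩
      obtain ⟨w', hw'⟩ := e3 (-b⁻¹)
      have hpk' : A.pos (nR k) = true := by rw [pos_nR _ hc, hpk]; rfl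
      have e4 : N D i (1 : K) * X D (D.simple i) b * nw D K L * u' =
          X D (D.simple i) (-b⁻¹) * ((N D i b⁻¹ * (N D i (1 : K))⁻¹) *
            ((N D i (1 : K) * N D i (1 : K)) * (nw D K L * (X D (nR k) ((((c (nR k))⁻¹ : Kˣ) : K) * w') * u')))) := by
        calc _ = (N D i (1 : K) * X D (D.simple i) b * (N D i (1 : K))⁻¹) * (N D i (1 : K) * nw D K L) * u' := by group
          _ = X D (D.simple i) (-b⁻¹) * N D i b⁻¹ * (X D (D.simple i) (-b⁻¹) * N D i (1 : K)) * nw D K L * u' := by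
            rw [e1, e2]; group
          _ = X D (D.simple i) (-b⁻¹) * N D i b⁻¹ * N D i (1 : K) * (X D (negI D (D.simple i)) w' * nw D K L) * u' := by
            rw [hw']; group
          _ = _ := by rw [pull']; group
      rw [e4]
      refine sU _ (X_mem_UB hp (simple_pos hc i.2) (Nat.zero_le _) _) _
        (sH _ (hN_mem i.2 (Units.mk0 b⁻¹ (inv_ne_zero hb0))) _ (sH _ (N_sq_mem hc i.2) _ ?_))
      exact ⟨1, one_mem _, 1, one_mem _, L, _, mul_mem (X_mem_UB (nR k).2 hpk' (Nat.zero_le _) _) hu', by simp only [one_mul, mul_one, mul_assoc]; rfl⟩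
  have sNi : ∀ i : Fin D.rank, ∀ z ∈ S, (N D i (1 : K))⁻¹ * z ∈ S := fun i z hz => by
    have e : (N D i (1 : K))⁻¹ = (N D i (1 : K) * N D i (1 : K))⁻¹ * N D i (1 : K) := by group
    rw [e, mul_assoc]
    exact sH _ (inv_mem (N_sq_mem hc i.2)) _ (sN i z hz)
  have sX : ∀ r, r < D.nroots → ∀ t, ∀ z ∈ S, X D r t * z ∈ S := by
    refine fun r hr => root_induction hc (P := fun r => ∀ (t : K), ∀ z ∈ S, X D r t * z ∈ S)
      (fun i hi t z hz => sU _ (X_mem_UB (simple_lt hc hi) (simple_pos hc hi) (Nat.zero_le _) t) z hz)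
      (fun i r hi hr ih t z hz => ?_) r hr
    have e := N_conj hc hl hi hr (1 : Kˣ) (((A.eta i r : ℤ) : K) * t)
    rw [Units.val_one, one_zpow, Units.val_one, one_mul, ← mul_assoc, ← Int.cast_mul, eta_mul_self, Int.cast_one,
      one_mul] at e
    rw [← e, mul_assoc, mul_assoc]
    exact sN ⟨i, hi⟩ _ (ih _ _ (sNi ⟨i, hi⟩ z hz))
  have hg : g ∈ Subgroup.closure {g : D.SteinbergCover K | ∃ r t, r < D.nroots ∧ g = X D r t} := by
    rw [closure_X]; trivial
  have h1 : (1 : D.SteinbergCover K) ∈ S := ⟨1, one_mem _, 1, one_mem _, [], 1, one_mem _, by simp [nw]⟩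
  suffices ∀ z ∈ S, g * z ∈ S by
    have h2 := this 1 h1
    rw [mul_one] at h2
    exact h2
  induction hg using Subgroup.closure_induction'' with
  | one => intro z hz; simpa using hz
  | mem g hg => obtain ⟨r, t, hr, rfl⟩ := hg; exact sX r hr t
  | inv_mem g hg => obtain ⟨r, t, hr, rfl⟩ := hg; rw [X_inv hr]; exact sX r hr _
  | mul a b _ _ iha ihb => intro z hz; rw [mul_assoc]; exact iha _ (ihb z hz)

include hc hl in
theorem ker_le_HB {g : D.SteinbergCover K} (hg : theta hc g = 1) : g ∈ HB D K := by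
  obtain ⟨u, hu, h, hh, L, u', hu', rfl⟩ := exists_normal_form_cover hc hl g
  have hu1 : theta hc u ∈ D.posUnipotent K := by rw [posUnipotent_eq hc]; exact theta_UB hc hu
  have hu2 : theta hc u' ∈ D.posUnipotent K := by rw [posUnipotent_eq hc]; exact theta_UB hc hu'
  have hh1 := (HB_acts hc hl hh).1
  have hB : wg D K L ∈ D.borelSubgroup K := by
    rw [map_mul, map_mul, map_mul, theta_nw] at hg
    rw [show wg D K L = (theta hc u * theta hc h)⁻¹ * (theta hc u * theta hc h * wg D K L * theta hc u') *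
      (theta hc u')⁻¹ by group, hg, mul_one]
    exact (D.borelSubgroup K).mul_mem ((D.borelSubgroup K).inv_mem ((D.borelSubgroup K).mul_mem (U_le_B hu1) (H_le_B hh1))) ((D.borelSubgroup K).inv_mem (U_le_B hu2))
  have hH : wg D K L ∈ D.diagonalSubgroup K := by rw [← B_inf_N hc]; exact ⟨hB, wg_mem_N hc L⟩
  have hπ : wp hc L = 1 := (acts_wg hc L).unique hc (acts_H hc hH)
  have hn : h * nw D K L ∈ HB D K := mul_mem hh (nw_mem_HB hc hl _ L rfl hπ)
  have e : u * h * nw D K L * u' = (u * ((h * nw D K L) * u' * (h * nw D K L)⁻¹)) * (h * nw D K L) := by group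
  rw [e] at hg ⊢
  have hu'' := mul_mem hu (HB_conj_U hc hn hl hu')
  have h2 : theta hc (u * ((h * nw D K L) * u' * (h * nw D K L)⁻¹)) ∈
      D.posUnipotent K ⊓ D.diagonalSubgroup K := by
    refine ⟨by rw [posUnipotent_eq hc]; exact theta_UB hc hu'', ?_⟩
    rw [map_mul] at hg
    rw [eq_inv_of_mul_eq_one_left hg]
    exact (D.diagonalSubgroup K).inv_mem (HB_acts hc hl hn).1
  rw [U_inf_H hc, Subgroup.mem_bot] at h2
  rw [theta_inj hc hu'' (one_mem _) (by rw [h2, map_one]), one_mul]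
  exact hn

include hc hl in
theorem ker_le_center {g : D.SteinbergCover K} (hg : theta hc g = 1) :
    g ∈ Subgroup.center (D.SteinbergCover K) := by
  obtain ⟨f, -, hfe, hact⟩ := HB_conj_exact hc hl (ker_le_HB hc hl hg)
  rw [hg] at hfe
  have hcen : (⊤ : Subgroup (D.SteinbergCover K)) ≤ Subgroup.centralizer {g} := by
    rw [← closure_X, Subgroup.closure_le]
    rintro _ ⟨r, t, hr, rfl⟩
    rw [SetLike.mem_coe, Subgroup.mem_centralizer_singleton_iff]
    have h1 : f r = 1 := (dg_eq_iff.1 (hfe.symm.trans dg_one.symm)) r hr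
    have := hact r hr t
    rw [h1, Units.val_one, one_mul, mul_inv_eq_iff_eq_mul] at this
    exact this.symm
  exact Subgroup.mem_center_iff.2 fun b => Subgroup.mem_centralizer_singleton_iff.1 (hcen (Subgroup.mem_top b))

end Cfsg.Lib.Chev.CoverStruct
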