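/-
The isolating pairs exist for the seven tabulated data.
-/
import Cfsg.Agent.Lib.Chev.CoverStruct

set_option autoImplicit false
set_option maxRecDepth 100000

namespace Cfsg.Lib.Chev.CoverStruct

open Cfsg.Lie

theorem linkG2 : linkOK chevG2 auxG2 = true := by decide +kernel
theorem linkB2 : linkOK chevB2 auxB2 = true := by decide +kernel
theorem linkD4 : linkOK chevD4 auxD4 = true := by decide +kernel
theorem linkF4 : linkOK chevF4 auxF4 = true := by decide +kernel
theorem linkE6 : linkOK chevE6 auxE6 = true := by decide +kernel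
theorem linkE7 : linkOK chevE7 auxE7 = true := by decide +kernel
theorem linkE8 : linkOK chevE8 auxE8 = true := by decide +kernel

theorem linked_of_mem {D : ChevalleyDatum}
    (hD : D ∈ [chevG2, chevB2, chevD4, chevF4, chevE6, chevE7, chevE8]) :
    ∃ A : Aux, Cert D A ∧ linkOK D A = true := by
  simp only [List.mem_cons, List.not_mem_nil, or_false] at hD
  rcases hD with rfl | rfl | rfl | rfl | rfl | rfl | rfl
  exacts [⟨_, certG2, linkG2⟩, ⟨_, certB2, linkB2⟩, ⟨_, certD4, linkD4⟩, ⟨_, certF4, linkF4⟩,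
    ⟨_, certE6, linkE6⟩, ⟨_, certE7, linkE7⟩, ⟨_, certE8, linkE8⟩]

end Cfsg.Lib.Chev.CoverStruct
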