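/-
The projection onto the Chevalley group and its presented variants.
-/
import Cfsg.Agent.Lib.Chev.CoverStructData
import Cfsg.Agent.Lib.Chev.Bruhat

set_option autoImplicit false
set_option linter.unusedSectionVars false

namespace Cfsg.Lib.Chev.CoverStruct

open Cfsg.Lie Cfsg.Lib.Chev

variable {D : ChevalleyDatum} {A : Aux} (hc : Cert D A) {K : Type*} [Field K]

theorem theta_mem (g : D.SteinbergCover K) : theta hc g ∈ D.group K := by
  have h : (⊤ : Subgroup (D.SteinbergCover K)) ≤ (D.group K).comap (theta hc) := by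
    rw [← closure_X, Subgroup.closure_le]
    rintro _ ⟨r, t, hr, rfl⟩
    rw [SetLike.mem_coe, Subgroup.mem_comap, theta_X hc hr]
    exact xg_mem_group hc hr t
  exact h (Subgroup.mem_top g)

/-- the projection with values in the group -/
noncomputable def thetaG : D.SteinbergCover K →* ↥(D.group K) := (theta hc).codRestrict _ (theta_mem hc)

theorem thetaG_val (g : D.SteinbergCover K) : (thetaG hc g : GL D.Idx K) = theta hc g := rfl

theorem thetaG_surjective : Function.Surjective (thetaG hc (K := K)) := by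
  intro x
  have h : D.group K ≤ (theta hc (K := K)).range :=
    group_le hc fun r hr t => ⟨X D r t, theta_X hc hr t⟩
  obtain ⟨g, hg⟩ := h x.2
  exact ⟨g, Subtype.ext hg⟩

/-- the quotient map to the group with the relators (R3) -/
noncomputable def toSt (D : ChevalleyDatum) (K : Type*) [Field K] : D.SteinbergCover K →* D.SteinbergGroup K :=
  PresentedGroup.toGroup (f := fun p => PresentedGroup.of (rels := D.steinbergRels K) p) fun g hg => by
    have e : FreeGroup.lift (fun p => PresentedGroup.of (rels := D.steinbergRels K) p) g =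
        PresentedGroup.mk (D.steinbergRels K) g := by
      refine congrFun (congrArg DFunLike.coe ?_) g
      exact FreeGroup.ext_hom _ _ fun x => by rw [FreeGroup.lift_apply_of]; rfl
    rw [e]
    exact PresentedGroup.one_of_mem (Or.inl hg)

theorem toSt_mk (g : FreeGroup (Fin D.nroots × K)) :
    toSt D K (PresentedGroup.mk (D.steinbergRelsAB K) g) = PresentedGroup.mk (D.steinbergRels K) g := by
  exact DFunLike.congr_fun (FreeGroup.ext_hom ((toSt D K).comp (PresentedGroup.mk (D.steinbergRelsAB K)))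
    (PresentedGroup.mk (D.steinbergRels K)) fun x => by
      show toSt D K (PresentedGroup.of x) = PresentedGroup.of x
      rw [toSt, PresentedGroup.toGroup.of]) g

theorem toSt_X (r : ℕ) (t : K) : toSt D K (X D r t) = D.stGen K r t := toSt_mk _

theorem toSt_surjective : Function.Surjective (toSt D K) := fun g => by
  obtain ⟨w, rfl⟩ := PresentedGroup.mk_surjective (D.steinbergRels K) g
  exact ⟨_, toSt_mk w⟩

include hc in
theorem stH_eq {i : ℕ} (hi : i < D.rank) (t : K) :
    PresentedGroup.mk (D.steinbergRelsAB K) (D.stH (D.simple i) t) = N D i t * N D i (-1) := by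
  rw [ChevalleyDatum.stH, mk_stWord]
  simp [ev, ChevalleyDatum.hWord, ChevalleyDatum.nWord, N, neg_eq hc (simple_lt hc hi), mul_assoc]

include hc in
theorem HB_le_stH {g : D.SteinbergCover K} (hg : g ∈ HB D K) :
    toSt D K g ∈ Subgroup.closure {h | ∃ (i : ℕ) (t : K), i < D.rank ∧ t ≠ 0 ∧
      h = PresentedGroup.mk (D.steinbergRels K) (D.stH (D.simple i) t)} := by
  refine Subgroup.mem_comap.1 ((?_ : HB D K ≤ (Subgroup.closure {h | ∃ (i : ℕ) (t : K), i < D.rank ∧ t ≠ 0 ∧
      h = PresentedGroup.mk (D.steinbergRels K) (D.stH (D.simple i) t)}).comap (toSt D K)) hg)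
  refine (Subgroup.closure_le _).2 ?_
  rintro _ ⟨i, t, hi, rfl⟩
  refine Subgroup.subset_closure ⟨i, t, hi, t.ne_zero, ?_⟩
  rw [← toSt_mk, stH_eq hc hi, N_neg hc hi]

include hc in
/-- the centre of the group is trivial -/
theorem group_center_eq_one {g : ↥(D.group K)} (hg : g ∈ Subgroup.center ↥(D.group K)) : g = 1 := by
  have hcomm : ∀ x ∈ D.group K, x * (g : GL D.Idx K) = (g : GL D.Idx K) * x := fun x hx =>
    congrArg Subtype.val (Subgroup.mem_center_iff.1 hg ⟨x, hx⟩)
  obtain ⟨b, hb, n, hn, π, hact, u, hu, he⟩ := exists_normal_form hc g.2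
  have hu' : u ∈ D.posUnipotent K := Uw_le_U hc hu
  have hB : (g : GL D.Idx K) ∈ D.borelSubgroup K := by
    have hnB : n ∈ D.borelSubgroup K := by
      obtain ⟨L, ⟨h, hh, hnL⟩, hlen⟩ := exists_reduced hc hn
      by_cases hL : L = []
      · rw [hnL, hL, wg_nil, mul_one]; exact H_le_B hh
      exfalso
      obtain ⟨s, hs1, hs2⟩ := exists_pos_to_neg hc (wp hc L) rfl hlen hL
      have hact' : Acts D A n (wp hc L) := hnL ▸ acts_hwg hc hh L
      have hx := U_le_B (xg_mem_U hc s.2 hs1 (1 : K))
      have hxu : u * xg D K s 1 * u⁻¹ ∈ D.posUnipotent K :=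
        (D.posUnipotent K).mul_mem ((D.posUnipotent K).mul_mem hu' (xg_mem_U hc s.2 hs1 1)) ((D.posUnipotent K).inv_mem hu')
      have e : n * xg D K s 1 * n⁻¹ = b⁻¹ * (u⁻¹ * xg D K s 1 * u) * b := by
        have hgx := hcomm (u⁻¹ * xg D K s 1 * u) ((D.group K).mul_mem ((D.group K).mul_mem
          ((D.group K).inv_mem (U_le_group hc hu')) (xg_mem_group hc s.2 1)) (U_le_group hc hu'))
        calc n * xg D K s 1 * n⁻¹ = b⁻¹ * ((b * n * u) * (u⁻¹ * xg D K s 1 * u) * (b * n * u)⁻¹) * b := by group
          _ = _ := by rw [← he, ← hgx, mul_inv_cancel_right]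
      have hmem : n * xg D K s 1 * n⁻¹ ∈ D.borelSubgroup K ⊓ D.negUnipotent K := by
        refine ⟨?_, hact'.neg_subset hc hs2 1⟩
        rw [e]
        exact (D.borelSubgroup K).mul_mem ((D.borelSubgroup K).mul_mem ((D.borelSubgroup K).inv_mem hb)
          ((D.borelSubgroup K).mul_mem ((D.borelSubgroup K).mul_mem ((D.borelSubgroup K).inv_mem (U_le_B hu')) hx)
            (U_le_B hu'))) hb
      rw [B_inf_V hc, Subgroup.mem_bot, mul_inv_eq_one, mul_eq_left] at hmem
      exact one_ne_zero ((xg_eq_one_iff hc s.2 (1 : K)).1 hmem)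
    rw [he]
    exact (D.borelSubgroup K).mul_mem ((D.borelSubgroup K).mul_mem hb hnB) (U_le_B hu')
  have hcore : g ∈ ((D.borelSubgroup K).subgroupOf (D.group K)).normalCore := by
    intro k
    rw [Subgroup.mem_center_iff.1 hg k, mul_inv_cancel_right]
    exact hB
  rw [normalCore_eq_bot hc, Subgroup.mem_bot] at hcore
  exact hcore

end Cfsg.Lib.Chev.CoverStruct
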