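import Cfsg.Agent.Lib.Chev.CoverPerfectCert
import Mathlib.GroupTheory.Abelianization.Defs
import Mathlib.GroupTheory.PresentedGroup

/-! Soundness of the certificates: the Steinberg cover is perfect. -/

set_option autoImplicit false

namespace Cfsg.Lib.Chev.CoverPerfect

open Cfsg.Lie

universe uK uA

variable {K : Type uK} [Field K] {A : Type uA} [CommGroup A]

theorem prod_map_filter_eq {α : Type*} (g : α → A) (p : α → Bool) :
    ∀ L : List α, (∀ x ∈ L, p x = false → g x = 1) → (L.map g).prod = ((L.filter p).map g).prod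
  | [], _ => rfl
  | a :: L, h => by
    have ih := prod_map_filter_eq g p L fun x hx => h x (List.mem_cons_of_mem _ hx)
    rcases hp : p a with _ | _
    · rw [List.filter_cons_of_neg (by simp [hp]), List.map_cons, List.prod_cons,
        h a List.mem_cons_self hp, one_mul, ih]
    · rw [List.filter_cons_of_pos hp, List.map_cons, List.prod_cons, List.map_cons, List.prod_cons, ih]

variable (D : ChevalleyDatum) (f : ℕ → K → A)

/-- the hypotheses coming from (R1) and (R2) -/
structure IsRelHom : Prop where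
  add : ∀ r t₁ t₂, f r (t₁ + t₂) = f r t₁ * f r t₂
  comm : ∀ r s t u, r < D.nroots → s < D.nroots → s ≠ r → s ≠ D.neg r →
    ((D.commWord K r s t u).map fun p => f p.1 p.2).prod = 1

variable {D f}

theorem IsRelHom.zero (h : IsRelHom D f) (r : ℕ) : f r 0 = 1 := by
  have h0 := h.add r 0 0
  rw [add_zero] at h0
  exact left_eq_mul.mp h0

theorem cast_natAbs_one {C : ℤ} (hC : C.natAbs = 1) : (C : K) * (C : K) = 1 := by
  rcases Int.natAbs_eq_iff.mp hC with h | h <;> subst h <;> simp

/-- a single surviving term kills its root -/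
theorem one_term (k : ℕ) {C : ℤ} (hC : C.natAbs = 1) {i j : ℕ} (hij : i = 1 ∨ j = 1)
    (hrel : ∀ t u : K, f k ((C : K) * (-t) ^ i * u ^ j) = 1) (x : K) : f k x = 1 := by
  have hCC := cast_natAbs_one (K := K) hC
  rcases hij with rfl | rfl
  · have h := hrel (-((C : K) * x)) 1
    rwa [neg_neg, pow_one, one_pow, mul_one, ← mul_assoc, hCC, one_mul] at h
  · have h := hrel (-1) ((C : K) * x)
    rwa [neg_neg, one_pow, mul_one, pow_one, ← mul_assoc, hCC, one_mul] at h

/-- two surviving terms, the first of bidegree (1, 1), kill the first root -/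
theorem two_terms (h : IsRelHom D f) (P Q : ℕ) {C C' : ℤ} (hC : C.natAbs = 1) {i' j' : ℕ}
    (hij : (i' = 1 ∧ j' = 2) ∨ (i' = 2 ∧ j' = 1)) (hlam : ∃ l : K, l ≠ 0 ∧ l ≠ 1)
    (hrel : ∀ t u : K, f P ((C : K) * (-t) * u) * f Q ((C' : K) * (-t) ^ i' * u ^ j') = 1)
    (x : K) : f P x = 1 := by
  have hCC := cast_natAbs_one (K := K) hC
  obtain ⟨l, hl0, hl1⟩ := hlam
  have hd : (1 - l⁻¹) ≠ 0 := sub_ne_zero.mpr fun e => hl1 (by simpa using e.symm)
  set y : K := (C : K) * x / (1 - l⁻¹) with hy
  -- the two specialisations have the same second factor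
  obtain ⟨t₁, u₁, t₂, u₂, e1, e2, eQ⟩ : ∃ t₁ u₁ t₂ u₂ : K, (-t₁) * u₁ = y ∧ (-t₂) * u₂ = y * l⁻¹ ∧
      (-t₁) ^ i' * u₁ ^ j' = (-t₂) ^ i' * u₂ ^ j' := by
    rcases hij with ⟨rfl, rfl⟩ | ⟨rfl, rfl⟩
    · exact ⟨-y, 1, -(y / l ^ 2), l, by simp, by field_simp, by field_simp⟩
    · exact ⟨-1, y, -l, y / l ^ 2, by simp, by field_simp, by field_simp⟩
  have h1 := hrel t₁ u₁
  have h2 := hrel t₂ u₂
  rw [mul_assoc, e1, mul_assoc, eQ, ← mul_assoc] at h1
  rw [mul_assoc, e2] at h2
  have heq : f P ((C : K) * y) = f P ((C : K) * (y * l⁻¹)) :=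
    mul_right_cancel (h1.trans h2.symm)
  have hx : (C : K) * y - (C : K) * (y * l⁻¹) = x := by
    calc _ = (C : K) * (y * (1 - l⁻¹)) := by ring
      _ = (C : K) * ((C : K) * x) := by rw [hy, div_mul_cancel₀ _ hd]
      _ = x := by rw [← mul_assoc, hCC, one_mul]
  have h3 := h.add P ((C : K) * (y * l⁻¹)) x
  rw [← hx, add_sub_cancel, hx, ← heq] at h3
  exact left_eq_mul.mp h3

theorem step_sound (h : IsRelHom D f) {lam : Bool} (hlam : lam = true → ∃ l : K, l ≠ 0 ∧ l ≠ 1)
    {killed : List ℕ} (hk : ∀ r ∈ killed, ∀ x, f r x = 1) {a b k : ℕ}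
    (hs : step D lam killed a b = some k) : ∀ x, f k x = 1 := by
  unfold step at hs
  split_ifs at hs with hab
  obtain ⟨ha, hb, hba, hbna⟩ := hab
  have hrel : ∀ t u : K, (((D.commTerms a b).filter fun c => !killed.contains c.1).map
      fun c => f c.1 ((c.2.1 : K) * (-t) ^ c.2.2.1 * u ^ c.2.2.2)).prod = 1 := by
    intro t u
    rw [← prod_map_filter_eq]
    · have := h.comm a b t u ha hb hba hbna
      rwa [ChevalleyDatum.commWord, List.map_map] at this
    · intro c _ hc
      exact hk c.1 (by simpa using hc) _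
  intro x
  split at hs
  · rename_i k' C i j heq
    split_ifs at hs with hcond
    obtain rfl := Option.some.inj hs
    refine one_term k' hcond.1 hcond.2 (fun t u => ?_) x
    have := hrel t u
    rw [heq] at this
    simpa using this
  · rename_i P C i j Q C' i' j' heq
    split_ifs at hs with hcond
    obtain rfl := Option.some.inj hs
    obtain ⟨hl, hC, rfl, rfl, hij⟩ := hcond
    refine two_terms h P Q (C' := C') hC hij (hlam hl) (fun t u => ?_) x
    have := hrel t u
    rw [heq] at this
    simpa using this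
  · exact absurd hs (by simp)

theorem chk_sound (h : IsRelHom D f) {lam : Bool} (hlam : lam = true → ∃ l : K, l ≠ 0 ∧ l ≠ 1) :
    ∀ (L : List (ℕ × ℕ)) (killed : List ℕ), (∀ r ∈ killed, ∀ x, f r x = 1) →
      chk D lam killed L = true → ∀ r < D.nroots, ∀ x, f r x = 1
  | [], killed, hk, hc => by
    intro r hr
    simp only [chk, List.all_eq_true, List.mem_range] at hc
    exact hk r (by simpa using hc r hr)
  | (a, b) :: L, killed, hk, hc => by
    rw [chk] at hc
    split at hc
    · rename_i k hs
      refine chk_sound h hlam L (k :: killed) ?_ hc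
      intro r hr
      rcases List.mem_cons.mp hr with rfl | hr
      · exact step_sound h hlam hk hs
      · exact hk r hr
    · exact absurd hc (by simp)

/-- The Steinberg cover is perfect when a certificate exists. -/
theorem commutator_eq_top (D : ChevalleyDatum) (K : Type uK) [Field K] {lam : Bool}
    (hlam : lam = true → ∃ l : K, l ≠ 0 ∧ l ≠ 1) (hc : ∃ L, chk D lam [] L = true) :
    commutator (D.SteinbergCover K) = ⊤ := by
  let f : ℕ → K → Abelianization (D.SteinbergCover K) :=
    fun r t => Abelianization.of (D.scGen K r t)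
  have h : IsRelHom D f := by
    constructor
    · intro r t₁ t₂
      simp only [f, ← map_mul]
      congr 1
      by_cases hr : r < D.nroots
      · refine (mul_inv_eq_one.mp ?_).symm
        simp only [ChevalleyDatum.scGen, ← map_mul, ← map_inv]
        exact PresentedGroup.one_of_mem (Or.inl ⟨r, t₁, t₂, hr, rfl⟩)
      · simp [ChevalleyDatum.scGen, ChevalleyDatum.stX, hr]
    · intro r s t u hr hs hne hne'
      have hrel : PresentedGroup.mk (D.steinbergRelsAB K) _ = 1 :=
        PresentedGroup.one_of_mem (rels := D.steinbergRelsAB K) (Or.inr ⟨r, s, t, u, hr, hs, hne, hne', rfl⟩)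
      have h2 := congrArg (Abelianization.of) hrel
      simp only [map_mul, map_inv, map_one] at h2
      rw [mul_inv_eq_one] at h2
      simp only [ChevalleyDatum.stWord, map_list_prod, List.map_map] at h2
      refine Eq.trans ?_ (h2.symm.trans ?_)
      · rfl
      · simp [mul_comm]
  obtain ⟨L, hL⟩ := hc
  have hall := chk_sound h hlam L [] (by simp) hL
  have hof : (Abelianization.of : D.SteinbergCover K →* _) = 1 := by
    refine PresentedGroup.ext fun p => ?_
    obtain ⟨⟨r, hr⟩, t⟩ := p
    have := hall r hr t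
    simp only [f, ChevalleyDatum.scGen, ChevalleyDatum.stX, dif_pos hr] at this
    exact this
  rw [← Abelianization.ker_of, hof, MonoidHom.ker_one]

theorem lie4_cover_perfect (K : Type uK) [Field K] (D : ChevalleyDatum)
    (hD : D ∈ [chevG2, chevB2, chevD4, chevF4, chevE6, chevE7, chevE8])
    (hK : D ∈ [chevB2, chevG2] → ∃ x : K, x ≠ 0 ∧ x ≠ 1) :
    commutator (D.SteinbergCover K) = ⊤ := by
  simp only [List.mem_cons, List.not_mem_nil, or_false] at hD hK
  rcases hD with rfl | rfl | rfl | rfl | rfl | rfl | rfl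
  · exact commutator_eq_top _ K (fun _ => hK (Or.inr rfl)) certG2
  · exact commutator_eq_top _ K (fun _ => hK (Or.inl rfl)) certB2
  · exact commutator_eq_top _ K (by simp) certD4
  · exact commutator_eq_top _ K (by simp) certF4
  · exact commutator_eq_top _ K (by simp) certE6
  · exact commutator_eq_top _ K (by simp) certE7
  · exact commutator_eq_top _ K (by simp) certE8

end Cfsg.Lib.Chev.CoverPerfect
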