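import Cfsg.Prelude.Def_SteinbergCover

/-! Certificates for perfectness of the group presented by the relations (R1), (R2). -/

set_option autoImplicit false

namespace Cfsg.Lib.Chev.CoverPerfect

open Cfsg.Lie

/-- the root shown to vanish in the abelianisation by the pair `(a, b)`, given the roots known to vanish -/
def step (D : ChevalleyDatum) (lam : Bool) (killed : List ℕ) (a b : ℕ) : Option ℕ :=
  if a < D.nroots ∧ b < D.nroots ∧ b ≠ a ∧ b ≠ D.neg a then
    match (D.commTerms a b).filter (fun c => !killed.contains c.1) with
    | [(k, C, i, j)] => if C.natAbs = 1 ∧ (i = 1 ∨ j = 1) then some k else none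
    | [(P, C, i, j), (_, _, i', j')] =>
      if lam = true ∧ C.natAbs = 1 ∧ i = 1 ∧ j = 1 ∧ ((i' = 1 ∧ j' = 2) ∨ (i' = 2 ∧ j' = 1)) then some P else none
    | _ => none
  else none

/-- check a certificate -/
def chk (D : ChevalleyDatum) (lam : Bool) : List ℕ → List (ℕ × ℕ) → Bool
  | killed, [] => (List.range D.nroots).all fun r => killed.contains r
  | killed, (a, b) :: L =>
    match step D lam killed a b with
    | some k => chk D lam (k :: killed) L
    | none => false

end Cfsg.Lib.Chev.CoverPerfect
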