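/-
The Steinberg character of a Chevalley group.
-/
import Cfsg.Prelude.Def_ParabolicCharacters
import Cfsg.Agent.S2326
import Cfsg.Agent.Lib.Chev.BN
import Cfsg.Agent.Lib.Chev.OrderData
import Cfsg.Agent.Lib.LieBN.SteinbergChar

set_option autoImplicit false
set_option linter.unusedSectionVars false

namespace Cfsg.Lib.Chev

open Cfsg.Lie

variable {D : ChevalleyDatum} {A : Aux} (hc : Cert D A) (F : Type*) [Field F]

/-- the distinguished generator with a given index -/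
noncomputable def phiS (i : Fin D.rank) : (bnPair F hc).S :=
  ⟨⟨ng D F i, coe_mem_group_ng hc F i⟩, (mem_S_iff hc F).2 ⟨i, rfl⟩⟩

theorem phiS_bijective : Function.Bijective (phiS hc F) := by
  refine ⟨fun i j h => sig_injective hc ?_, fun ⟨s, hs⟩ => ?_⟩
  · have h1 : ng D F i = ng D F j := congrArg (fun s : (bnPair F hc).S => ((s : ↥(D.group F)) : GL D.Idx F)) h
    have := acts_ng (F := F) hc i
    rw [h1] at this
    exact this.unique hc (acts_ng (F := F) hc j)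
  · obtain ⟨i, hi⟩ := (mem_S_iff hc F).1 hs
    exact ⟨i, Subtype.ext (Subtype.ext hi.symm)⟩

/-- positive roots involving a fundamental root outside `J` -/
def outJ (D : ChevalleyDatum) (A : Aux) (J : Set (Fin D.rank)) (r : ℕ) : Prop :=
  A.pos r = true ∧ ∃ m : Fin D.rank, m ∉ J ∧ 0 < A.co m r

/-- their unipotent group -/
def QJ (D : ChevalleyDatum) (A : Aux) (F : Type*) [Field F] (J : Set (Fin D.rank)) : Subgroup (GL D.Idx F) :=
  UG D F (outJ D A J) 0

variable {F}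

theorem QJ_le_U {J : Set (Fin D.rank)} (hc : Cert D A) : QJ D A F J ≤ D.posUnipotent F :=
  (Subgroup.closure_le _).2 fun _ ⟨_, t, hs, hP, _, e⟩ => e ▸ xg_mem_U hc hs hP.1 t

include hc in
theorem x_normalizes_QJ {J : Set (Fin D.rank)} {r : ℕ} (hr : r < D.nroots) (hp : A.pos r = true) (t : F)
    {v : GL D.Idx F} (hv : v ∈ QJ D A F J) : (xg D F r t)⁻¹ * v * xg D F r t ∈ QJ D A F J := by
  induction hv using Subgroup.closure_induction with
  | mem x hx =>
    obtain ⟨s, u, hs, hPs, -, rfl⟩ := hx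
    by_cases hsr : s = r
    · subst hsr
      rw [xg_inv hc hr, xg_add hc hr, xg_add hc hr, show -t + u + t = u by ring]
      exact xg_mem_UG hr hPs (Nat.zero_le _) u
    obtain ⟨m, hm, hpos⟩ := hPs.2
    refine conj_mem_of_comb hc hr hs hsr ?_ hPs (fun k hk hcomb => ⟨?_, m, hm, ?_⟩) t u
    · intro e
      have := hPs.1
      rw [e, pos_neg hc hr, hp] at this
      cases this
    · exact combClosed_pos hc r s k hr hs hk hp hPs.1 hcomb
    · obtain ⟨a, b, ha, hb, h⟩ := hcomb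
      rw [h m m.2]
      have h0 := (co_nonneg hc m.2 hr hp).1
      have h1 : (1 : ℤ) ≤ b := by exact_mod_cast hb
      nlinarith [mul_nonneg (Int.natCast_nonneg a) h0]
  | one => simp
  | mul x y _ _ hx hy =>
    rw [show (xg D F r t)⁻¹ * (x * y) * xg D F r t =
      (xg D F r t)⁻¹ * x * xg D F r t * ((xg D F r t)⁻¹ * y * xg D F r t) by group]
    exact mul_mem hx hy
  | inv x _ hx =>
    rw [show (xg D F r t)⁻¹ * x⁻¹ * xg D F r t = ((xg D F r t)⁻¹ * x * xg D F r t)⁻¹ by group]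
    exact inv_mem hx

include hc in
theorem U_normalizes_QJ {J : Set (Fin D.rank)} {u : GL D.Idx F} (hu : u ∈ D.posUnipotent F) :
    ∀ v ∈ QJ D A F J, u⁻¹ * v * u ∈ QJ D A F J ∧ u * v * u⁻¹ ∈ QJ D A F J := by
  rw [posUnipotent_eq hc] at hu
  induction hu using Subgroup.closure_induction with
  | mem x hx =>
    obtain ⟨r, t, hr, hp, -, rfl⟩ := hx
    intro v hv
    refine ⟨x_normalizes_QJ hc hr hp t hv, ?_⟩
    have := x_normalizes_QJ hc hr hp (-t) hv
    rwa [← xg_inv hc hr, inv_inv] at this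
  | one => intro v hv; simp [hv]
  | mul x y _ _ hx hy =>
    intro v hv
    constructor
    · rw [show (x * y)⁻¹ * v * (x * y) = y⁻¹ * (x⁻¹ * v * x) * y by group]
      exact (hy _ (hx v hv).1).1
    · rw [show x * y * v * (x * y)⁻¹ = x * (y * v * y⁻¹) * x⁻¹ by group]
      exact (hx _ (hy v hv).2).2
  | inv x _ hx =>
    intro v hv
    rw [inv_inv]
    exact ⟨(hx v hv).2, (hx v hv).1⟩

include hc in
theorem H_normalizes_QJ {J : Set (Fin D.rank)} {h : GL D.Idx F} (hh : h ∈ D.diagonalSubgroup F)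
    {v : GL D.Idx F} (hv : v ∈ QJ D A F J) : h * v * h⁻¹ ∈ QJ D A F J := by
  obtain ⟨f, hf, rfl⟩ := H_diagonal hc hh
  induction hv using Subgroup.closure_induction with
  | mem x hx =>
    obtain ⟨s, u, hs, hPs, -, rfl⟩ := hx
    rw [dg_conj_x hc hs hf]
    exact xg_mem_UG hs hPs (Nat.zero_le _) _
  | one => simp
  | mul x y _ _ hx hy =>
    rw [show dg D f * (x * y) * (dg D f)⁻¹ = dg D f * x * (dg D f)⁻¹ * (dg D f * y * (dg D f)⁻¹) by group]
    exact mul_mem hx hy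
  | inv x _ hx =>
    rw [show dg D f * x⁻¹ * (dg D f)⁻¹ = (dg D f * x * (dg D f)⁻¹)⁻¹ by group]
    exact inv_mem hx

include hc in
theorem ng_normalizes_QJ {J : Set (Fin D.rank)} {i : Fin D.rank} (hi : i ∈ J) {v : GL D.Idx F}
    (hv : v ∈ QJ D A F J) : ng D F i * v * (ng D F i)⁻¹ ∈ QJ D A F J := by
  induction hv using Subgroup.closure_induction with
  | mem x hx =>
    obtain ⟨s, u, hs, hPs, -, rfl⟩ := hx
    rw [ng_conj_xg hc i.2 hs]
    obtain ⟨m, hm, hpos⟩ := hPs.2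
    have hne : (m : ℕ) ≠ i := fun e => hm (Fin.ext e ▸ hi)
    refine xg_mem_UG (w_lt hc i.2 hs) ⟨pos_w hc i.2 hs hPs.1 ?_, m, hm, ?_⟩ (Nat.zero_le _) _
    · intro e
      rw [e, co_simple hc i.2 m.2, if_neg hne] at hpos
      exact lt_irrefl 0 hpos
    · rwa [co_w hc i.2 m.2 hs, if_neg hne, sub_zero]
  | one => simp
  | mul x y _ _ hx hy =>
    rw [show ng D F i * (x * y) * (ng D F i)⁻¹ =
      ng D F i * x * (ng D F i)⁻¹ * (ng D F i * y * (ng D F i)⁻¹) by group]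
    exact mul_mem hx hy
  | inv x _ hx =>
    rw [show ng D F i * x⁻¹ * (ng D F i)⁻¹ = (ng D F i * x * (ng D F i)⁻¹)⁻¹ by group]
    exact inv_mem hx

open Cfsg.Lib.LieBN in
theorem N_normalizes_QJ {J : Set (bnPair F hc).S} {n : (bnPair F hc).N}
    (hn : wc (bnPair F hc) n ∈ Wp (sref (bnPair F hc)) J) {v : GL D.Idx F}
    (hv : v ∈ QJ D A F (phiS hc F ⁻¹' J)) :
    ((n : ↥(D.group F)) : GL D.Idx F) * v * (((n : ↥(D.group F)) : GL D.Idx F))⁻¹ ∈
      QJ D A F (phiS hc F ⁻¹' J) := by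
  obtain ⟨L, hL, -, e⟩ := (exch (P := bnPair F hc)).mem_Wp hn
  induction L generalizing n v with
  | nil =>
    rw [wprod_nil] at e
    refine H_normalizes_QJ hc ?_ hv
    rw [← B_inf_N hc]
    exact ⟨(wc_eq_one_iff _).1 e.symm, n.2⟩
  | cons s L ih =>
    rw [wprod_cons] at e
    obtain ⟨i, rfl⟩ := (phiS_bijective hc F).2 s
    set m : (bnPair F hc).N := ⟨(phiS hc F i : ↥(D.group F)), (bnPair F hc).subset (phiS hc F i).2⟩
    have hL' : ∀ x ∈ L, x ∈ J := fun x hx => hL x (List.mem_cons_of_mem _ hx)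
    have e' : wprod (sref (bnPair F hc)) L = wc (bnPair F hc) (m⁻¹ * n) := by
      show _ = (sref (bnPair F hc) (phiS hc F i))⁻¹ * wc (bnPair F hc) n
      rw [← e, inv_mul_cancel_left]
    have h1 := ih (n := m⁻¹ * n) (by rw [← e']; exact wprod_mem_Wp hL') hv hL' e'
    have h2 := ng_normalizes_QJ hc (i := i) (J := phiS hc F ⁻¹' J) (hL _ List.mem_cons_self) h1
    have hm : ((m : ↥(D.group F)) : GL D.Idx F) = ng D F i := rfl
    simp only [Subgroup.coe_mul, Subgroup.coe_inv, hm] at h2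
    rw [show ng D F i * ((ng D F i)⁻¹ * ((n : ↥(D.group F)) : GL D.Idx F) * v *
      ((ng D F i)⁻¹ * ((n : ↥(D.group F)) : GL D.Idx F))⁻¹) * (ng D F i)⁻¹ =
      ((n : ↥(D.group F)) : GL D.Idx F) * v * (((n : ↥(D.group F)) : GL D.Idx F))⁻¹ by group] at h2
    exact h2

include hc in
/-- a word in `J` sending its positive roots to negative ones -/
theorem exists_longest_in (J : Set (Fin D.rank)) : ∃ L : List (Fin D.rank), (∀ i ∈ L, i ∈ J) ∧
    ∀ s : Fin D.nroots, A.pos s = true → ¬ outJ D A J s → A.pos (wp hc L s) = false := by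
  classical
  obtain ⟨L, hLJ, hmax⟩ : ∃ L : List (Fin D.rank), (∀ i ∈ L, i ∈ J) ∧
      ∀ L' : List (Fin D.rank), (∀ i ∈ L', i ∈ J) → len D A (wp hc L') ≤ len D A (wp hc L) := by
    have hb : ∀ L : List (Fin D.rank), len D A (wp hc L) ≤ D.nroots := fun L =>
      (Finset.card_filter_le _ _).trans (by simp)
    let S : Finset ℕ := (Finset.range (D.nroots + 1)).filter fun k =>
      ∃ L : List (Fin D.rank), (∀ i ∈ L, i ∈ J) ∧ len D A (wp hc L) = k
    have hS : S.Nonempty := ⟨len D A (wp hc []),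
      Finset.mem_filter.2 ⟨Finset.mem_range.2 (Nat.lt_succ_of_le (hb [])), [], by simp, rfl⟩⟩
    obtain ⟨L, hLJ, hL⟩ := (Finset.mem_filter.1 (S.max'_mem hS)).2
    exact ⟨L, hLJ, fun L' hL' => hL ▸ S.le_max' _
      (Finset.mem_filter.2 ⟨Finset.mem_range.2 (Nat.lt_succ_of_le (hb L')), L', hL', rfl⟩)⟩
  refine ⟨L, hLJ, ?_⟩
  have hneg : ∀ i ∈ J, A.pos (wp hc L (sR hc i)) = false := by
    intro i hi
    cases hp : A.pos (wp hc L (sR hc i)) with
    | false => rfl
    | true =>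
      have h1 := len_mul_sig hc (isRootAut_wp hc L) i hp
      have h2 := hmax (L ++ [i]) (fun x hx => by
        rcases List.mem_append.1 hx with h | h
        · exact hLJ x h
        · rw [List.mem_singleton.1 h]; exact hi)
      rw [wp_append, wp_cons, wp_nil, mul_one] at h2
      omega
  obtain ⟨M, hM⟩ := (isRootAut_wp hc L).linear
  have hcol : ∀ j < D.rank, ∀ k : Fin D.rank, k ∈ J → M j k ≤ 0 := by
    intro j hj k hk
    have e := hM (sR hc k) j hj
    rw [Finset.sum_eq_single (k : ℕ)] at e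
    · simp only [sR, co_simple hc k.2 k.2, if_true, mul_one] at e
      rw [← e]
      exact (co_nonpos hc hj (wp hc L (sR hc k)).2 (hneg k hk)).1
    · intro b hb hne; simp only [sR]; rw [co_simple hc k.2 (Finset.mem_range.1 hb), if_neg hne, mul_zero]
    · intro h; exact absurd (Finset.mem_range.2 k.2) h
  intro s hs hout
  cases hp : A.pos (wp hc L s) with
  | false => rfl
  | true =>
    exfalso
    obtain ⟨j, hj, hne⟩ := exists_cc_ne_zero hc (wp hc L s).2
    have h1 := (co_nonneg hc hj (wp hc L s).2 hp).1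
    have h2 : A.co j (wp hc L s) ≤ 0 := by
      rw [hM s j hj]
      refine Finset.sum_nonpos fun k hk => ?_
      rw [Finset.mem_range] at hk
      by_cases hkJ : (⟨k, hk⟩ : Fin D.rank) ∈ J
      · exact mul_nonpos_of_nonpos_of_nonneg (hcol j hj ⟨k, hk⟩ hkJ) (co_nonneg hc hk s.2 hs).1
      · have h0 := (co_nonneg hc hk s.2 hs).1
        have : A.co k s = 0 := le_antisymm (not_lt.1 fun h => hout ⟨hs, ⟨k, hk⟩, hkJ, h⟩) h0
        rw [this, mul_zero]
    exact hne ((cc_eq_zero_iff hc hj (wp hc L s).2).2 (le_antisymm h2 h1))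

include hc in
theorem UG_le_U {P : ℕ → Prop} (hP : ∀ r, P r → A.pos r = true) : UG D F P 0 ≤ D.posUnipotent F :=
  (Subgroup.closure_le _).2 fun _ ⟨_, t, hs, hPs, _, e⟩ => e ▸ xg_mem_U hc hs (hP _ hPs) t

include hc in
theorem mem_U_split_QJ (J : Set (Fin D.rank)) {u : GL D.Idx F} (hu : u ∈ D.posUnipotent F) :
    ∃ l ∈ UG D F (fun r => A.pos r = true ∧ ¬ outJ D A J r) 0, ∃ q ∈ QJ D A F J, u = l * q := by
  let S : Subgroup (GL D.Idx F) :=
    { carrier := {u | ∃ l ∈ UG D F (fun r => A.pos r = true ∧ ¬ outJ D A J r) 0, ∃ q ∈ QJ D A F J, u = l * q}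
      one_mem' := ⟨1, one_mem _, 1, one_mem _, (one_mul _).symm⟩
      mul_mem' := by
        rintro a b ⟨l, hl, q, hq, rfl⟩ ⟨l', hl', q', hq', rfl⟩
        exact ⟨l * l', mul_mem hl hl', l'⁻¹ * q * l' * q',
          mul_mem (U_normalizes_QJ hc (UG_le_U hc (fun _ h => h.1) hl') q hq).1 hq', by group⟩
      inv_mem' := by
        rintro a ⟨l, hl, q, hq, rfl⟩
        exact ⟨l⁻¹, inv_mem hl, l * q⁻¹ * l⁻¹,
          (U_normalizes_QJ hc (UG_le_U hc (fun _ h => h.1) hl) _ (inv_mem hq)).2, by group⟩ }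
  refine (show D.posUnipotent F ≤ S from ?_) hu
  rw [posUnipotent_eq hc]
  refine (Subgroup.closure_le _).2 ?_
  rintro x ⟨r, t, hr, hpr, -, rfl⟩
  by_cases h : outJ D A J r
  · exact ⟨1, one_mem _, _, xg_mem_UG hr h (Nat.zero_le _) t, (one_mul _).symm⟩
  · exact ⟨_, xg_mem_UG hr ⟨hpr, h⟩ (Nat.zero_le _) t, 1, one_mem _, (mul_one _).symm⟩

include hc in
theorem wg_conj_mem_V {J : Set (Fin D.rank)} {L : List (Fin D.rank)}
    (hL : ∀ s : Fin D.nroots, A.pos s = true → ¬ outJ D A J s → A.pos (wp hc L s) = false)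
    {l : GL D.Idx F} (hl : l ∈ UG D F (fun r => A.pos r = true ∧ ¬ outJ D A J r) 0) :
    wg D F L * l * (wg D F L)⁻¹ ∈ D.negUnipotent F := by
  obtain ⟨-, c, -, hcx⟩ := acts_wg (F := F) hc L
  induction hl using Subgroup.closure_induction with
  | mem x hx =>
    obtain ⟨r, t, hr, hP, -, rfl⟩ := hx
    rw [hcx ⟨r, hr⟩]
    exact xg_mem_V hc (wp hc L ⟨r, hr⟩).2 (hL ⟨r, hr⟩ hP.1 hP.2) _
  | one => simp
  | mul x y _ _ hx hy =>
    rw [show wg D F L * (x * y) * (wg D F L)⁻¹ =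
      wg D F L * x * (wg D F L)⁻¹ * (wg D F L * y * (wg D F L)⁻¹) by group]
    exact mul_mem hx hy
  | inv x _ hx =>
    rw [show wg D F L * x⁻¹ * (wg D F L)⁻¹ = (wg D F L * x * (wg D F L)⁻¹)⁻¹ by group]
    exact inv_mem hx

open Cfsg.Lib.LieBN in
theorem exists_rep_wg (J : Set (bnPair F hc).S) : ∀ L : List (Fin D.rank), (∀ i ∈ L, phiS hc F i ∈ J) →
    ∃ n : (bnPair F hc).N, wc (bnPair F hc) n ∈ Wp (sref (bnPair F hc)) J ∧
      ((n : ↥(D.group F)) : GL D.Idx F) = wg D F L := by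
  intro L
  induction L with
  | nil => intro _; exact ⟨1, one_mem (Wp (sref (bnPair F hc)) J), by simp [wg]⟩
  | cons i L ih =>
    intro hi
    obtain ⟨n, hn, hn'⟩ := ih fun x hx => hi x (List.mem_cons_of_mem _ hx)
    set m : (bnPair F hc).N := ⟨(phiS hc F i : ↥(D.group F)), (bnPair F hc).subset (phiS hc F i).2⟩ with hm
    have h1 : wc (bnPair F hc) (m * n) = sref (bnPair F hc) (phiS hc F i) * wc (bnPair F hc) n :=
      QuotientGroup.mk_mul (tor (bnPair F hc)) m n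
    refine ⟨m * n, by
      rw [h1]
      exact (Wp (sref (bnPair F hc)) J).mul_mem (sigma_mem_Wp (σ := sref (bnPair F hc)) (hi i List.mem_cons_self)) hn, ?_⟩
    rw [Subgroup.coe_mul, Subgroup.coe_mul, hn', wg_cons]
    rfl

open Cfsg.Lib.LieBN in
theorem fix_iff_conj_mem {u g : ↥(D.group F)} :
    u • (g : ↥(D.group F) ⧸ (bnPair F hc).B) = (g : ↥(D.group F) ⧸ (bnPair F hc).B) ↔
      (g : GL D.Idx F)⁻¹ * (u : GL D.Idx F)⁻¹ * (g : GL D.Idx F) ∈ D.borelSubgroup F := by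
  rw [MulAction.Quotient.smul_coe, QuotientGroup.eq, smul_eq_mul, mul_inv_rev]
  exact Iff.rfl

open Cfsg.Lib.LieBN in
theorem fixN_eq {J : Set (bnPair F hc).S} {u : ↥(D.group F)} (hu : (u : GL D.Idx F) ∈ D.posUnipotent F) :
    u ∈ fixN (bnPair F hc) J ↔ (u : GL D.Idx F) ∈ QJ D A F (phiS hc F ⁻¹' J) := by
  rw [mem_fixN]
  constructor
  · intro hfix
    obtain ⟨l, hl, q, hq, e⟩ := mem_U_split_QJ hc (phiS hc F ⁻¹' J) hu
    obtain ⟨L, hLJ, hL⟩ := exists_longest_in hc (phiS hc F ⁻¹' J)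
    have hV := wg_conj_mem_V hc hL hl
    obtain ⟨n, hn, hn'⟩ := exists_rep_wg hc J L hLJ
    have h1 := (fix_iff_conj_mem hc).1 (hfix n⁻¹ (inv_mem hn))
    simp only [Subgroup.coe_inv, hn', e, inv_inv] at h1
    have hqB : wg D F L * q * (wg D F L)⁻¹ ∈ D.borelSubgroup F := by
      rw [← hn']; exact U_le_B (QJ_le_U hc (N_normalizes_QJ hc hn hq))
    have h5 := (D.borelSubgroup F).mul_mem hqB h1
    rw [show wg D F L * q * (wg D F L)⁻¹ * (wg D F L * (l * q)⁻¹ * (wg D F L)⁻¹) =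
      (wg D F L * l * (wg D F L)⁻¹)⁻¹ by group] at h5
    have h6 : (wg D F L * l * (wg D F L)⁻¹)⁻¹ ∈ D.borelSubgroup F ⊓ D.negUnipotent F := ⟨h5, (D.negUnipotent F).inv_mem hV⟩
    rw [B_inf_V hc, Subgroup.mem_bot, inv_eq_one, conj_eq_one_iff] at h6
    rw [e, h6, one_mul]
    exact hq
  · intro hq n hn
    refine (fix_iff_conj_mem hc).2 (U_le_B (QJ_le_U (J := phiS hc F ⁻¹' J) hc ?_))
    have h1 := N_normalizes_QJ hc (n := n⁻¹) (show (wc (bnPair F hc) n)⁻¹ ∈ _ from inv_mem hn) (inv_mem hq)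
    simpa only [Subgroup.coe_inv, inv_inv] using h1

variable [Fintype F] (p : ℕ) [Fact p.Prime] [CharP F p]

theorem split_bnPair (hD : D ∈ [Cfsg.Lie.chevG2, Cfsg.Lie.chevB2, Cfsg.Lie.chevD4, Cfsg.Lie.chevF4,
    Cfsg.Lie.chevE6, Cfsg.Lie.chevE7, Cfsg.Lie.chevE8]) :
    Cfsg.Lib.LieBN.Split (bnPair F hc) p ((D.posUnipotent F).subgroupOf (D.group F)) := by
  obtain ⟨S, hS⟩ := Cfsg.Agent.S2326.result (F := F) p D hD
  refine
    { le := fun x hx => U_le_B hx
      pgroup := hS ▸ S.isPGroup'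
      max := fun Q hQ hle => by
        rw [← hS]; exact S.is_maximal' hQ (hS ▸ hle)
      normal := fun b hb x hx => ?_
      decomp := fun b hb => ?_
      disj := fun x hx hxN => ?_
      core := normalCore_eq_bot hc F
      rnorm := fun J u hu r hr hfix => ?_ }
  · obtain ⟨v, hv, h, hh, e⟩ := (mem_B_iff hc).1 hb
    show ((b * x * b⁻¹ : ↥(D.group F)) : GL D.Idx F) ∈ D.posUnipotent F
    have e' : (b : GL D.Idx F) = v * h := e
    rw [Subgroup.coe_mul, Subgroup.coe_mul, Subgroup.coe_inv, e',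
      show v * h * (x : GL D.Idx F) * (v * h)⁻¹ = v * (h * (x : GL D.Idx F) * h⁻¹) * v⁻¹ by group]
    exact mul_mem (mul_mem hv (H_normalizes_U hc hh hx)) (inv_mem hv)
  · obtain ⟨v, hv, h, hh, e⟩ := (mem_B_iff hc).1 hb
    exact ⟨⟨v, U_le_group hc hv⟩, hv, ⟨h, H_le_group hc hh⟩, ⟨H_le_B hh, H_le_N hh⟩, Subtype.ext e⟩
  · have : (x : GL D.Idx F) ∈ D.posUnipotent F ⊓ D.monomialSubgroup F := ⟨hx, hxN⟩
    rw [U_inf_N hc, Subgroup.mem_bot] at this
    exact Subtype.ext this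
  · have h1 := (fixN_eq hc (u := r) hr).1 hfix
    have h2 := (U_normalizes_QJ hc (show (u : GL D.Idx F) ∈ D.posUnipotent F from hu) _ h1).2
    exact (fixN_eq hc (u := u * r * u⁻¹) (QJ_le_U hc h2)).2 h2

omit [Fintype F] [Fact p.Prime] [CharP F p]

theorem parabolicIn_eq (K : Finset (Fin D.rank)) :
    D.parabolicIn F (K.image Fin.val) =
      Cfsg.Lib.LieBN.parK (bnPair F hc) (phiS hc F '' (K : Set (Fin D.rank))) := by
  refine Subgroup.map_injective (D.group F).subtype_injective ?_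
  have hset : {g : GL D.Idx F | ∃ j ∈ (↑(K.image Fin.val) : Set ℕ), j < D.rank ∧
      (g : Matrix D.Idx D.Idx F) = D.nMat F (D.simple j) 1} =
      (D.group F).subtype '' (Subtype.val '' (phiS hc F '' (K : Set (Fin D.rank)))) := by
    ext g
    constructor
    · rintro ⟨j, hj, hlt, e⟩
      obtain ⟨i, hi, rfl⟩ := Finset.mem_image.1 (Finset.mem_coe.1 hj)
      exact ⟨_, ⟨_, ⟨i, hi, rfl⟩, rfl⟩, Units.ext ((coe_ngen hc (simple_lt hc i.2) 1).trans e.symm)⟩
    · rintro ⟨_, ⟨_, ⟨i, hi, rfl⟩, rfl⟩, rfl⟩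
      exact ⟨i, Finset.mem_coe.2 (Finset.mem_image.2 ⟨i, hi, rfl⟩), i.2, coe_ngen hc (simple_lt hc i.2) 1⟩
  rw [ChevalleyDatum.parabolicIn, Cfsg.Lib.LieBN.parK, Cfsg.BNPair.parabolic, Subgroup.map_sup,
    MonoidHom.map_closure, Subgroup.subgroupOf, Subgroup.map_comap_eq, Subgroup.range_subtype,
    show (bnPair F hc).B = (D.borelSubgroup F).subgroupOf (D.group F) from rfl,
    Subgroup.map_subgroupOf_eq_of_le (B_le_group hc), ← hset, ChevalleyDatum.parabolicSubgroup]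
  refine inf_of_le_right (sup_le (B_le_group hc) ((Subgroup.closure_le _).2 ?_))
  rw [hset]
  rintro _ ⟨x, -, rfl⟩
  exact x.2

open Cfsg.Lib.LieBN in
theorem steinberg_eq [Fintype (bnPair F hc).S] (g : ↥(D.group F)) :
    D.steinbergCharacter F g = (stSum (bnPair F hc) g : ℂ) := by
  classical
  let e : Fin D.rank ≃ (bnPair F hc).S := Equiv.ofBijective _ (phiS_bijective hc F)
  have h1 : stSum (bnPair F hc) g = ∑ K : Finset (Fin D.rank), (-1 : ℤ) ^ K.card *
      (Nat.card (MulAction.fixedBy (↥(D.group F) ⧸ D.parabolicIn F (K.image Fin.val)) g) : ℤ) := by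
    rw [stSum, ← (Equiv.finsetCongr e).sum_comp]
    refine Finset.sum_congr rfl fun K _ => ?_
    rw [parabolicIn_eq hc K]
    rw [Equiv.finsetCongr_apply, Finset.card_map]
    have hset : ((K.map e.toEmbedding : Finset (bnPair F hc).S) : Set (bnPair F hc).S) =
        phiS hc F '' (K : Set (Fin D.rank)) := Finset.coe_map _ _
    have key : ∀ S T : Set (bnPair F hc).S, S = T →
        Nat.card (MulAction.fixedBy (↥(D.group F) ⧸ parK (bnPair F hc) S) g) =
          Nat.card (MulAction.fixedBy (↥(D.group F) ⧸ parK (bnPair F hc) T) g) := by rintro _ _ rfl; rfl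
    rw [key _ _ hset]
  rw [h1, Int.cast_sum, ChevalleyDatum.steinbergCharacter]
  symm
  refine Finset.sum_bij (fun K _ => K.image Fin.val) ?_ ?_ ?_ ?_
  · intro K _
    rw [Finset.mem_powerset]
    intro x hx
    obtain ⟨i, -, rfl⟩ := Finset.mem_image.1 hx
    exact Finset.mem_range.2 i.2
  · intro K _ K' _ h
    exact Finset.image_injective Fin.val_injective h
  · intro J hJ
    rw [Finset.mem_powerset] at hJ
    refine ⟨Finset.univ.filter fun i => (i : ℕ) ∈ J, Finset.mem_univ _, ?_⟩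
    ext x
    simp only [Finset.mem_image, Finset.mem_filter, Finset.mem_univ, true_and]
    exact ⟨fun ⟨i, hi, e⟩ => e ▸ hi, fun hx => ⟨⟨x, Finset.mem_range.1 (hJ hx)⟩, hx, rfl⟩⟩
  · intro K _
    rw [Finset.card_image_of_injective _ Fin.val_injective, Int.cast_mul, Int.cast_pow, Int.cast_neg, Int.cast_one,
      Int.cast_natCast]
    rfl

include hc in
theorem card_posUnipotent :
    Nat.card ((D.posUnipotent F).subgroupOf (D.group F)) = Nat.card F ^ (D.nroots / 2) := by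
  classical
  rw [Nat.card_congr (Subgroup.subgroupOfEquivOfLe (U_le_group hc)).toEquiv,
    posUnipotent_eq hc, card_UG hc (fun _ h => h) (combClosed_pos hc), card_pos hc]


theorem exists_cert {D : ChevalleyDatum} (hD : D ∈ [Cfsg.Lie.chevG2, Cfsg.Lie.chevB2, Cfsg.Lie.chevD4,
    Cfsg.Lie.chevF4, Cfsg.Lie.chevE6, Cfsg.Lie.chevE7, Cfsg.Lie.chevE8]) : ∃ A : Aux, Cert D A := by
  simp only [List.mem_cons, List.not_mem_nil, or_false] at hD
  rcases hD with rfl | rfl | rfl | rfl | rfl | rfl | rfl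
  exacts [⟨_, certG2⟩, ⟨_, certB2⟩, ⟨_, certD4⟩, ⟨_, certF4⟩, ⟨_, certE6⟩, ⟨_, certE7⟩, ⟨_, certE8⟩]

end Cfsg.Lib.Chev
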