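/-
The Chevalley groups have only one irreducible character of defect zero.
-/
import Cfsg.Agent.Lib.Chev.Steinberg
import Cfsg.Agent.Lib.LieBN.DefectUnique

set_option autoImplicit false
set_option linter.unusedSectionVars false

namespace Cfsg.Lib.Chev

open Cfsg.Lie

variable {D : ChevalleyDatum} {A : Aux} (hc : Cert D A) {F : Type*} [Field F]

/-- the index of a distinguished generator -/
noncomputable def sIdx (s : (bnPair F hc).S) : Fin D.rank :=
  (Equiv.ofBijective _ (phiS_bijective hc F)).symm s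

theorem coe_sIdx (s : (bnPair F hc).S) :
    (((s : ↥(D.group F))) : GL D.Idx F) = ng D F (sIdx hc s) := by
  conv_lhs => rw [← (Equiv.ofBijective _ (phiS_bijective hc F)).apply_symm_apply s]
  rfl

/-- a root subgroup -/
noncomputable def rootX (D : ChevalleyDatum) {A : Aux} (hc : Cert D A) (F : Type*) [Field F] {r : ℕ}
    (hr : r < D.nroots) : Subgroup (GL D.Idx F) where
  carrier := {g | ∃ t : F, g = xg D F r t}
  one_mem' := ⟨0, (xg_zero hc hr).symm⟩
  mul_mem' := by rintro a b ⟨t, rfl⟩ ⟨u, rfl⟩; exact ⟨t + u, xg_add hc hr t u⟩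
  inv_mem' := by rintro a ⟨t, rfl⟩; exact ⟨-t, xg_inv hc hr t⟩

include hc in
theorem xg_neg_eq {i : ℕ} (hi : i < D.rank) (b : Fˣ) :
    xg D F (negI D (D.simple i)) (-(b : F)) =
      xg D F (D.simple i) (-((b⁻¹ : Fˣ) : F)) * hg D A i b⁻¹ * ng D F i *
        xg D F (D.simple i) (-((b⁻¹ : Fˣ) : F)) := by
  have e : xg D F (D.simple i) ((b⁻¹ : Fˣ) : F) *
      (xg D F (negI D (D.simple i)) (-(b : F)) * xg D F (D.simple i) ((b⁻¹ : Fˣ) : F)) =
      hg D A i b⁻¹ * ng D F i := by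
    rw [← ngen_simple_eq hc hi, ngen]
    simp
  rw [← xg_inv hc (simple_lt hc hi), mul_assoc _ (hg D A i b⁻¹) (ng D F i), ← e]
  group

variable [Fintype F] (p : ℕ) [Fact p.Prime] [CharP F p]

open Cfsg.Lib.LieBN in
/-- the rank one data of a Chevalley group -/
noncomputable def rankOne (hD : D ∈ [Cfsg.Lie.chevG2, Cfsg.Lie.chevB2, Cfsg.Lie.chevD4, Cfsg.Lie.chevF4,
    Cfsg.Lie.chevE6, Cfsg.Lie.chevE7, Cfsg.Lie.chevE8]) [Fintype ↥(D.group F)] [Fintype (bnPair F hc).S] :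
    RankOne (bnPair F hc) ((D.posUnipotent F).subgroupOf (D.group F)) Fˣ where
  X s := (rootX D hc F (simple_lt hc (sIdx hc s).2)).subgroupOf (D.group F)
  par s b := ⟨xg D F (D.simple (sIdx hc s)) (b : F), xg_mem_group hc (simple_lt hc (sIdx hc s).2) _⟩
  hh s b := ⟨hg D A (sIdx hc s) b⁻¹, H_le_group hc (hg_mem hc (sIdx hc s).2 _)⟩
  K s := {g : ↥(D.group F) | ∃ w : Fˣ, (g : GL D.Idx F) = hg D A (sIdx hc s) w}
  le := fun s x ⟨t, ht⟩ => by
    show (x : GL D.Idx F) ∈ D.posUnipotent F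
    rw [show (x : GL D.Idx F) = _ from ht]
    exact xg_mem_U hc (simple_lt hc (sIdx hc s).2) (simple_pos hc (sIdx hc s).2) t
  par_mem := fun s b => ⟨⟨b, rfl⟩, fun e =>
    b.ne_zero ((xg_eq_one_iff hc (simple_lt hc (sIdx hc s).2) _).1 (congrArg Subtype.val e))⟩
  par_inj := fun s b b' e =>
    Units.ext (xg_injective hc (simple_lt hc (sIdx hc s).2) (congrArg Subtype.val e))
  par_surj := fun s x ⟨t, ht⟩ hx1 => by
    have ht' : (x : GL D.Idx F) = xg D F (D.simple (sIdx hc s)) t := ht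
    have ht0 : t ≠ 0 := fun e => hx1 (Subtype.ext (by rw [ht', e, xg_zero hc (simple_lt hc (sIdx hc s).2)]; rfl))
    exact ⟨Units.mk0 t ht0, Subtype.ext ht'.symm⟩
  split := fun s u hu => by
    obtain ⟨v, hv, t, e⟩ := mem_U_split hc (sIdx hc s).2 (show (u : GL D.Idx F) ∈ D.posUnipotent F from hu)
    refine ⟨⟨v, U_le_group hc (Up_le_U hc hv)⟩, Up_le_U hc hv, ?_,
      ⟨xg D F (D.simple (sIdx hc s)) t, xg_mem_group hc (simple_lt hc (sIdx hc s).2) t⟩, ⟨t, rfl⟩, Subtype.ext e⟩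
    show ((s : ↥(D.group F)) : GL D.Idx F) * v * ((s : ↥(D.group F)) : GL D.Idx F)⁻¹ ∈ D.posUnipotent F
    rw [coe_sIdx hc s]
    exact Up_le_U hc (ng_conj_Up hc hv)
  hh_mem := fun s b => ⟨H_le_B (hg_mem hc (sIdx hc s).2 _), H_le_N (hg_mem hc (sIdx hc s).2 _)⟩
  rankOne := fun s b => by
    have hr := simple_lt hc (sIdx hc s).2
    refine ⟨⟨xg D F (D.simple (sIdx hc s)) (-((b⁻¹ : Fˣ) : F)), xg_mem_group hc hr _⟩,
      xg_mem_U hc hr (simple_pos hc (sIdx hc s).2) _,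
      ⟨xg D F (D.simple (sIdx hc s)) (-((b⁻¹ : Fˣ) : F)), xg_mem_group hc hr _⟩, ⟨_, rfl⟩, Subtype.ext ?_⟩
    simp only [Subgroup.coe_mul, Subgroup.coe_inv, coe_sIdx hc s]
    rw [ng_conj_xg hc (sIdx hc s).2 hr, w_simple hc (sIdx hc s).2, eta_simple hc (sIdx hc s).2,
      ← xg_neg_eq hc (sIdx hc s).2]
    simp
  flip := fun s n₀ hn₀ x ⟨t, ht⟩ => by
    have ht' : (x : GL D.Idx F) = xg D F (D.simple (sIdx hc s)) t := ht
    have h := split_bnPair hc (F := F) p hD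
    obtain ⟨m, hm, hmV⟩ := exists_U_to_V (F := F) hc
    let n₁ : (bnPair F hc).N := ⟨⟨m, N_le_group hc hm⟩, hm⟩
    have h1 : wc (bnPair F hc) n₁ = long (bnPair F hc) (Set.univ : Set (bnPair F hc).S) := by
      by_contra hne
      obtain ⟨u, hu, hu1, hug⟩ := h.exists_inter (g := (n₁ : ↥(D.group F))) (by
        rw [Finset.coe_univ, show cl (bnPair F hc) _ = wc (bnPair F hc) n₁ from cl_eq (InC.mk n₁)]
        exact hne)
      have h2 : (u : GL D.Idx F) ∈ D.negUnipotent F := by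
        rw [← hmV]
        refine ⟨m⁻¹ * (u : GL D.Idx F) * m, hug, ?_⟩
        show m * (m⁻¹ * (u : GL D.Idx F) * m) * m⁻¹ = u
        group
      have h3 : (u : GL D.Idx F) ∈ D.borelSubgroup F ⊓ D.negUnipotent F := ⟨U_le_B hu, h2⟩
      rw [B_inf_V hc, Subgroup.mem_bot] at h3
      exact hu1 (Subtype.ext h3)
    have ht1 : (n₁ : ↥(D.group F))⁻¹ * n₀ ∈ (bnPair F hc).B := by
      refine (wc_eq_one_iff (bnPair F hc) (n := n₁⁻¹ * n₀)).1 ?_
      show (wc _ n₁)⁻¹ * wc _ n₀ = 1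
      rw [h1, hn₀, inv_mul_cancel]
    have hV : (s : ↥(D.group F)) * x * (s : ↥(D.group F))⁻¹ ∈ (D.negUnipotent F).subgroupOf (D.group F) := by
      show ((s : ↥(D.group F)) : GL D.Idx F) * x * ((s : ↥(D.group F)) : GL D.Idx F)⁻¹ ∈ D.negUnipotent F
      rw [coe_sIdx hc s, ht', ng_conj_xg hc (sIdx hc s).2 (simple_lt hc (sIdx hc s).2), w_simple hc (sIdx hc s).2]
      exact xg_mem_V hc (negI_lt (simple_lt hc (sIdx hc s).2))
        (by rw [pos_neg hc (simple_lt hc (sIdx hc s).2), simple_pos hc (sIdx hc s).2]; rfl) _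
    have hU : (n₁ : ↥(D.group F))⁻¹ * ((s : ↥(D.group F)) * x * (s : ↥(D.group F))⁻¹) * n₁ ∈
        (D.posUnipotent F).subgroupOf (D.group F) := by
      obtain ⟨y, hy, e⟩ : ((((s : ↥(D.group F)) * x * (s : ↥(D.group F))⁻¹) : ↥(D.group F)) : GL D.Idx F) ∈
          (D.posUnipotent F).map (MulAut.conj m).toMonoidHom := by rw [hmV]; exact hV
      have e' : m * y * m⁻¹ = _ := e
      show m⁻¹ * _ * m ∈ D.posUnipotent F
      rw [← e', show m⁻¹ * (m * y * m⁻¹) * m = y by group]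
      exact hy
    have := h.normal _ (inv_mem ht1) _ hU
    convert this using 1
    group
  shift := fun s t ⟨w, hw⟩ => ⟨Equiv.mulRight w⁻¹, fun b => Subtype.ext (by
    show hg D A (sIdx hc s) (b * w⁻¹)⁻¹ = (t : GL D.Idx F) * hg D A (sIdx hc s) b⁻¹
    rw [hw, hg_mul, mul_inv_rev, inv_inv])⟩
  gen := fun g hg' => by
    have hH : (g : GL D.Idx F) ∈ D.diagonalSubgroup F := by
      rw [← B_inf_N hc]; exact ⟨hg'.1, hg'.2⟩
    obtain ⟨c, hcg⟩ := (mem_H_iff hc).1 hH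
    rw [torus_eq_prod hc] at hcg
    set S := Subgroup.closure (⋃ s : (bnPair F hc).S,
      {g : ↥(D.group F) | ∃ w : Fˣ, (g : GL D.Idx F) = hg D A (sIdx hc s) w})
    have hmem : (g : GL D.Idx F) ∈ S.map (D.group F).subtype := by
      rw [← hcg]
      refine list_prod_mem fun y hy => ?_
      obtain ⟨i, hi, rfl⟩ := List.mem_map.1 hy
      rw [List.mem_range] at hi
      refine ⟨⟨hg D A i (c i), H_le_group hc (hg_mem hc hi _)⟩, Subgroup.subset_closure ?_, rfl⟩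
      refine Set.mem_iUnion.2 ⟨phiS hc F ⟨i, hi⟩, c i, ?_⟩
      show hg D A i (c i) = _
      rw [show sIdx hc (phiS hc F ⟨i, hi⟩) = ⟨i, hi⟩ from
        (Equiv.ofBijective _ (phiS_bijective hc F)).symm_apply_apply ⟨i, hi⟩]
    obtain ⟨g', hg2, e⟩ := hmem
    rwa [show g = g' from Subtype.ext e.symm]
  K_le := fun s g ⟨w, hw⟩ => by
    have := hg_mem (F := F) hc (sIdx hc s).2 w
    rw [← hw] at this
    exact ⟨H_le_B this, H_le_N this⟩
  comm := fun a ha b hb => by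
    have h1 : (a : GL D.Idx F) ∈ D.diagonalSubgroup F := by rw [← B_inf_N hc]; exact ⟨ha.1, ha.2⟩
    have h2 : (b : GL D.Idx F) ∈ D.diagonalSubgroup F := by rw [← B_inf_N hc]; exact ⟨hb.1, hb.2⟩
    obtain ⟨c, hca⟩ := (mem_H_iff hc).1 h1
    obtain ⟨d, hdb⟩ := (mem_H_iff hc).1 h2
    refine Subtype.ext ?_
    rw [Subgroup.coe_mul, Subgroup.coe_mul, ← hca, ← hdb, ← map_mul, ← map_mul, mul_comm]

end Cfsg.Lib.Chev
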