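import Cfsg.Agent.Lib.Chev.SimpleGen
import Mathlib.LinearAlgebra.Matrix.Reindex

/-! Automorphisms of a Chevalley group from signed permutations of the Chevalley basis. -/

set_option autoImplicit false

namespace Cfsg.Lib.Chev.GraphAuto

open Cfsg.Lie Cfsg.Lib.Chev

/-- the index map on `0, …, dim - 1` -/
def qMap (D : ChevalleyDatum) (rho sg : List ℕ) (k : ℕ) : ℕ :=
  if k < D.rank then rho.getD k 0 else D.rank + sg.getD (k - D.rank) 0

/-- the sign on `0, …, dim - 1` -/
def eMap (D : ChevalleyDatum) (eps : List ℤ) (k : ℕ) : ℤ :=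
  if k < D.rank then 1 else eps.getD (k - D.rank) 1

/-- relabel sparse entries -/
def relabel (D : ChevalleyDatum) (rho sg : List ℕ) (eps : List ℤ) (L : List Ent) : List Ent :=
  L.map fun e => ⟨e.dt, e.du, qMap D rho sg e.row, qMap D rho sg e.col, eMap D eps e.row * eMap D eps e.col * e.val⟩

/-- the whole check -/
def autOK (D : ChevalleyDatum) (A : Aux) (rho sg : List ℕ) (eps : List ℤ) : Bool :=
  (allB (dim D) fun k => Nat.blt (qMap D rho sg k) (dim D) && (eMap D eps k == 1 || eMap D eps k == -1) &&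
    allB (dim D) fun l => Nat.beq k l || !Nat.beq (qMap D rho sg k) (qMap D rho sg l)) &&
  (allB D.rank fun i => Nat.blt (rho.getD i 0) D.rank &&
    ((List.range D.rank).any fun j => Nat.beq (rho.getD j 0) i) &&
    Nat.beq (sg.getD (D.simple i) 0) (D.simple (rho.getD i 0)) &&
    Nat.beq (sg.getD (negI D (D.simple i)) 0) (negI D (D.simple (rho.getD i 0))) &&
    eqv (sp D A (D.simple (rho.getD i 0))) (relabel D rho sg eps (sp D A (D.simple i))) &&
    eqv (sp D A (negI D (D.simple (rho.getD i 0)))) (relabel D rho sg eps (sp D A (negI D (D.simple i)))))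

variable {D : ChevalleyDatum} {A : Aux} (hc : Cert D A) {F : Type*} [Field F] {rho sg : List ℕ} {eps : List ℤ}

theorem ev_relabel (t u : F) {L : List Ent} (hb : bdd (dim D) L = true)
    (hinj : ∀ k < dim D, ∀ l < dim D, qMap D rho sg k = qMap D rho sg l → k = l) {i j : ℕ}
    (hi : i < dim D) (hj : j < dim D) :
    ev t u (relabel D rho sg eps L) (qMap D rho sg i) (qMap D rho sg j) =
      ((eMap D eps i : ℤ) : F) * ((eMap D eps j : ℤ) : F) * ev t u L i j := by
  induction L with
  | nil => simp [relabel]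
  | cons e L ih =>
    rw [bdd_iff] at hb
    have he := hb e List.mem_cons_self
    simp only [relabel, List.map_cons, ev_cons]
    rw [show (L.map fun e => (⟨e.dt, e.du, qMap D rho sg e.row, qMap D rho sg e.col,
      eMap D eps e.row * eMap D eps e.col * e.val⟩ : Ent)) = relabel D rho sg eps L from rfl,
      ih (bdd_iff.2 fun x hx => hb x (List.mem_cons_of_mem _ hx)), mul_add]
    congr 1
    simp only [Ent.at']
    by_cases h : e.row = i ∧ e.col = j
    · rw [h.1, h.2]; simp [mul_assoc, mul_left_comm, mul_comm]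
    · rw [if_neg h, if_neg, mul_zero]
      rintro ⟨h1, h2⟩
      exact h ⟨hinj _ he.1 _ hi h1, hinj _ he.2 _ hj h2⟩

include hc in
theorem exists_aut (h : autOK D A rho sg eps = true) :
    ∃ α : ↥(D.group F) ≃* ↥(D.group F), ∀ (g : ↥(D.group F)) (i : ℕ) (t : F), i < D.rank →
      (((g : GL D.Idx F) : Matrix D.Idx D.Idx F) = D.x F (D.simple i) t →
        ((α g : GL D.Idx F) : Matrix D.Idx D.Idx F) = D.x F (D.simple (rho.getD i 0)) t) ∧
      (((g : GL D.Idx F) : Matrix D.Idx D.Idx F) = D.x F (D.neg (D.simple i)) t →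
        ((α g : GL D.Idx F) : Matrix D.Idx D.Idx F) = D.x F (D.neg (D.simple (rho.getD i 0))) t) := by
  classical
  simp only [autOK, Bool.and_eq_true, allB_iff, Nat.blt_eq, Bool.or_eq_true, beq_iff_eq, Bool.not_eq_true',
    List.any_eq_true, List.mem_range, Nat.beq_eq] at h
  obtain ⟨hdim, hrk⟩ := h
  have hinj : ∀ k < dim D, ∀ l < dim D, qMap D rho sg k = qMap D rho sg l → k = l := fun k hk l hl e => by
    rcases (hdim k hk).2 l hl with h | h
    · exact h
    · rw [e] at h; simp at h
  let qF : Fin (dim D) → Fin (dim D) := fun k => ⟨qMap D rho sg k, (hdim k k.2).1.1⟩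
  have hqF : Function.Bijective qF :=
    Finite.injective_iff_bijective.1 fun k l e => Fin.ext (hinj k k.2 l l.2 (congrArg Fin.val e))
  let Q : D.Idx ≃ D.Idx := ((enc D).trans (Equiv.ofBijective qF hqF)).trans (enc D).symm
  let ep : D.Idx → F := fun a => ((eMap D eps ((enc D a : Fin (dim D)) : ℕ) : ℤ) : F)
  have hep : ∀ a, ep a * ep a = 1 := fun a => by
    rcases (hdim _ (enc D a).2).1.2 with h | h <;> simp [ep, h]
  have hQ : ∀ a, ((enc D (Q a) : Fin (dim D)) : ℕ) = qMap D rho sg ((enc D a : Fin (dim D)) : ℕ) := fun a => by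
    simp [Q, qF]
  have hDD : Matrix.diagonal ep * Matrix.diagonal ep = 1 := by
    rw [Matrix.diagonal_mul_diagonal, ← Matrix.diagonal_one]; congr 1; funext a; exact hep a
  let m : Matrix D.Idx D.Idx F ≃* Matrix D.Idx D.Idx F :=
    { toFun := fun X => Matrix.reindex Q Q (Matrix.diagonal ep * X * Matrix.diagonal ep)
      invFun := fun Y => Matrix.diagonal ep * Matrix.reindex Q.symm Q.symm Y * Matrix.diagonal ep
      left_inv := fun X => by
        simp only [Matrix.reindex_apply, Equiv.symm_symm, Matrix.submatrix_submatrix, Equiv.symm_comp_self,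
          Matrix.submatrix_id_id]
        calc _ = (Matrix.diagonal ep * Matrix.diagonal ep) * X * (Matrix.diagonal ep * Matrix.diagonal ep) := by
              simp only [Matrix.mul_assoc]
          _ = X := by rw [hDD, Matrix.one_mul, Matrix.mul_one]
      right_inv := fun Y => by
        calc _ = Matrix.reindex Q Q ((Matrix.diagonal ep * Matrix.diagonal ep) * Matrix.reindex Q.symm Q.symm Y *
              (Matrix.diagonal ep * Matrix.diagonal ep)) := by simp only [Matrix.mul_assoc]
          _ = Y := by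
            rw [hDD, Matrix.one_mul, Matrix.mul_one]
            simp [Matrix.reindex_apply, Matrix.submatrix_submatrix]
      map_mul' := fun X Y => by
        simp only [Matrix.reindex_apply, Matrix.submatrix_mul_equiv]
        congr 1
        calc _ = Matrix.diagonal ep * X * 1 * (Y * Matrix.diagonal ep) := by simp only [Matrix.mul_assoc, Matrix.mul_one]
          _ = _ := by rw [← hDD]; simp only [Matrix.mul_assoc] }
  let G : GL D.Idx F ≃* GL D.Idx F := Units.mapEquiv m
  have key : ∀ r s t, r < D.nroots → s < D.nroots → eqv (sp D A s) (relabel D rho sg eps (sp D A r)) = true →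
      G (xg D F r t) = xg D F s t := by
    intro r s t hr hs he
    refine Units.ext ?_
    show m (xg D F r t : Matrix D.Idx D.Idx F) = _
    rw [coe_xg hc hr, coe_xg hc hs]
    ext a b
    obtain ⟨a, rfl⟩ := Q.surjective a
    obtain ⟨b, rfl⟩ := Q.surjective b
    show Matrix.reindex Q Q (Matrix.diagonal ep * D.x F r t * Matrix.diagonal ep) (Q a) (Q b) = _
    rw [Matrix.reindex_apply, Matrix.submatrix_apply, Q.symm_apply_apply, Q.symm_apply_apply,
      Matrix.mul_diagonal, Matrix.diagonal_mul, x_eq hc hr t 1, x_eq hc hs t 1, Matrix.add_apply,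
      Matrix.add_apply, toMat_apply, toMat_apply, hQ, hQ, ev_eq_of_eqv he,
      ev_relabel t 1 (bdd_sp hc hr) hinj (enc D a).2 (enc D b).2]
    rw [Matrix.one_apply, Matrix.one_apply]
    by_cases hab : a = b
    · subst hab
      rw [if_pos rfl, if_pos rfl]
      calc _ = ep a * ep a + ep a * ep a * ev t 1 (sp D A r) (enc D a) (enc D a) := by ring
        _ = _ := by rw [hep]
    · rw [if_neg hab, if_neg fun e => hab (Q.injective e)]
      simp only [ep]; ring
  have hsimp : ∀ i < D.rank, ∀ t, G (xg D F (D.simple i) t) = xg D F (D.simple (rho.getD i 0)) t ∧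
      G (xg D F (negI D (D.simple i)) t) = xg D F (negI D (D.simple (rho.getD i 0))) t := by
    intro i hi t
    obtain ⟨⟨⟨⟨⟨hr, -⟩, -⟩, -⟩, h1⟩, h2⟩ := hrk i hi
    exact ⟨key _ _ t (simple_lt hc hi) (simple_lt hc hr) h1,
      key _ _ t (negI_lt (simple_lt hc hi)) (negI_lt (simple_lt hc hr)) h2⟩
  have hmap : (D.group F).map (G : GL D.Idx F →* GL D.Idx F) = D.group F := by
    refine le_antisymm (Subgroup.map_le_iff_le_comap.2 (group_le_simple hc fun i hi t => ?_))
      (group_le_simple hc fun i hi t => ?_)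
    · obtain ⟨⟨⟨⟨⟨hr, -⟩, -⟩, -⟩, -⟩, -⟩ := hrk i hi
      constructor <;> rw [Subgroup.mem_comap, MonoidHom.coe_coe]
      · rw [(hsimp i hi t).1]; exact xg_mem_group hc (simple_lt hc hr) t
      · rw [(hsimp i hi t).2]; exact xg_mem_group hc (negI_lt (simple_lt hc hr)) t
    · obtain ⟨⟨⟨⟨⟨-, j, hj, e⟩, -⟩, -⟩, -⟩, -⟩ := hrk i hi
      refine ⟨⟨_, xg_mem_group hc (simple_lt hc hj) t, ?_⟩, ⟨_, xg_mem_group hc (negI_lt (simple_lt hc hj)) t, ?_⟩⟩
      · exact (hsimp j hj t).1.trans (by rw [e])
      · exact (hsimp j hj t).2.trans (by rw [e])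
  refine ⟨(G.subgroupMap (D.group F)).trans (MulEquiv.subgroupCongr hmap), fun g i t hi => ⟨fun hg => ?_, fun hg => ?_⟩⟩
  · obtain ⟨⟨⟨⟨⟨hr, -⟩, -⟩, -⟩, -⟩, -⟩ := hrk i hi
    have e : (g : GL D.Idx F) = xg D F (D.simple i) t := Units.ext (hg.trans (coe_xg hc (simple_lt hc hi) t).symm)
    show ((G (g : GL D.Idx F) : GL D.Idx F) : Matrix D.Idx D.Idx F) = _
    rw [e, (hsimp i hi t).1, coe_xg hc (simple_lt hc hr)]
  · obtain ⟨⟨⟨⟨⟨hr, -⟩, -⟩, -⟩, -⟩, -⟩ := hrk i hi
    rw [neg_eq hc (simple_lt hc hi)] at hg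
    have e : (g : GL D.Idx F) = xg D F (negI D (D.simple i)) t :=
      Units.ext (hg.trans (coe_xg hc (negI_lt (simple_lt hc hi)) t).symm)
    show ((G (g : GL D.Idx F) : GL D.Idx F) : Matrix D.Idx D.Idx F) = _
    rw [e, (hsimp i hi t).2, coe_xg hc (negI_lt (simple_lt hc hr)), neg_eq hc (simple_lt hc hr)]

end Cfsg.Lib.Chev.GraphAuto
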