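/-
The permutation character on the Borel subgroup of a Chevalley group has as many constituents as the
Weyl group has classes.
-/
import Cfsg.Agent.Lib.LieBN.HeckePair
import Cfsg.Agent.Lib.Chev.DefectUnique
import Cfsg.Agent.Lib.Chev.CoxeterData

set_option autoImplicit false
set_option linter.unusedSectionVars false

namespace Cfsg.Lib.LieBN.RankOne

open scoped Classical

variable {G : Type*} [Group G] [Fintype G] {P : Cfsg.BNPair G} {p : ℕ} [Fact p.Prime] [Fintype P.S] {U : Subgroup G}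
  {ι : Type*} [Fintype ι]

theorem ncell_sref (d : RankOne P U ι) (h : Split P p U) (s : P.S) :
    ncell P (sref P s) = Nat.card (d.X s) := by
  have hss : (s : G) * s ∈ P.B := P.sq_mem s s.2
  have hconj : ∀ z : G, (s : G)⁻¹ * z * s ∈ P.B ↔ (s : G) * z * (s : G)⁻¹ ∈ P.B := by
    intro z
    constructor
    · intro hz
      have := mul_mem (mul_mem hss hz) (inv_mem hss)
      rwa [show (s : G) * s * ((s : G)⁻¹ * z * s) * ((s : G) * s)⁻¹ = (s : G) * z * (s : G)⁻¹ by group] at this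
    · intro hz
      have := mul_mem (mul_mem (inv_mem hss) hz) hss
      rwa [show ((s : G) * s)⁻¹ * ((s : G) * z * (s : G)⁻¹) * ((s : G) * s) = (s : G)⁻¹ * z * s by group] at this
  refine (Nat.card_congr (Equiv.ofBijective
    (fun x : d.X s => (⟨(((x : G) * s : G) : G ⧸ P.B),
      cl_eq ((InC.mk (⟨(s : G), P.subset s.2⟩ : P.N)).mul_left (h.le (d.le s x.2)))⟩ :
      {y : G ⧸ P.B // cl P y = sref P s})) ⟨?_, ?_⟩)).symm
  · intro x y e
    have e' : (((x : G) * s : G) : G ⧸ P.B) = (((y : G) * s : G) : G ⧸ P.B) := congrArg Subtype.val e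
    rw [QuotientGroup.eq] at e'
    have hz : (s : G)⁻¹ * ((x : G)⁻¹ * y) * s ∈ P.B := by simpa [mul_assoc] using e'
    by_contra hne
    have h1 : (x : G)⁻¹ * y ≠ 1 := fun h => hne (Subtype.ext (inv_mul_eq_one.1 h))
    exact sref_ne_one s ((d.InC_rankOne h s (mul_mem (inv_mem x.2) y.2) h1).unique
      (InC.one_iff.2 ((hconj _).1 hz)))
  · rintro ⟨y, hy⟩
    obtain ⟨g, rfl⟩ := QuotientGroup.mk_surjective y
    obtain ⟨b₁, hb₁, b₂, hb₂, rfl⟩ := InC.iff_rep.1 (hy ▸ cl_spec g)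
    obtain ⟨u, hu, t, ht, rfl⟩ := h.decomp b₁ hb₁
    obtain ⟨v, hv, hv', x, hx, e⟩ := d.split s u⁻¹ (inv_mem hu)
    have hu' : u = x⁻¹ * v⁻¹ := by rw [← mul_inv_rev, ← e, inv_inv]
    refine ⟨⟨x⁻¹, inv_mem hx⟩, Subtype.ext ?_⟩
    show ((x⁻¹ * s : G) : G ⧸ P.B) = ((u * t * s * b₂ : G) : G ⧸ P.B)
    rw [QuotientGroup.eq]
    have e2 : (x⁻¹ * (s : G))⁻¹ * (u * t * s * b₂) =
        ((s : G)⁻¹ * v⁻¹ * s) * ((s : G)⁻¹ * t * ((s : G)⁻¹)⁻¹) * b₂ := by rw [hu']; group
    rw [e2]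
    refine mul_mem (mul_mem ((hconj _).2 ?_) (P.conj_mem _ (P.N.inv_mem (P.subset s.2)) _ ht)) hb₂
    have := inv_mem (h.le hv')
    rwa [show ((s : G) * v * (s : G)⁻¹)⁻¹ = (s : G) * v⁻¹ * (s : G)⁻¹ by group] at this

end Cfsg.Lib.LieBN.RankOne

namespace Cfsg.Lib.Chev

open Cfsg.Lie Cfsg.Lib.LieBN

variable {D : ChevalleyDatum} {A : Aux} (hc : Cert D A) {F : Type*} [Field F] [Fintype F]

theorem ncell_sref_eq (p : ℕ) [Fact p.Prime] [CharP F p]
    (hD : D ∈ [Cfsg.Lie.chevG2, Cfsg.Lie.chevB2, Cfsg.Lie.chevD4, Cfsg.Lie.chevF4, Cfsg.Lie.chevE6,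
      Cfsg.Lie.chevE7, Cfsg.Lie.chevE8]) [Fintype ↥(D.group F)] [Fintype (bnPair F hc).S] (s : (bnPair F hc).S) :
    ncell (bnPair F hc) (sref (bnPair F hc) s) = Fintype.card F := by
  classical
  rw [(rankOne hc p hD).ncell_sref (split_bnPair hc p hD) s, ← Nat.card_eq_fintype_card]
  refine (Nat.card_congr (Equiv.ofBijective
    (fun t : F => (⟨⟨xg D F (D.simple (sIdx hc s)) t, xg_mem_group hc (simple_lt hc (sIdx hc s).2) t⟩, ⟨t, rfl⟩⟩ :
      (rankOne hc p hD).X s)) ⟨?_, ?_⟩)).symm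
  · intro t u e
    have e' := congrArg Subtype.val (congrArg Subtype.val e)
    exact xg_injective hc (simple_lt hc (sIdx hc s).2) e'
  · rintro ⟨x, t, ht⟩
    exact ⟨t, Subtype.ext (Subtype.ext ht.symm)⟩

theorem exists_weyl_equiv (M : CoxeterMatrix (Fin D.rank))
    (hM : ∀ i j : Fin D.rank, ordOK D A i j (M i j) = true) :
    Nonempty (Weyl (bnPair F hc) ≃* M.Group) := by
  obtain ⟨φ, hsurj, hker, -⟩ := monomial_quot (F := F) hc M hM
  let e : (bnPair F hc).N ≃* ↥(D.monomialSubgroup F) := Subgroup.subgroupOfEquivOfLe (N_le_group hc)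
  have hk : (φ.comp e.toMonoidHom).ker = tor (bnPair F hc) := by
    rw [← MonoidHom.comap_ker, hker]
    ext n
    rw [mem_tor, Subgroup.mem_comap, Subgroup.mem_subgroupOf]
    show ((n : ↥(D.group F)) : GL D.Idx F) ∈ D.diagonalSubgroup F ↔
      ((n : ↥(D.group F)) : GL D.Idx F) ∈ D.borelSubgroup F
    constructor
    · exact fun h => H_le_B h
    · intro h
      rw [← B_inf_N hc]
      exact ⟨h, n.2⟩
  exact ⟨(QuotientGroup.quotientMulEquivOfEq hk.symm).trans
    (QuotientGroup.quotientKerEquivOfSurjective _ (hsurj.comp e.surjective))⟩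

include hc in
theorem card_constituents_borel (M : CoxeterMatrix (Fin D.rank))
    (hM : ∀ i j : Fin D.rank, ordOK D A i j (M i j) = true)
    (hD : D ∈ [Cfsg.Lie.chevG2, Cfsg.Lie.chevB2, Cfsg.Lie.chevD4, Cfsg.Lie.chevF4, Cfsg.Lie.chevE6,
      Cfsg.Lie.chevE7, Cfsg.Lie.chevE8]) :
    Nat.card {χ : Cfsg.IrrCharacter ↥(D.group F) //
      ∃ φ : ↥(D.group F) → ℂ, Cfsg.IsCharacter ↥(D.group F) φ ∧
        Cfsg.fixedPointCharacter ((D.borelSubgroup F).subgroupOf (D.group F)) =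
          (χ : ↥(D.group F) → ℂ) + φ} = Nat.card (ConjClasses M.Group) := by
  classical
  haveI : CharP F (ringChar F) := ringChar.charP F
  obtain ⟨k, hp, -⟩ := FiniteField.card F (ringChar F)
  haveI : Fact (ringChar F).Prime := ⟨hp⟩
  haveI := Fintype.ofFinite ↥(D.group F)
  haveI := Fintype.ofFinite (bnPair F hc).S
  haveI := Fintype.ofFinite (Weyl (bnPair F hc))
  rw [show (D.borelSubgroup F).subgroupOf (D.group F) = (bnPair F hc).B from rfl,
    Cfsg.Lib.Blocks.HeckeChar.card_constituents,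
    Hecke.finrank_zH_eq (q := Fintype.card F) (ncell_sref_eq hc (ringChar F) hD) Fintype.card_pos]
  obtain ⟨e⟩ := exists_weyl_equiv (F := F) hc M hM
  refine Nat.card_congr (Equiv.ofBijective (ConjClasses.map e.toMonoidHom) ⟨?_, ConjClasses.map_surjective e.surjective⟩)
  refine Function.LeftInverse.injective (g := ConjClasses.map e.symm.toMonoidHom) fun c => ?_
  induction c using Quotient.inductionOn with
  | h a =>
    show ConjClasses.mk (e.symm (e a)) = _
    rw [e.symm_apply_apply]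
    rfl

end Cfsg.Lib.Chev
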