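import Cfsg.Agent.Lib.Chev.Borel
import Cfsg.Agent.Lib.Chev.All

/-! A Chevalley group is generated by the root elements of the fundamental roots and their negatives. -/

set_option autoImplicit false

namespace Cfsg.Lib.Chev

open Cfsg.Lie

variable {D : ChevalleyDatum} {A : Aux} (hc : Cert D A) {F : Type*} [Field F]

include hc in
theorem ng_mem_of_simple {K : Subgroup (GL D.Idx F)} {i : ℕ}
    (h : ∀ t, xg D F (D.simple i) t ∈ K ∧ xg D F (negI D (D.simple i)) t ∈ K) : ng D F i ∈ K := by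
  rw [ng, ngen]
  exact K.mul_mem (h _).1 (K.mul_mem (h _).2 (h _).1)

include hc in
theorem group_le_simple {K : Subgroup (GL D.Idx F)}
    (h : ∀ i < D.rank, ∀ t, xg D F (D.simple i) t ∈ K ∧ xg D F (negI D (D.simple i)) t ∈ K) : D.group F ≤ K := by
  refine group_le hc fun r hr t => ?_
  obtain ⟨L, i, hL⟩ := exists_word_to hc ⟨r, hr⟩
  obtain ⟨-, c, -, hx⟩ := acts_wg hc (F := F) L
  have hw : wg D F L ∈ K := by
    refine K.list_prod_mem ?_
    intro x hx
    obtain ⟨j, -, rfl⟩ := List.mem_map.1 hx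
    exact ng_mem_of_simple hc fun t => h j j.2 t
  have h1 := hx (sR hc i) ((c (sR hc i) : F)⁻¹ * t)
  rw [hL, ← mul_assoc, mul_inv_cancel₀ (Units.ne_zero _), one_mul] at h1
  rw [← h1]
  exact K.mul_mem (K.mul_mem hw (h i i.2 _).1) (K.inv_mem hw)

include hc in
theorem group_hom_ext {H : Type*} [Group H] {φ ψ : ↥(D.group F) →* H}
    (h : ∀ (g : ↥(D.group F)) (i : Fin D.rank) (t : F),
      ((g : GL D.Idx F) : Matrix D.Idx D.Idx F) = D.x F (D.simple i) t ∨
        ((g : GL D.Idx F) : Matrix D.Idx D.Idx F) = D.x F (D.neg (D.simple i)) t → φ g = ψ g) : φ = ψ := by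
  ext g
  have hle : D.group F ≤ (φ.eqLocus ψ).map (D.group F).subtype := by
    refine group_le_simple hc fun i hi t => ⟨?_, ?_⟩
    · refine ⟨⟨_, xg_mem_group hc (simple_lt hc hi) t⟩, h _ ⟨i, hi⟩ t (Or.inl ?_), rfl⟩
      exact coe_xg hc (simple_lt hc hi) t
    · refine ⟨⟨_, xg_mem_group hc (negI_lt (simple_lt hc hi)) t⟩, h _ ⟨i, hi⟩ t (Or.inr ?_), rfl⟩
      rw [neg_eq hc (simple_lt hc hi)]
      exact coe_xg hc (negI_lt (simple_lt hc hi)) t
  obtain ⟨y, hy, e⟩ := hle g.2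
  rwa [show y = g from Subtype.ext e] at hy

end Cfsg.Lib.Chev
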