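/-
The special automorphisms of B₂, F₄ in characteristic 2 and of G₂ in characteristic 3.
-/
import Cfsg.Agent.Lib.Chev.CoverMap
import Cfsg.Agent.Lib.Chev.SimpleGen
import Cfsg.Agent.Lib.Chev.Misc

set_option autoImplicit false
set_option linter.unusedSectionVars false

namespace Cfsg.Lib.Chev.IsogenyAuto

open Cfsg.Lie Cfsg.Lib.Chev Cfsg.Lib.Chev.CoverStruct

/-- the terms surviving in characteristic `p` -/
def surv (D : ChevalleyDatum) (p r s : ℕ) : List (ℕ × ℤ × ℕ × ℕ) :=
  (D.commTerms r s).filter fun c => !decide (c.2.1 % (p : ℤ) = 0)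

/-- image of a term -/
def imgL (p : ℕ) (rho e : List ℕ) (c : ℕ × ℤ × ℕ × ℕ) : ℕ × ℤ × ℕ × ℕ :=
  (rho.getD c.1 0, c.2.1 % (p : ℤ), c.2.2.1 * e.getD c.1 0, c.2.2.2 * e.getD c.1 0)

/-- term of the image pair -/
def imgR (p : ℕ) (e : List ℕ) (r s : ℕ) (c : ℕ × ℤ × ℕ × ℕ) : ℕ × ℤ × ℕ × ℕ :=
  (c.1, c.2.1 % (p : ℤ), c.2.2.1 * e.getD r 0, c.2.2.2 * e.getD s 0)

/-- the check on a pair -/
def pairOK2 (D : ChevalleyDatum) (p : ℕ) (rho e : List ℕ) (r s : ℕ) : Bool :=
  Nat.beq s r || Nat.beq s (negI D r) ||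
    let L := (surv D p (rho.getD r 0) (rho.getD s 0)).map (imgR p e r s)
    let M := (surv D p r s).map (imgL p rho e)
    (!(Nat.beq (rho.getD s 0) (rho.getD r 0)) && !(Nat.beq (rho.getD s 0) (negI D (rho.getD r 0)))) &&
    M.isPerm L &&
    L.all fun a => L.all fun b =>
      Nat.beq b.1 a.1 || (!(Nat.beq b.1 (negI D a.1)) && (surv D p a.1 b.1).isEmpty)

/-- the whole check -/
def isoOK (D : ChevalleyDatum) (p : ℕ) (rho e : List ℕ) : Bool :=
  allB D.nroots fun r =>
    Nat.blt (rho.getD r 0) D.nroots && Nat.beq (rho.getD (rho.getD r 0) 0) r &&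
    Nat.beq (rho.getD (negI D r) 0) (negI D (rho.getD r 0)) &&
    (Nat.beq (e.getD r 0) 1 || Nat.beq (e.getD r 0) p) &&
    Nat.beq (e.getD r 0 * e.getD (rho.getD r 0) 0) p &&
    allB D.nroots fun s => pairOK2 D p rho e r s

variable {D : ChevalleyDatum} {A : Aux} (hc : Cert D A) {K : Type*} [Field K]

include hc in
theorem exists_iso_aut (hl : linkOK D A = true) {p : ℕ} [Fact p.Prime] [CharP K p]
    (hperf : ∀ x : K, ∃ y : K, y ^ p = x) {rho e : List ℕ} (h : isoOK D p rho e = true) :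
    ∃ α : ↥(D.group K) ≃* ↥(D.group K), ∀ (g : ↥(D.group K)) (r : ℕ) (t : K), r < D.nroots →
      (g : GL D.Idx K) = xg D K r t → (α g : GL D.Idx K) = xg D K (rho.getD r 0) (t ^ e.getD r 0) := by
  classical
  simp only [isoOK, allB_iff, Bool.and_eq_true, Bool.or_eq_true, Nat.blt_eq, Nat.beq_eq] at h
  have hlt : ∀ r, r < D.nroots → rho.getD r 0 < D.nroots := fun r hr => (h r hr).1.1.1.1.1
  have hinv : ∀ r, r < D.nroots → rho.getD (rho.getD r 0) 0 = r := fun r hr => (h r hr).1.1.1.1.2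
  have hee : ∀ r, r < D.nroots → e.getD r 0 * e.getD (rho.getD r 0) 0 = p := fun r hr => (h r hr).1.2
  have he : ∀ r, r < D.nroots → ∃ φ : K →+* K, (∀ x, φ x = x ^ e.getD r 0) ∧ Function.Surjective φ := by
    intro r hr
    rcases (h r hr).1.1.2 with he | he
    · exact ⟨RingHom.id K, fun x => by rw [he, pow_one]; rfl, fun x => ⟨x, rfl⟩⟩
    · exact ⟨frobenius K p, fun x => by rw [he]; rfl, fun x => by obtain ⟨y, hy⟩ := hperf x; exact ⟨y, hy⟩⟩
  choose φ hφ hφs using he
  have hcast : ∀ c : ℤ, ((c % (p : ℤ) : ℤ) : K) = (c : K) := fun c => by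
    conv_rhs => rw [← Int.emod_add_mul_ediv c (p : ℤ)]
    simp
  have hzero : ∀ c : ℕ × ℤ × ℕ × ℕ, decide (c.2.1 % (p : ℤ) = 0) = true → (c.2.1 : K) = 0 := fun c hc0 => by
    rw [← hcast, of_decide_eq_true hc0, Int.cast_zero]
  let val : ℕ → (ℕ × ℤ × ℕ × ℕ) → K → K → GL D.Idx K := fun k c a b => xg D K k ((c.2.1 : K) * a ^ c.2.2.1 * b ^ c.2.2.2)
  have hfilter : ∀ (r s : ℕ), r < D.nroots → s < D.nroots → ∀ (f : ℕ × ℤ × ℕ × ℕ → GL D.Idx K),
      (∀ c ∈ D.commTerms r s, (c.2.1 : K) = 0 → f c = 1) →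
      ((D.commTerms r s).map f).prod = ((surv D p r s).map f).prod := by
    intro r s _ _ f hf
    unfold surv
    generalize D.commTerms r s = L at hf ⊢
    induction L with
    | nil => rfl
    | cons c L ih =>
      have ih' := ih fun c hc => hf c (List.mem_cons_of_mem _ hc)
      by_cases h0 : c.2.1 % (p : ℤ) = 0
      · have h0' : (p : ℤ) ∣ c.2.1 := Int.dvd_of_emod_eq_zero h0
        simp [List.filter_cons, h0', ih', hf c List.mem_cons_self (hzero c (decide_eq_true h0))]
      · have h0' : ¬ (p : ℤ) ∣ c.2.1 := fun h => h0 (Int.emod_eq_zero_of_dvd h)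
        simp [List.filter_cons, h0', ih']
  let f : ℕ → K → GL D.Idx K := fun r t => xg D K (rho.getD r 0) (t ^ e.getD r 0)
  have hword : ∀ (r s : ℕ) (t u : K), r < D.nroots → s < D.nroots → s ≠ r → s ≠ negI D r →
      (xg D K s u)⁻¹ * (xg D K r t)⁻¹ * xg D K s u * xg D K r t =
        ((surv D p r s).map fun c => xg D K c.1 ((c.2.1 : K) * (-t) ^ c.2.2.1 * u ^ c.2.2.2)).prod := by
    intro r s t u hr hs n1 n2
    rw [← hfilter r s hr hs _ fun c hc0 h0 => by rw [h0, zero_mul, zero_mul, xg_zero hc (commTerms_comb hc hr hs c hc0).1]]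
    have := congrArg (theta hc) (X_comm hc hr hs n1 n2 t u)
    simp only [map_mul, map_inv, theta_X hc hr, theta_X hc hs, CoverStruct.ev, map_list_prod, ChevalleyDatum.commWord, List.map_map] at this
    rw [this]
    congr 1
    exact List.map_congr_left fun c hc0 => theta_X hc (commTerms_comb hc hr hs c hc0).1 _
  have hψ : ∃ ψ : D.SteinbergCover K →* GL D.Idx K, ∀ r t, r < D.nroots → ψ (X D r t) = f r t := by
    refine exists_hom f (fun r t u hr => ?_) (fun r s t u hr hs n1 n2 => ?_) (fun r s t u hr hs => word_lt hc t u hr hs)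
    · simp only [f]
      rw [xg_add hc (hlt r hr), ← hφ r hr, ← hφ r hr, ← hφ r hr, map_add]
    rw [neg_eq hc hr] at n2
    have hp2 := (h r hr).2 s hs
    simp only [pairOK2, Bool.or_eq_true, Bool.and_eq_true, Nat.beq_eq, Bool.not_eq_true', ← Bool.not_eq_true,
      List.all_eq_true, List.isEmpty_iff] at hp2
    rcases hp2 with (hp2 | hp2) | ⟨⟨⟨m1, m2⟩, hperm⟩, hcommute⟩
    · exact absurd hp2 n1
    · exact absurd hp2 n2
    let L := (surv D p (rho.getD r 0) (rho.getD s 0)).map (imgR p e r s)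
    let M := (surv D p r s).map (imgL p rho e)
    have hP : M.Perm L := List.isPerm_iff.1 hperm
    have hLlt : ∀ a ∈ L, a.1 < D.nroots := fun a ha => by
      obtain ⟨c, hc0, rfl⟩ := List.mem_map.1 ha
      exact (commTerms_comb hc (hlt r hr) (hlt s hs) c (List.mem_of_mem_filter hc0)).1
    let v : ℕ × ℤ × ℕ × ℕ → GL D.Idx K := fun c => val c.1 c (-t) u
    have hcm : ∀ a ∈ L, ∀ b ∈ L, Commute (v a) (v b) := by
      intro a ha b hb
      by_cases hab : b.1 = a.1
      · simp only [v, val, hab, commute_iff_eq, xg_add hc (hLlt a ha), add_comm]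
      rcases hcommute a ha b hb with h | ⟨hn, he⟩
      · exact absurd h hab
      have := hword a.1 b.1 ((a.2.1 : K) * (-t) ^ a.2.2.1 * u ^ a.2.2.2) ((b.2.1 : K) * (-t) ^ b.2.2.1 * u ^ b.2.2.2)
        (hLlt a ha) (hLlt b hb) hab hn
      rw [he, List.map_nil, List.prod_nil] at this
      simp only [v, val, commute_iff_eq]
      generalize xg D K a.1 _ = x at this ⊢
      generalize xg D K b.1 _ = y at this ⊢
      calc x * y = x * y * (y⁻¹ * x⁻¹ * y * x) := by rw [this, mul_one]
        _ = y * x := by group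
    have e1 : ((D.commWord K r s t u).map fun q => f q.1 q.2).prod = (M.map v).prod := by
      simp only [ChevalleyDatum.commWord, List.map_map, M]
      rw [hfilter r s hr hs]
      · congr 1
        refine List.map_congr_left fun c hc0 => ?_
        have hk := (commTerms_comb hc hr hs c (List.mem_of_mem_filter hc0)).1
        simp only [Function.comp_apply, f, v, val, imgL, hcast]
        rw [← hφ c.1 hk, map_mul, map_mul, map_intCast, map_pow, map_pow, hφ c.1 hk, hφ c.1 hk, ← pow_mul, ← pow_mul,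
          mul_comm (e.getD c.1 0), mul_comm (e.getD c.1 0)]
      · intro c hc0 h0
        have hk := (commTerms_comb hc hr hs c hc0).1
        simp only [Function.comp_apply, f, h0, zero_mul]
        rw [← hφ c.1 hk, map_zero, xg_zero hc (hlt c.1 hk)]
    have e2 : (f s u)⁻¹ * (f r t)⁻¹ * f s u * f r t = (L.map v).prod := by
      simp only [f]
      rw [hword _ _ _ _ (hlt r hr) (hlt s hs) m1 m2, List.map_map]
      congr 1
      refine List.map_congr_left fun c _ => ?_
      simp only [Function.comp_apply, v, val, imgR, hcast]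
      rw [← hφ r hr t, ← map_neg, hφ r hr, ← pow_mul, ← pow_mul, mul_comm (e.getD r 0), mul_comm (e.getD s 0)]
    rw [e1, e2]
    refine ((hP.map v).prod_eq' ?_).symm
    rw [List.pairwise_map]
    exact List.pairwise_of_forall_mem_list fun a ha b hb => hcm a (hP.subset ha) b (hP.subset hb)
  obtain ⟨ψ, hψ⟩ := hψ
  have hmem : ∀ x, ψ x ∈ D.group K := fun x => by
    have h : (⊤ : Subgroup (D.SteinbergCover K)) ≤ (D.group K).comap ψ := by
      rw [← closure_X, Subgroup.closure_le]
      rintro _ ⟨r, t, hr, rfl⟩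
      rw [SetLike.mem_coe, Subgroup.mem_comap, hψ r t hr]
      exact xg_mem_group hc (hlt r hr) _
    exact h (Subgroup.mem_top x)
  let Ψ := ψ.codRestrict (D.group K) hmem
  have hsurj : Function.Surjective Ψ := by
    intro y
    have h : D.group K ≤ ψ.range := group_le hc fun r hr t => by
      obtain ⟨w, hw⟩ := hφs (rho.getD r 0) (hlt r hr) t
      rw [hφ] at hw
      exact ⟨X D (rho.getD r 0) w, by rw [hψ _ _ (hlt r hr)]; simp only [f, hinv r hr, hw]⟩
    obtain ⟨x, hx⟩ := h y.2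
    exact ⟨x, Subtype.ext hx⟩
  let q := thetaG (K := K) hc
  have hq : Function.Surjective q := thetaG_surjective hc
  have hker : q.ker ≤ Ψ.ker := fun x hx => by
    have hcen := ker_le_center hc hl (congrArg Subtype.val (MonoidHom.mem_ker.1 hx))
    refine MonoidHom.mem_ker.2 (group_center_eq_one hc (Subgroup.mem_center_iff.2 fun y => ?_))
    obtain ⟨z, rfl⟩ := hsurj y
    rw [← map_mul, ← map_mul, Subgroup.mem_center_iff.1 hcen]
  let α₀ : ↥(D.group K) →* ↥(D.group K) := q.liftOfSurjective hq ⟨Ψ, hker⟩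
  have hα : ∀ r t, (hr : r < D.nroots) →
      (α₀ ⟨xg D K r t, xg_mem_group hc hr t⟩ : GL D.Idx K) = xg D K (rho.getD r 0) (t ^ e.getD r 0) := by
    intro r t hr
    have e1 : (⟨xg D K r t, xg_mem_group hc hr t⟩ : ↥(D.group K)) = q (X D r t) :=
      Subtype.ext (theta_X hc hr t).symm
    rw [e1, MonoidHom.liftOfRightInverse_comp_apply]
    exact hψ r t hr
  have hsq : (Subgroup.subtype _).comp ((α₀.comp α₀).comp q) =
      (Matrix.GeneralLinearGroup.map (frobenius K p)).comp (theta hc) := hom_ext fun r hr t => by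
    have e1 : q (X D r t) = ⟨xg D K r t, xg_mem_group hc hr t⟩ := Subtype.ext (theta_X hc hr t)
    have e2 : α₀ ⟨xg D K r t, xg_mem_group hc hr t⟩ = ⟨_, xg_mem_group hc (hlt r hr) (t ^ e.getD r 0)⟩ :=
      Subtype.ext (hα r t hr)
    simp only [MonoidHom.comp_apply, Subgroup.coe_subtype, e1, e2, hα _ _ (hlt r hr), theta_X hc hr, map_xg hc _ hr,
      frobenius_def]
    rw [hinv r hr, ← pow_mul, hee r hr]
  have hinj : Function.Injective α₀ := by
    intro a b hab
    obtain ⟨a, rfl⟩ := hq a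
    obtain ⟨b, rfl⟩ := hq b
    have h1 := DFunLike.congr_fun hsq a
    have h2 := DFunLike.congr_fun hsq b
    simp only [MonoidHom.comp_apply] at h1 h2
    rw [hab, h2] at h1
    refine Subtype.ext ?_
    show theta hc a = theta hc b
    refine Units.ext (Matrix.map_injective (frobenius_inj K p) ?_)
    exact (congrArg Units.val h1).symm
  have hsur : Function.Surjective α₀ := fun y => by
    obtain ⟨x, rfl⟩ := hsurj y
    exact ⟨q x, MonoidHom.liftOfRightInverse_comp_apply q _ (Function.surjInv_eq hq) ⟨Ψ, hker⟩ x⟩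
  refine ⟨MulEquiv.ofBijective α₀ ⟨hinj, hsur⟩, fun g r t hr hg => ?_⟩
  rw [show g = ⟨xg D K r t, xg_mem_group hc hr t⟩ from Subtype.ext hg]
  exact hα r t hr

end Cfsg.Lib.Chev.IsogenyAuto
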