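import Cfsg.Agent.Lib.Chev.SimpleGen
import Cfsg.Agent.Lib.Chev.Weyl
import Mathlib.Algebra.CharP.Defs

/-! Generation of a Chevalley group by the monomial subgroup and few root subgroups. -/

set_option autoImplicit false

namespace Cfsg.Lib.Chev.MonomialGen

open Cfsg.Lie Cfsg.Lib.Chev

/-- the commutator step: `[x_a, x_b] = x_k(±c)` gives the root `k` -/
def termOK (D : ChevalleyDatum) (C : List ℕ) (k a b : ℕ) : Bool :=
  Nat.blt a D.nroots && Nat.blt b D.nroots && !Nat.beq b a && !Nat.beq b (negI D a) &&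
    match D.commTerms a b with
    | [(k', c, i, j)] => Nat.beq k' k && Nat.beq i 1 && Nat.beq j 1 && C.contains c.natAbs
    | _ => false

/-- node `j` follows from node `i` -/
def stepOK (D : ChevalleyDatum) (A : Aux) (C : List ℕ) (i j : ℕ) : Bool :=
  Nat.beq (A.w i (A.w j (D.simple i))) (D.simple j) ||
    (!C.isEmpty && (termOK D C (D.simple j) (A.w j (D.simple i)) (A.w i (D.simple i)) ||
      termOK D C (D.simple j) (A.w i (D.simple i)) (A.w j (D.simple i))))

/-- the nodes reached in `fuel` rounds -/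
def reach (D : ChevalleyDatum) (A : Aux) (C : List ℕ) : ℕ → List ℕ → List ℕ
  | 0, L => L
  | n + 1, L => reach D A C n
      (L ++ (List.range D.rank).filter fun j => !L.contains j && L.any fun i => stepOK D A C i j)

/-- every node is reached -/
def genOK (D : ChevalleyDatum) (A : Aux) (C : List ℕ) (L : List ℕ) : Bool :=
  let R := reach D A C D.rank L
  (List.range D.rank).all fun j => R.contains j

variable {D : ChevalleyDatum} {A : Aux} (hc : Cert D A) {F : Type*} [Field F]

/-- the root elements of `r` lie in `K` -/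
def Good (D : ChevalleyDatum) {F : Type*} [Field F] (K : Subgroup (GL D.Idx F)) (r : ℕ) : Prop :=
  r < D.nroots ∧ ∀ t : F, xg D F r t ∈ K

variable {K : Subgroup (GL D.Idx F)} {C : List ℕ}

include hc in
theorem good_w (hK : D.monomialSubgroup F ≤ K) {i r : ℕ} (hi : i < D.rank) (h : Good D K r) :
    Good D K (A.w i r) := by
  refine ⟨w_lt hc hi h.1, fun t => ?_⟩
  have hn : ng D F i ∈ K := hK (ng_mem_N hc ⟨i, hi⟩)
  have he : ((A.eta i r : ℤ) : F) * ((A.eta i r : ℤ) : F) = 1 := by
    simp only [Aux.eta]; split <;> simp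
  have h1 := ng_conj_xg hc hi h.1 (((A.eta i r : ℤ) : F) * t)
  rw [← mul_assoc, he, one_mul] at h1
  rw [← h1]
  exact K.mul_mem (K.mul_mem hn (h.2 _)) (K.inv_mem hn)

include hc in
theorem good_term (hC : ∀ c ∈ C, (c : F) ≠ 0) {k a b : ℕ} (hk : k < D.nroots) (h : termOK D C k a b = true)
    (ha : Good D K a) (hb : Good D K b) : Good D K k := by
  refine ⟨hk, fun t => ?_⟩
  simp only [termOK, Bool.and_eq_true, Bool.not_eq_true', Nat.blt_eq] at h
  obtain ⟨⟨⟨⟨-, -⟩, hba⟩, hbn⟩, h⟩ := h
  have hba' : b ≠ a := fun e => by simp [e] at hba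
  have hbn' : b ≠ negI D a := fun e => by simp [e] at hbn
  split at h
  · rename_i k' c i j heq
    simp only [Bool.and_eq_true, Nat.beq_eq, List.contains_iff_mem] at h
    obtain ⟨⟨⟨rfl, rfl⟩, rfl⟩, hcC⟩ := h
    have hc0 : (c : F) ≠ 0 := by
      have h0 := hC _ hcC
      rcases Int.natAbs_eq c with e | e <;> rw [e] <;> simpa using h0
    have hf := comm_formula hc ha.1 hb.1 hba' hbn' (-(t / (c : F))) (1 : F)
    have e : xg D F b 1 * xg D F a (-(t / (c : F))) =
        xg D F a (-(t / (c : F))) * xg D F b 1 * xg D F k' t := by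
      refine Units.ext ?_
      simp only [Units.val_mul, coe_xg hc ha.1, coe_xg hc hb.1, coe_xg hc hk]
      rw [hf]
      simp [ChevalleyDatum.commWord, heq, ChevalleyDatum.wordMat, mul_div_cancel₀ _ hc0]
    have e' : xg D F k' t = (xg D F a (-(t / (c : F))) * xg D F b 1)⁻¹ *
        (xg D F b 1 * xg D F a (-(t / (c : F)))) := by rw [e]; group
    rw [e']
    exact K.mul_mem (K.inv_mem (K.mul_mem (ha.2 _) (hb.2 _))) (K.mul_mem (hb.2 _) (ha.2 _))
  · simp at h

include hc in
theorem good_step (hK : D.monomialSubgroup F ≤ K) (hC : ∀ c ∈ C, (c : F) ≠ 0) {i j : ℕ} (hi : i < D.rank)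
    (hj : j < D.rank) (h : stepOK D A C i j = true) (hg : Good D K (D.simple i)) : Good D K (D.simple j) := by
  simp only [stepOK, Bool.or_eq_true, Bool.and_eq_true, Nat.beq_eq] at h
  rcases h with h | ⟨-, h | h⟩
  · rw [← h]; exact good_w hc hK hi (good_w hc hK hj hg)
  · exact good_term hc hC (simple_lt hc hj) h (good_w hc hK hj hg) (good_w hc hK hi hg)
  · exact good_term hc hC (simple_lt hc hj) h (good_w hc hK hi hg) (good_w hc hK hj hg)

include hc in
theorem reach_good (hK : D.monomialSubgroup F ≤ K) (hC : ∀ c ∈ C, (c : F) ≠ 0) :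
    ∀ (n : ℕ) (L : List ℕ), (∀ i ∈ L, i < D.rank ∧ Good D K (D.simple i)) →
      ∀ i ∈ reach D A C n L, i < D.rank ∧ Good D K (D.simple i)
  | 0, L, hL => by simpa [reach] using hL
  | n + 1, L, hL => by
    rw [reach]
    refine reach_good hK hC n _ fun j hj => ?_
    rcases List.mem_append.1 hj with hj | hj
    · exact hL j hj
    · simp only [List.mem_filter, List.mem_range, Bool.and_eq_true, List.any_eq_true] at hj
      obtain ⟨hjr, -, i, hi, hs⟩ := hj
      exact ⟨hjr, good_step hc hK hC (hL i hi).1 hjr hs (hL i hi).2⟩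

include hc in
theorem group_le (hC : ∀ c ∈ C, (c : F) ≠ 0) {L : List ℕ} (hL : ∀ i ∈ L, i < D.rank)
    (h : genOK D A C L = true) (hK : D.monomialSubgroup F ≤ K)
    (hX : ∀ i ∈ L, D.rootSubgroup F (D.simple i) ≤ K) : D.group F ≤ K := by
  simp only [genOK, List.all_eq_true, List.mem_range, List.contains_iff_mem] at h
  have hg : ∀ j < D.rank, Good D K (D.simple j) := fun j hj =>
    (reach_good hc hK hC D.rank L (fun i hi => ⟨hL i hi, simple_lt hc (hL i hi), fun t =>
      hX i hi (Subgroup.subset_closure ⟨t, coe_xg hc (simple_lt hc (hL i hi)) t⟩)⟩) j (h j hj)).2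
  refine group_le_simple hc fun j hj t => ⟨(hg j hj).2 t, ?_⟩
  have h1 := (good_w hc hK hj (hg j hj)).2 t
  rwa [w_simple hc hj] at h1

end Cfsg.Lib.Chev.MonomialGen
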