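import Cfsg.Agent.Lib.Chev.MonomialGen
import Cfsg.Agent.Lib.Chev.All
import Cfsg.Prelude.Def_ChevAutomorphisms

/-! Generation of the seven Chevalley groups by `N` and one or two root subgroups. -/

set_option autoImplicit false
set_option maxRecDepth 100000

namespace Cfsg.Lib.Chev.MonomialGen

open Cfsg.Lie Cfsg.Lib.Chev

/-- every short node generates -/
def shortOK (D : ChevalleyDatum) (A : Aux) (C : List ℕ) : Bool :=
  (List.range D.rank).all fun i => D.isLong (D.simple i) || genOK D A C [i]

/-- every bonded short-long pair generates -/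
def pairAllOK (D : ChevalleyDatum) (A : Aux) : Bool :=
  (List.range D.rank).all fun i => (List.range D.rank).all fun j =>
    D.isLong (D.simple i) || !D.isLong (D.simple j) || D.bonds i j == 0 || genOK D A [] [i, j]

theorem okB2 : shortOK chevB2 auxB2 [1, 2] = true := by decide +kernel
theorem okG2 : shortOK chevG2 auxG2 [1, 3] = true := by decide +kernel
theorem okF4 : shortOK chevF4 auxF4 [1, 2] = true := by decide +kernel
theorem okD4 : (List.range chevD4.rank).all (fun i => genOK chevD4 auxD4 [] [i]) = true := by decide +kernel
theorem okE6 : (List.range chevE6.rank).all (fun i => genOK chevE6 auxE6 [] [i]) = true := by decide +kernel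
theorem okE7 : (List.range chevE7.rank).all (fun i => genOK chevE7 auxE7 [] [i]) = true := by decide +kernel
theorem okE8 : (List.range chevE8.rank).all (fun i => genOK chevE8 auxE8 [] [i]) = true := by decide +kernel
theorem okB2pair : pairAllOK chevB2 auxB2 = true := by decide +kernel
theorem okG2pair : pairAllOK chevG2 auxG2 = true := by decide +kernel
theorem okF4pair : pairAllOK chevF4 auxF4 = true := by decide +kernel

theorem natCast_ne_zero_of_ringChar {F : Type*} [Field F] {n : ℕ} (hn : n.Prime) (h : ringChar F ≠ n) :
    (n : F) ≠ 0 := fun e => by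
  rcases hn.eq_one_or_self_of_dvd _ (ringChar.dvd e) with h1 | h1
  · exact CharP.ringChar_ne_one h1
  · exact h h1

variable {D : ChevalleyDatum} {A : Aux} (hc : Cert D A) {F : Type*} [Field F]

include hc in
theorem group_le_short {C : List ℕ} (hC : ∀ c ∈ C, (c : F) ≠ 0) (h : shortOK D A C = true)
    {i : ℕ} (hi : i < D.rank) (hs : D.isLong (D.simple i) = false) :
    D.group F ≤ D.monomialSubgroup F ⊔ D.rootSubgroup F (D.simple i) := by
  simp only [shortOK, List.all_eq_true, List.mem_range] at h
  have h1 := h i hi
  rw [hs, Bool.false_or] at h1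
  refine group_le hc hC (L := [i]) (by simpa using hi) h1 le_sup_left fun j hj => ?_
  rw [List.mem_singleton.1 hj]; exact le_sup_right

include hc in
theorem group_le_any (h : (List.range D.rank).all (fun i => genOK D A [] [i]) = true) {i : ℕ} (hi : i < D.rank) :
    D.group F ≤ D.monomialSubgroup F ⊔ D.rootSubgroup F (D.simple i) := by
  simp only [List.all_eq_true, List.mem_range] at h
  refine group_le hc (C := []) (by simp) (L := [i]) (by simpa using hi) (h i hi) le_sup_left fun j hj => ?_
  rw [List.mem_singleton.1 hj]; exact le_sup_right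

include hc in
theorem group_le_pair (h : pairAllOK D A = true) {i j : ℕ} (hi : i < D.rank) (hj : j < D.rank)
    (hs : D.isLong (D.simple i) = false) (hl : D.isLong (D.simple j) = true) (hb : D.bonds i j ≠ 0) :
    D.group F ≤ D.monomialSubgroup F ⊔ D.rootSubgroup F (D.simple i) ⊔ D.rootSubgroup F (D.simple j) := by
  simp only [pairAllOK, List.all_eq_true, List.mem_range] at h
  have h1 := h i hi j hj
  rw [hs, hl, beq_eq_false_iff_ne.2 hb] at h1
  simp only [Bool.not_true, Bool.false_or] at h1
  refine group_le hc (C := []) (by simp) (L := [i, j]) (by simp [hi, hj]) h1 (le_sup_left.trans le_sup_left)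
    fun k hk => ?_
  simp only [List.mem_cons, List.not_mem_nil, or_false] at hk
  rcases hk with rfl | rfl
  · exact le_sup_right.trans le_sup_left
  · exact le_sup_right

theorem group_le_monomial_root {K : Type*} [Field K] (D : ChevalleyDatum)
    (hD : D ∈ [chevG2, chevB2, chevD4, chevF4, chevE6, chevE7, chevE8])
    (h2 : D ∈ [chevB2, chevF4] → ringChar K ≠ 2) (h3 : D = chevG2 → ringChar K ≠ 3)
    (i : ℕ) (hi : i < D.rank) (hshort : D.isLong (D.simple i) = false) :
    D.group K ≤ D.monomialSubgroup K ⊔ D.rootSubgroup K (D.simple i) := by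
  simp only [List.mem_cons, List.not_mem_nil, or_false] at hD h2
  rcases hD with rfl | rfl | rfl | rfl | rfl | rfl | rfl
  · refine group_le_short certG2 (C := [1, 3]) ?_ okG2 hi hshort
    intro c hc
    simp only [List.mem_cons, List.not_mem_nil, or_false] at hc
    rcases hc with rfl | rfl
    · simp
    · exact natCast_ne_zero_of_ringChar Nat.prime_three (h3 rfl)
  · refine group_le_short certB2 (C := [1, 2]) ?_ okB2 hi hshort
    intro c hc
    simp only [List.mem_cons, List.not_mem_nil, or_false] at hc
    rcases hc with rfl | rfl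
    · simp
    · exact natCast_ne_zero_of_ringChar Nat.prime_two (h2 (Or.inl rfl))
  · exact group_le_any certD4 okD4 hi
  · refine group_le_short certF4 (C := [1, 2]) ?_ okF4 hi hshort
    intro c hc
    simp only [List.mem_cons, List.not_mem_nil, or_false] at hc
    rcases hc with rfl | rfl
    · simp
    · exact natCast_ne_zero_of_ringChar Nat.prime_two (h2 (Or.inr rfl))
  · exact group_le_any certE6 okE6 hi
  · exact group_le_any certE7 okE7 hi
  · exact group_le_any certE8 okE8 hi

theorem group_le_monomial_two {K : Type*} [Field K] (e : ChevalleyDatum × ℕ)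
    (he : e ∈ [(chevB2, 2), (chevF4, 2), (chevG2, 3)]) (i j : ℕ) (hi : i < e.1.rank) (hj : j < e.1.rank)
    (hshort : e.1.isLong (e.1.simple i) = false) (hlong : e.1.isLong (e.1.simple j) = true)
    (hbond : e.1.bonds i j ≠ 0) :
    e.1.group K ≤ e.1.monomialSubgroup K ⊔ e.1.rootSubgroup K (e.1.simple i) ⊔
      e.1.rootSubgroup K (e.1.simple j) := by
  simp only [List.mem_cons, List.not_mem_nil, or_false] at he
  rcases he with rfl | rfl | rfl
  · exact group_le_pair certB2 okB2pair hi hj hshort hlong hbond
  · exact group_le_pair certF4 okF4pair hi hj hshort hlong hbond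
  · exact group_le_pair certG2 okG2pair hi hj hshort hlong hbond

end Cfsg.Lib.Chev.MonomialGen
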