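import Cfsg.Agent.Lib.Chev.SimpleGen
import Cfsg.Agent.Lib.Chev.BN
import Cfsg.Agent.Lib.Chev.Bruhat
import Cfsg.Agent.Lib.Chev.WeylGroup

/-! Standard parabolic subgroups of Chevalley groups. -/

set_option autoImplicit false

namespace Cfsg.Lib.Chev

open Cfsg.Lie

variable {D : ChevalleyDatum} {A : Aux} (hc : Cert D A) {F : Type*} [Field F]

/-- a weight on roots -/
def wt (D : ChevalleyDatum) (A : Aux) (W : ℕ → ℤ) (s : ℕ) : ℤ := ∑ i ∈ Finset.range D.rank, W i * A.co i s

/-- the weight of a basis vector -/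
def wphi (D : ChevalleyDatum) (A : Aux) (W : ℕ → ℤ) : D.Idx → ℤ := Sum.elim (fun _ => 0) (fun s => wt D A W s)

include hc in
theorem wt_neg (W : ℕ → ℤ) {r : ℕ} (hr : r < D.nroots) : wt D A W (negI D r) = -wt D A W r := by
  simp only [wt]
  rw [← Finset.sum_neg_distrib]
  exact Finset.sum_congr rfl fun i hi => by rw [co_neg hc (Finset.mem_range.1 hi) hr, mul_neg]

include hc in
theorem rz_x_wt (W : ℕ → ℤ) {r : ℕ} (hr : r < D.nroots) (he : 0 ≤ wt D A W r) (t : F) :
    Rz (wphi D A W) (wt D A W r) (D.x F r t - 1) := by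
  intro a b hab
  rcases a with i | u <;> rcases b with j | v
  · rw [Matrix.sub_apply, x_apply_ll hc hr]; simp [Matrix.one_apply]
  · rw [Matrix.sub_apply, x_apply_lr hc hr, Matrix.one_apply_ne (by simp), sub_zero, if_neg]
    intro hv
    simp [wphi, hv, wt_neg hc W hr] at hab
  · rw [Matrix.sub_apply, x_apply_rl hc hr, Matrix.one_apply_ne (by simp), sub_zero, if_neg]
    intro hu
    simp [wphi, hu] at hab
  · rw [Matrix.sub_apply, x_apply_rr hc hr]
    simp only [wphi, Sum.elim_inr] at hab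
    have h1 : ¬ ((u : ℕ) = r ∧ (v : ℕ) = negI D r) := by
      rintro ⟨h1, h2⟩
      rw [h1, h2, wt_neg hc W hr] at hab
      linarith
    have h2 : K D r t u v = 0 := by
      rw [K_eq hc hr]
      have : ∀ (L : List (ℕ × ℤ)) (k : ℕ), (∀ j (hj : j < L.length), L[j].1 ≠ (u : ℕ)) →
          selSum t u k L = 0 := by
        intro L
        induction L with
        | nil => intro k _; rfl
        | cons q L ih =>
          intro k hL
          rw [selSum, if_neg (show q.1 ≠ (u : ℕ) from hL 0 (Nat.zero_lt_succ _)), zero_add]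
          exact ih (k + 1) fun j hj => hL (j + 1) (Nat.succ_lt_succ hj)
      refine this _ 0 fun j hj heq => ?_
      have hchain : D.chainRoot r v (j + 1) = some (u : ℕ) := by
        simp [ChevalleyDatum.chainRoot, List.getElem?_eq_getElem hj, heq]
      have hpsi : wt D A W u = wt D A W v + ((j + 1 : ℕ) : ℤ) * wt D A W r := by
        simp only [wt]
        rw [Finset.mul_sum, ← Finset.sum_add_distrib]
        exact Finset.sum_congr rfl fun m hm => by
          rw [co_chainRoot hc hr (Nat.le_add_left 1 j) hchain (Finset.mem_range.1 hm)]; ring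
      rw [hpsi] at hab
      push_cast at hab
      have : (0 : ℤ) ≤ (j : ℤ) * (wt D A W r) := mul_nonneg (Int.natCast_nonneg j) he
      nlinarith
    rw [if_neg h1, h2]
    by_cases huv : u = v
    · subst huv; simp
    · simp [huv, Matrix.one_apply]

/-- matrices preserving the grading -/
def gradeGroup (φ : D.Idx → ℤ) (F : Type*) [Field F] : Subgroup (GL D.Idx F) where
  carrier := {g | (Rz φ 0 (g : Matrix D.Idx D.Idx F) ∧ Rz (fun a => -φ a) 0 (g : Matrix D.Idx D.Idx F)) ∧
    (Rz φ 0 (g⁻¹ : GL D.Idx F).val ∧ Rz (fun a => -φ a) 0 (g⁻¹ : GL D.Idx F).val)}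
  one_mem' := by simp [rz_one]
  mul_mem' := by
    rintro g h ⟨⟨g1, g2⟩, g3, g4⟩ ⟨⟨h1, h2⟩, h3, h4⟩
    refine ⟨⟨?_, ?_⟩, ?_, ?_⟩ <;> simp only [mul_inv_rev, Units.val_mul]
    · exact (g1.mul h1).mono (by omega)
    · exact (g2.mul h2).mono (by omega)
    · exact (h3.mul g3).mono (by omega)
    · exact (h4.mul g4).mono (by omega)
  inv_mem' := by rintro g ⟨h1, h2⟩; exact ⟨h2, by rwa [inv_inv]⟩

theorem gradeGroup_inf_raise (φ : D.Idx → ℤ) : gradeGroup φ F ⊓ raiseGroup φ F 0 = ⊥ := by
  rw [eq_bot_iff]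
  rintro g ⟨⟨⟨g1, g2⟩, -⟩, g3, -⟩
  refine Subgroup.mem_bot.2 (Units.ext ?_)
  rw [Units.val_one]
  ext a b
  rcases lt_trichotomy (φ a) (φ b) with h | h | h
  · rw [g1 a b (by omega), Matrix.one_apply_ne (by rintro rfl; omega)]
  · exact sub_eq_zero.1 (g3 a b (by push_cast; omega))
  · rw [g2 a b (show -φ a - -φ b < 0 by omega), Matrix.one_apply_ne (by rintro rfl; omega)]

/-- roots in the parabolic but not in the Levi subsystem -/
def posOut (D : ChevalleyDatum) (A : Aux) (J : Set ℕ) (r : ℕ) : Prop :=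
  A.pos r = true ∧ ∃ i < D.rank, i ∉ J ∧ A.co i r ≠ 0

include hc in
theorem inRootSub_iff {J : Set ℕ} {r : ℕ} :
    D.InRootSub J r ↔ r < D.nroots ∧ ∀ i < D.rank, i ∉ J → A.co i r = 0 := by
  refine and_congr_right fun hr => forall₂_congr fun i hi => ?_
  rw [coroot_getD hc hi hr, ((root_facts hc hr).2.2.2.1 i hi).2.2.1]

include hc in
theorem inRootSub_neg {J : Set ℕ} {r : ℕ} (h : D.InRootSub J r) : D.InRootSub J (negI D r) := by
  obtain ⟨hr, h⟩ := (inRootSub_iff hc).1 h
  exact (inRootSub_iff hc).2 ⟨negI_lt hr, fun i hi hJ => by rw [co_neg hc hi hr, h i hi hJ, neg_zero]⟩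

include hc in
theorem inRootSub_simple {J : Set ℕ} {j : ℕ} (hj : j ∈ J) (hjr : j < D.rank) : D.InRootSub J (D.simple j) :=
  (inRootSub_iff hc).2 ⟨simple_lt hc hjr, fun i hi hJ => by
    rw [co_simple hc hjr hi, if_neg]
    rintro rfl
    exact hJ hj⟩

include hc in
theorem unipotentRadical_eq (J : Set ℕ) : D.unipotentRadical F J = UG D F (posOut D A J) 0 := by
  refine le_antisymm ((Subgroup.closure_le _).2 ?_) ((Subgroup.closure_le _).2 ?_)
  · rintro g ⟨r, t, hp, hnot, hg⟩
    obtain ⟨hr, hp'⟩ := (isPosRoot_iff hc).1 hp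
    rw [(eq_xg hc hr).1 hg]
    refine xg_mem_UG hr ⟨hp', ?_⟩ (Nat.zero_le _) t
    by_contra hh
    push Not at hh
    exact hnot ((inRootSub_iff hc).2 ⟨hr, hh⟩)
  · rintro g ⟨r, t, hr, ⟨hp, i, hi, hiJ, hne⟩, -, rfl⟩
    exact Subgroup.subset_closure ⟨r, t, (isPosRoot_iff hc).2 ⟨hr, hp⟩,
      fun h => hne (((inRootSub_iff hc).1 h).2 i hi hiJ), coe_xg hc hr t⟩

/-- the generators of a parabolic subgroup -/
def parGen (D : ChevalleyDatum) (F : Type*) [Field F] (J : Set ℕ) : Subgroup (GL D.Idx F) :=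
  D.diagonalSubgroup F ⊔ Subgroup.closure {g : GL D.Idx F | ∃ (r : ℕ) (t : F), (D.IsPosRoot r ∨ D.InRootSub J r) ∧ (g : Matrix D.Idx D.Idx F) = D.x F r t}

include hc in
theorem xg_mem_parGen {J : Set ℕ} {r : ℕ} (hr : r < D.nroots) (h : A.pos r = true ∨ D.InRootSub J r) (t : F) :
    xg D F r t ∈ parGen D F J :=
  Subgroup.mem_sup_right (Subgroup.subset_closure ⟨r, t, h.imp (fun hp => (isPosRoot_iff hc).2 ⟨hr, hp⟩) id, coe_xg hc hr t⟩)

include hc in
theorem parabolic_eq (J : Set ℕ) : D.parabolicSubgroup F J = parGen D F J := by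
  refine le_antisymm (sup_le (sup_le ?_ le_sup_left) ((Subgroup.closure_le _).2 ?_)) (sup_le ?_ ((Subgroup.closure_le _).2 ?_))
  · rw [posUnipotent_eq hc]
    refine (Subgroup.closure_le _).2 ?_
    rintro g ⟨r, t, hr, hp, -, rfl⟩
    exact xg_mem_parGen hc hr (Or.inl hp) t
  · rintro g ⟨j, hjJ, hj, hg⟩
    have : g = ng D F j := Units.ext (by rw [hg, ng, coe_ngen hc (simple_lt hc hj)])
    rw [this]
    exact ng_mem_of_simple hc fun t => ⟨xg_mem_parGen hc (simple_lt hc hj) (Or.inr (inRootSub_simple hc hjJ hj)) t,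
      xg_mem_parGen hc (negI_lt (simple_lt hc hj)) (Or.inr (inRootSub_neg hc (inRootSub_simple hc hjJ hj))) t⟩
  · exact le_trans (le_sup_right (a := D.posUnipotent F)) le_sup_left
  · have hU : ∀ r < D.nroots, A.pos r = true → ∀ t : F, xg D F r t ∈ D.parabolicSubgroup F J := fun r hr hp t =>
      Subgroup.mem_sup_left (U_le_B (F := F) (xg_mem_U hc hr hp t))
    have hn : ∀ j ∈ J, j < D.rank → ng D F j ∈ D.parabolicSubgroup F J := fun j hjJ hj =>
      Subgroup.mem_sup_right (Subgroup.subset_closure ⟨j, hjJ, hj, by rw [ng, coe_ngen hc (simple_lt hc hj)]⟩)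
    have hneg : ∀ r, r < D.nroots → A.pos r = true → D.InRootSub J r → ∀ t : F,
        xg D F (negI D r) t ∈ D.parabolicSubgroup F J := by
      intro r
      induction r using Nat.strong_induction_on with
      | _ r ih =>
        intro hr hp hJ t
        by_cases h : ∀ i < D.rank, D.simple i ≠ r
        · obtain ⟨i, hi, hlt, hp'⟩ := exists_descent hc hr hp h
          have hcA : 0 < A.cA i r := by
            by_contra hle
            push Not at hle
            have h1 := psi_strictMono hc hlt hr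
            rw [psiVal_eq_sum, psiVal_eq_sum] at h1
            refine absurd h1 (not_lt.2 (Finset.sum_le_sum fun k hk => ?_))
            rw [co_w hc hi (Finset.mem_range.1 hk) hr]
            split
            · subst_vars
              nlinarith [psiW_pos hc hi]
            · simp
          have hiJ : i ∈ J := by
            by_contra hiJ
            have h1 := (co_nonneg hc hi (w_lt hc hi hr) hp').1
            rw [co_w hc hi hi hr, if_pos rfl, ((inRootSub_iff hc).1 hJ).2 i hi hiJ] at h1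
            omega
          have hJ' : D.InRootSub J (A.w i r) := (inRootSub_iff hc).2 ⟨w_lt hc hi hr, fun k hk hkJ => by
            rw [co_w hc hi hk hr, if_neg (by rintro rfl; exact hkJ hiJ), ((inRootSub_iff hc).1 hJ).2 k hk hkJ, sub_zero]⟩
          have h1 := ih _ hlt (w_lt hc hi hr) hp' hJ' (((A.eta i (negI D (A.w i r)) : ℤ) : F) * t)
          have h2 := (D.parabolicSubgroup F J).mul_mem ((D.parabolicSubgroup F J).mul_mem (hn i hiJ hi) h1)
            ((D.parabolicSubgroup F J).inv_mem (hn i hiJ hi))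
          rw [ng_conj_xg hc hi (negI_lt (w_lt hc hi hr)), w_neg hc hi (w_lt hc hi hr), w_w hc hi hr, ← mul_assoc,
            ← Int.cast_mul, eta_mul_self, Int.cast_one, one_mul] at h2
          exact h2
        · push Not at h
          obtain ⟨i, hi, rfl⟩ := h
          have hiJ : i ∈ J := by
            by_contra hiJ
            have h1 := ((inRootSub_iff hc).1 hJ).2 i hi hiJ
            rw [co_simple hc hi hi, if_pos rfl] at h1
            exact one_ne_zero h1
          have h2 := (D.parabolicSubgroup F J).mul_mem ((D.parabolicSubgroup F J).mul_mem (hn i hiJ hi)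
            (hU _ hr hp (((A.eta i (D.simple i) : ℤ) : F) * t))) ((D.parabolicSubgroup F J).inv_mem (hn i hiJ hi))
          rw [ng_conj_xg hc hi hr, w_simple hc hi, ← mul_assoc, ← Int.cast_mul, eta_mul_self, Int.cast_one, one_mul] at h2
          exact h2
    rintro g ⟨r, t, hr, hg⟩
    rcases hr with hr | hr
    · obtain ⟨hr', hp⟩ := (isPosRoot_iff hc).1 hr
      rw [(eq_xg hc hr').1 hg]
      exact hU r hr' hp t
    · have hr' := hr.1
      rw [(eq_xg hc hr').1 hg]
      cases hp : A.pos r with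
      | true => exact hU r hr' hp t
      | false =>
        have h1 := hneg (negI D r) (negI_lt hr') (by rw [pos_neg hc hr', hp]; rfl) (inRootSub_neg hc hr) t
        rwa [negI_negI hr'] at h1

include hc in
theorem conj_radical {J : Set ℕ} {r : ℕ} (hr : r < D.nroots) (h : A.pos r = true ∨ D.InRootSub J r) (t : F)
    {v : GL D.Idx F} (hv : v ∈ UG D F (posOut D A J) 0) :
    (xg D F r t)⁻¹ * v * xg D F r t ∈ UG D F (posOut D A J) 0 := by
  induction hv using Subgroup.closure_induction with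
  | mem x hx =>
    obtain ⟨s, u, hs, ⟨hps, i, hi, hiJ, hne⟩, -, rfl⟩ := hx
    have hsmem : xg D F s u ∈ UG D F (posOut D A J) 0 := xg_mem_UG hs ⟨hps, i, hi, hiJ, hne⟩ (Nat.zero_le _) u
    by_cases hsr : s = r
    · subst hsr
      rw [xg_inv hc hr, xg_add hc hr, xg_add hc hr, show -t + u + t = u by ring]
      exact hsmem
    have hsn : s ≠ negI D r := by
      rintro rfl
      rcases h with h | h
      · rw [pos_neg hc hr, h] at hps
        simp at hps
      · exact hne (((inRootSub_iff hc).1 (inRootSub_neg hc h)).2 i hi hiJ)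
    refine conj_mem_of_comb hc hr hs hsr hsn ⟨hps, i, hi, hiJ, hne⟩ (fun k hk hcomb => ?_) t u
    obtain ⟨a, b, ha, hb, hk'⟩ := hcomb
    have h0 : 0 ≤ A.co i r := by
      rcases h with h | h
      · exact (co_nonneg hc hi hr h).1
      · rw [((inRootSub_iff hc).1 h).2 i hi hiJ]
    have h1 : 0 < A.co i s := lt_of_le_of_ne (co_nonneg hc hi hs hps).1 (Ne.symm hne)
    have hkp : 0 < A.co i k := by
      rw [hk' i hi]
      have hb1 : (1 : ℤ) ≤ b := by exact_mod_cast hb
      have ha1 : (1 : ℤ) ≤ a := by exact_mod_cast ha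
      nlinarith
    refine ⟨?_, i, hi, hiJ, hkp.ne'⟩
    cases hp : A.pos k with
    | true => rfl
    | false => exact absurd (co_nonpos hc hi hk hp).1 (not_le.2 hkp)
  | one => simp
  | mul a b _ _ iha ihb =>
    rw [show (xg D F r t)⁻¹ * (a * b) * xg D F r t = ((xg D F r t)⁻¹ * a * xg D F r t) * ((xg D F r t)⁻¹ * b * xg D F r t) by group]
    exact mul_mem iha ihb
  | inv a _ iha =>
    rw [show (xg D F r t)⁻¹ * a⁻¹ * xg D F r t = ((xg D F r t)⁻¹ * a * xg D F r t)⁻¹ by group]
    exact inv_mem iha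

include hc in
theorem parabolic_le_normalizer (J : Set ℕ) :
    D.parabolicSubgroup F J ≤ Subgroup.normalizer (D.unipotentRadical F J : Set (GL D.Idx F)) := by
  rw [parabolic_eq hc, unipotentRadical_eq hc]
  set U := UG D F (posOut D A J) 0
  have key : ∀ g : GL D.Idx F, (∀ v ∈ U, g⁻¹ * v * g ∈ U) → (∀ v ∈ U, g * v * g⁻¹ ∈ U) →
      g ∈ Subgroup.normalizer (U : Set (GL D.Idx F)) := by
    intro g h1 h2
    rw [Subgroup.mem_normalizer_iff]
    refine fun v => ⟨h2 v, fun hv => ?_⟩
    simpa [mul_assoc] using h1 _ hv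
  refine sup_le (fun h hh => ?_) ((Subgroup.closure_le _).2 ?_)
  · have hH : ∀ x ∈ D.diagonalSubgroup F, ∀ v ∈ U, x * v * x⁻¹ ∈ U := by
      intro x hx v hv
      obtain ⟨f, hf, rfl⟩ := H_diagonal hc hx
      induction hv using Subgroup.closure_induction with
      | mem y hy =>
        obtain ⟨s, u, hs, hP, -, rfl⟩ := hy
        rw [dg_conj_x hc hs hf]
        exact xg_mem_UG hs hP (Nat.zero_le _) _
      | one => simp
      | mul a b _ _ iha ihb =>
        rw [show dg D f * (a * b) * (dg D f)⁻¹ = (dg D f * a * (dg D f)⁻¹) * (dg D f * b * (dg D f)⁻¹) by group]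
        exact mul_mem iha ihb
      | inv a _ iha =>
        rw [show dg D f * a⁻¹ * (dg D f)⁻¹ = (dg D f * a * (dg D f)⁻¹)⁻¹ by group]
        exact inv_mem iha
    refine key h (fun v hv => ?_) (hH h hh)
    simpa using hH h⁻¹ (inv_mem hh) v hv
  · rintro g ⟨r, t, hr, hg⟩
    have hr' : r < D.nroots := hr.elim (fun h => h.1) (fun h => h.1)
    have hor : A.pos r = true ∨ D.InRootSub J r := hr.imp (fun h => ((isPosRoot_iff hc).1 h).2) id
    rw [(eq_xg hc hr').1 hg]
    refine key _ (fun v hv => conj_radical hc hr' hor t hv) (fun v hv => ?_)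
    have h1 := conj_radical hc hr' hor (-t) hv
    rwa [← xg_inv hc hr', inv_inv] at h1

include hc in
theorem radical_inf_levi (J : Set ℕ) : D.unipotentRadical F J ⊓ D.leviSubgroup F J = ⊥ := by
  classical
  let W : ℕ → ℤ := fun i => if i ∈ J then 0 else 1
  rw [eq_bot_iff, ← gradeGroup_inf_raise (F := F) (wphi D A W)]
  refine le_inf (inf_le_right.trans ?_) (inf_le_left.trans ?_)
  · refine sup_le (fun h hh => ⟨⟨rz_H hc hh _, rz_H hc hh _⟩, rz_H hc (inv_mem hh) _, rz_H hc (inv_mem hh) _⟩)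
      ((Subgroup.closure_le _).2 ?_)
    rintro g ⟨r, t, hr, hg⟩
    rw [(eq_xg hc hr.1).1 hg]
    have h0 : ∀ W' : ℕ → ℤ, (∀ i ∈ J, W' i = 0) → wt D A W' r = 0 := fun W' hW' => by
      refine Finset.sum_eq_zero fun i hi => ?_
      by_cases hiJ : i ∈ J
      · rw [hW' i hiJ, zero_mul]
      · rw [((inRootSub_iff hc).1 hr).2 i (Finset.mem_range.1 hi) hiJ, mul_zero]
    have key : ∀ W' : ℕ → ℤ, (∀ i ∈ J, W' i = 0) → ∀ u : F, Rz (wphi D A W') 0 (D.x F r u) := by
      intro W' hW' u
      have h1 := rz_x_wt hc W' hr.1 (h0 W' hW').ge u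
      rw [h0 W' hW'] at h1
      have h2 := h1.add rz_one
      rwa [sub_add_cancel] at h2
    have hW : ∀ i ∈ J, W i = 0 := fun i hi => if_pos hi
    have hW' : ∀ i ∈ J, (fun i => -W i) i = 0 := fun i hi => by simp [W, hi]
    have hneg : wphi D A (fun i => -W i) = fun a => -wphi D A W a := by
      funext a
      rcases a with i | s <;> simp [wphi, wt]
    refine ⟨⟨?_, ?_⟩, ?_, ?_⟩ <;> simp only [xg_inv hc hr.1, coe_xg hc hr.1]
    · exact key W hW t
    · exact hneg ▸ key _ hW' t
    · exact key W hW (-t)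
    · exact hneg ▸ key _ hW' (-t)
  · rw [unipotentRadical_eq hc]
    refine (Subgroup.closure_le _).2 ?_
    rintro g ⟨r, t, hr, ⟨hp, i, hi, hiJ, hne⟩, -, rfl⟩
    have h1 : (1 : ℤ) ≤ wt D A W r := by
      refine le_trans ?_ (Finset.single_le_sum (fun k hk => mul_nonneg (by simp only [W]; split <;> norm_num)
        (co_nonneg hc (Finset.mem_range.1 hk) hr hp).1) (Finset.mem_range.2 hi))
      simp only [W, if_neg hiJ, one_mul]
      have := (co_nonneg hc hi hr hp).1
      omega
    refine ⟨?_, ?_⟩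
    · rw [coe_xg hc hr]
      exact (rz_x_wt hc W hr (by omega) t).mono (by push_cast; omega)
    · rw [xg_inv hc hr, coe_xg hc hr]
      exact (rz_x_wt hc W hr (by omega) (-t)).mono (by push_cast; omega)

include hc in
theorem radical_sup_levi (J : Set ℕ) :
    D.unipotentRadical F J ⊔ D.leviSubgroup F J = D.parabolicSubgroup F J := by
  rw [parabolic_eq hc]
  refine le_antisymm (sup_le ?_ (sup_le le_sup_left ?_)) (sup_le (le_trans le_sup_left le_sup_right) ?_)
  · refine (Subgroup.closure_le _).2 ?_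
    rintro g ⟨r, t, hp, -, hg⟩
    exact Subgroup.mem_sup_right (Subgroup.subset_closure ⟨r, t, Or.inl hp, hg⟩)
  · refine (Subgroup.closure_le _).2 ?_
    rintro g ⟨r, t, hr, hg⟩
    exact Subgroup.mem_sup_right (Subgroup.subset_closure ⟨r, t, Or.inr hr, hg⟩)
  · refine (Subgroup.closure_le _).2 ?_
    rintro g ⟨r, t, hr, hg⟩
    by_cases hJ : D.InRootSub J r
    · exact Subgroup.mem_sup_right (Subgroup.mem_sup_right (Subgroup.subset_closure ⟨r, t, hJ, hg⟩))
    · exact Subgroup.mem_sup_left (Subgroup.subset_closure ⟨r, t, hr.resolve_right hJ, hJ, hg⟩)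

include hc in
theorem posOut_of_xg_mem {J : Set ℕ} {r : ℕ} (hr : r < D.nroots) (h : xg D F r 1 ∈ D.unipotentRadical F J) :
    posOut D A J r := by
  have hne : xg D F r (1 : F) ≠ 1 := fun e => one_ne_zero ((xg_eq_one_iff hc hr 1).1 e)
  have hU : xg D F r (1 : F) ∈ D.posUnipotent F := by
    refine (show D.unipotentRadical F J ≤ D.posUnipotent F from ?_) h
    refine (Subgroup.closure_le _).2 ?_
    rintro g ⟨s, t, hp, -, hg⟩
    exact Subgroup.subset_closure ⟨s, t, hp, hg⟩
  cases hp : A.pos r with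
  | false =>
    exfalso
    have h1 : xg D F r (1 : F) ∈ D.borelSubgroup F ⊓ D.negUnipotent F := ⟨U_le_B hU, xg_mem_V hc hr hp 1⟩
    rw [B_inf_V hc] at h1
    exact hne (Subgroup.mem_bot.1 h1)
  | true =>
    refine ⟨hp, ?_⟩
    by_contra hcon
    push Not at hcon
    have hJ : D.InRootSub J r := (inRootSub_iff hc).2 ⟨hr, hcon⟩
    have h1 : xg D F r (1 : F) ∈ D.unipotentRadical F J ⊓ D.leviSubgroup F J :=
      ⟨h, Subgroup.mem_sup_right (Subgroup.subset_closure ⟨r, 1, hJ, coe_xg hc hr 1⟩)⟩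
    rw [radical_inf_levi hc] at h1
    exact hne (Subgroup.mem_bot.1 h1)

include hc in
theorem monomial_normalizing_mem (J : Set ℕ) : ∀ (k : ℕ) {n : GL D.Idx F} {π : Equiv.Perm (Fin D.nroots)},
    n ∈ D.monomialSubgroup F → Acts D A n π → π ∈ Wgrp hc → len D A π = k →
    n ∈ Subgroup.normalizer (D.unipotentRadical F J : Set (GL D.Idx F)) → n ∈ D.parabolicSubgroup F J := by
  intro k
  induction k using Nat.strong_induction_on with
  | _ k ih =>
    intro n π hn hact hπ hk hnorm
    rcases Nat.eq_zero_or_pos k with rfl | hk0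
    · have h1 : π = 1 := eq_one_of_len_eq_zero hc hπ hk
      subst h1
      exact Subgroup.mem_sup_left (H_le_B (mem_H_of_acts_one hc hn hact))
    obtain ⟨L, hL⟩ := (mem_Wgrp hc).1 hπ
    obtain ⟨L', e, hl⟩ := exists_len_word hc L
    rw [hL] at e hl
    obtain ⟨L'', i, rfl⟩ : ∃ L'' i, L' = L'' ++ [i] := by
      rcases List.eq_nil_or_concat L' with rfl | ⟨L'', i, rfl⟩
      · simp only [List.length_nil] at hl; omega
      · exact ⟨L'', i, by simp⟩
    have hπi : π * sig hc i = wp hc L'' := by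
      rw [← e, wp_append, wp_cons, wp_nil, mul_one, mul_assoc, sig_sig, mul_one]
    have hneg : A.pos (π (sR hc i)) = false := by
      cases hp : A.pos (π (sR hc i)) with
      | false => rfl
      | true =>
        exfalso
        have h1 := len_mul_sig hc (isRootAut_of_mem hc hπ) i hp
        rw [hπi] at h1
        have h2 := len_wp_le' hc L''
        rw [List.length_append, List.length_singleton] at hl
        omega
    have hiJ : (i : ℕ) ∈ J := by
      by_contra hiJ
      have hmem : xg D F (D.simple i) 1 ∈ D.unipotentRadical F J := by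
        rw [unipotentRadical_eq hc]
        exact xg_mem_UG (simple_lt hc i.2) ⟨simple_pos hc i.2, i, i.2, hiJ, by rw [co_simple hc i.2 i.2, if_pos rfl]; norm_num⟩ (Nat.zero_le _) 1
      obtain ⟨-, c, -, hx⟩ := hact
      have h2 := (Subgroup.mem_normalizer_iff.1 hnorm _).1 hmem
      rw [show xg D F (D.simple i) (1 : F) = xg D F (sR hc i) 1 from rfl, hx] at h2
      have h3 : xg D F (π (sR hc i)) 1 ∈ D.unipotentRadical F J := by
        have hmem' : xg D F (D.simple i) ((c (sR hc i) : F)⁻¹) ∈ D.unipotentRadical F J := by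
          rw [unipotentRadical_eq hc]
          exact xg_mem_UG (simple_lt hc i.2) ⟨simple_pos hc i.2, i, i.2, hiJ, by rw [co_simple hc i.2 i.2, if_pos rfl]; norm_num⟩ (Nat.zero_le _) _
        have h4 := (Subgroup.mem_normalizer_iff.1 hnorm _).1 hmem'
        rwa [show xg D F (D.simple i) ((c (sR hc i) : F)⁻¹) = xg D F (sR hc i) ((c (sR hc i) : F)⁻¹) from rfl, hx,
          mul_inv_cancel₀ (Units.ne_zero _)] at h4
      rw [(posOut_of_xg_mem hc (π (sR hc i)).2 h3).1] at hneg
      cases hneg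
    have hni : ng D F i ∈ D.parabolicSubgroup F J :=
      Subgroup.mem_sup_right (Subgroup.subset_closure ⟨i, hiJ, i.2, by rw [ng, coe_ngen hc (simple_lt hc i.2)]⟩)
    have hlt : len D A (π * sig hc i) < k := by
      have := len_mul_sig_neg hc (isRootAut_of_mem hc hπ) i hneg
      omega
    have h5 := ih _ hlt (mul_mem hn (ng_mem_N hc i)) (hact.mul (acts_ng hc i))
      ((mem_Wgrp hc).2 ⟨L'', hπi.symm⟩) rfl (mul_mem hnorm (parabolic_le_normalizer hc J hni))
    have h6 := (D.parabolicSubgroup F J).mul_mem h5 ((D.parabolicSubgroup F J).inv_mem hni)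
    rwa [mul_inv_cancel_right] at h6

include hc in
theorem normalizer_radical (J : Set ℕ) :
    Subgroup.normalizer (D.unipotentRadical F J : Set (GL D.Idx F)) ⊓ D.group F = D.parabolicSubgroup F J := by
  refine le_antisymm ?_ (le_inf (parabolic_le_normalizer hc J) ?_)
  · rintro g ⟨hgn, hg⟩
    obtain ⟨b, hb, n, hn, b', hb', rfl⟩ := bruhat_group hc hg
    have hb1 : b ∈ D.parabolicSubgroup F J := Subgroup.mem_sup_left hb
    have hb2 : b' ∈ D.parabolicSubgroup F J := Subgroup.mem_sup_left hb'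
    refine mul_mem (mul_mem hb1 ?_) hb2
    have hnn : n ∈ Subgroup.normalizer (D.unipotentRadical F J : Set (GL D.Idx F)) := by
      have h1 := mul_mem (mul_mem (inv_mem (parabolic_le_normalizer hc J hb1)) hgn) (inv_mem (parabolic_le_normalizer hc J hb2))
      simpa [mul_assoc] using h1
    exact monomial_normalizing_mem hc J _ hn (acts_permHom hc ⟨n, hn⟩) (permHom_mem hc ⟨n, hn⟩) rfl hnn
  · refine sup_le (B_le_group hc) ((Subgroup.closure_le _).2 ?_)
    rintro g ⟨j, -, hj, hg⟩
    have : g = ng D F j := Units.ext (by rw [hg, ng, coe_ngen hc (simple_lt hc hj)])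
    rw [this]
    exact ngen_mem_group hc (simple_lt hc hj) 1

end Cfsg.Lib.Chev
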