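import Cfsg.Agent.Lib.Chev.Parabolic
import Cfsg.Agent.Lib.Chev.BN
import Cfsg.Agent.Lib.Chev.Order
import Cfsg.Agent.Lib.LieBN.Basic
import Cfsg.Agent.Lib.Comp.CharPSubgroups

/-! Proper parabolic subgroups have characteristic `p`. -/

set_option autoImplicit false
set_option maxHeartbeats 1000000

namespace Cfsg.Lib.Chev.ParabolicCharP

open Cfsg.Lie Cfsg.Lib.Chev

variable {D : ChevalleyDatum} {A : Aux} (hc : Cert D A) {F : Type*} [Field F]

/-- for nodes `i`, `j`, two positive roots with non-zero `i`-coefficient differing by `p_j` -/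
def addOK (D : ChevalleyDatum) (A : Aux) : Bool :=
  allB D.rank fun i => allB D.rank fun j => Nat.beq i j ||
    (List.range D.nroots).any fun r =>
      A.pos r && A.co i r != 0 &&
        match D.chainEntry (D.simple j) r with
        | e :: _ => Nat.blt e.1 D.nroots && A.pos e.1 && A.co i e.1 != 0 &&
            allB D.rank fun k => A.co k e.1 == A.co k r + (if k = j then 1 else 0)
        | [] => false

include hc in
theorem cj_gen {s k : ℕ} (hs : s < D.nroots) (hk : k < D.nroots) (hps : A.pos s = true) (hpk : A.pos k = true)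
    (a t : F) : ∃ v ∈ UG D F (fun r => A.pos r = true) (k + 1),
      xg D F s a * xg D F k t * (xg D F s a)⁻¹ = xg D F k t * v := by
  by_cases hsk : s = k
  · subst hsk
    exact ⟨1, one_mem _, by rw [xg_inv hc hs, xg_add hc hs, xg_add hc hs, mul_one]; congr 1; ring⟩
  have hneg : k ≠ negI D s := fun e => by
    rw [e, pos_neg hc hs, hps] at hpk; simp at hpk
  have hf := comm_formula hc hs hk (Ne.symm hsk) hneg (-a) t (F := F)
  let W : GL D.Idx F := ((D.commWord F s k (-a) t).map fun p => xg D F p.1 p.2).prod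
  have hW : ∀ p ∈ D.commWord F s k (-a) t, p.1 < D.nroots ∧ A.pos p.1 = true ∧ k + 1 ≤ p.1 := by
    intro p hp
    obtain ⟨q, hq, rfl⟩ := List.mem_map.1 hp
    obtain ⟨h1, h2⟩ := commTerms_comb hc hs hk q hq
    exact ⟨h1, combClosed_pos hc s k q.1 hs hk h1 hps hpk h2, (comb_gt hc hs h1 hps hk hpk h2).2⟩
  have hWv : (W : Matrix D.Idx D.Idx F) = D.wordMat F (D.commWord F s k (-a) t) := by
    simp only [W, ChevalleyDatum.wordMat]
    have : ∀ L : List (ℕ × F), (∀ p ∈ L, p.1 < D.nroots) →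
        (((L.map fun p => xg D F p.1 p.2).prod : GL D.Idx F) : Matrix D.Idx D.Idx F) =
          (L.map fun p => D.x F p.1 p.2).prod := by
      intro L
      induction L with
      | nil => intro _; simp
      | cons b L ih =>
        intro h
        simp [coe_xg hc (h b List.mem_cons_self), ih fun p hp => h p (List.mem_cons_of_mem _ hp)]
    exact this _ fun p hp => (hW p hp).1
  refine ⟨W, list_prod_mem fun x hx => ?_, ?_⟩
  · obtain ⟨p, hp, rfl⟩ := List.mem_map.1 hx
    exact xg_mem_UG (hW p hp).1 (hW p hp).2.1 (hW p hp).2.2 _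
  · have e : xg D F k t * xg D F s (-a) = xg D F s (-a) * xg D F k t * W := by
      refine Units.ext ?_
      simp only [Units.val_mul, coe_xg hc hs, coe_xg hc hk, hWv]
      exact hf
    rw [mul_assoc, xg_inv hc hs, e, ← mul_assoc, ← mul_assoc, xg_add hc hs, add_neg_cancel, xg_zero hc hs, one_mul]

include hc in
theorem U_normalizes_UG {u : GL D.Idx F} (hu : u ∈ D.posUnipotent F) (c : ℕ) :
    ∀ v ∈ UG D F (fun r => A.pos r = true) c,
      u * v * u⁻¹ ∈ UG D F (fun r => A.pos r = true) c ∧ u⁻¹ * v * u ∈ UG D F (fun r => A.pos r = true) c := by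
  set T := UG D F (fun r => A.pos r = true) c
  have gen : ∀ s, s < D.nroots → A.pos s = true → ∀ a : F, ∀ v ∈ T, xg D F s a * v * (xg D F s a)⁻¹ ∈ T := by
    intro s hs hps a v hv
    induction hv using Subgroup.closure_induction with
    | mem x hx =>
      obtain ⟨k, t, hk, hpk, hck, rfl⟩ := hx
      obtain ⟨v, hv, e⟩ := cj_gen hc hs hk hps hpk a t
      rw [e]
      exact mul_mem (xg_mem_UG hk hpk hck t) (UG_anti (by omega) hv)
    | one => simp
    | mul x y _ _ hx hy =>
      rw [show xg D F s a * (x * y) * (xg D F s a)⁻¹ =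
        xg D F s a * x * (xg D F s a)⁻¹ * (xg D F s a * y * (xg D F s a)⁻¹) by group]
      exact mul_mem hx hy
    | inv x _ hx =>
      rw [show xg D F s a * x⁻¹ * (xg D F s a)⁻¹ = (xg D F s a * x * (xg D F s a)⁻¹)⁻¹ by group]
      exact inv_mem hx
  rw [posUnipotent_eq hc] at hu
  induction hu using Subgroup.closure_induction with
  | mem x hx =>
    obtain ⟨s, a, hs, hps, -, rfl⟩ := hx
    intro v hv
    refine ⟨gen s hs hps a v hv, ?_⟩
    have := gen s hs hps (-a) v hv
    rwa [← xg_inv hc hs, inv_inv] at this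
  | one => simp
  | mul x y _ _ hx hy =>
    intro v hv
    refine ⟨?_, ?_⟩
    · rw [show x * y * v * (x * y)⁻¹ = x * (y * v * y⁻¹) * x⁻¹ by group]
      exact (hx _ (hy v hv).1).1
    · rw [show (x * y)⁻¹ * v * (x * y) = y⁻¹ * (x⁻¹ * v * x) * y by group]
      exact (hy _ (hx v hv).2).2
  | inv x _ hx =>
    intro v hv
    rw [inv_inv]
    exact ⟨(hx v hv).2, (hx v hv).1⟩

include hc in
theorem U_conj_head {u : GL D.Idx F} (hu : u ∈ D.posUnipotent F) {k : ℕ} (hk : k < D.nroots)
    (hpk : A.pos k = true) (t : F) : ∃ v ∈ UG D F (fun r => A.pos r = true) (k + 1),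
      u * xg D F k t * u⁻¹ = xg D F k t * v := by
  rw [posUnipotent_eq hc] at hu
  induction hu using Subgroup.closure_induction with
  | mem x hx =>
    obtain ⟨s, a, hs, hps, -, rfl⟩ := hx
    exact cj_gen hc hs hk hps hpk a t
  | one => exact ⟨1, one_mem _, by simp⟩
  | mul x y hx' _ hx hy =>
    obtain ⟨v, hv, e⟩ := hx
    obtain ⟨w, hw, e'⟩ := hy
    replace hx' : x ∈ D.posUnipotent F := by rw [posUnipotent_eq hc]; exact hx'
    refine ⟨v * (x * w * x⁻¹), mul_mem hv (U_normalizes_UG hc hx' _ w hw).1, ?_⟩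
    rw [show x * y * xg D F k t * (x * y)⁻¹ = x * (y * xg D F k t * y⁻¹) * x⁻¹ by group, e',
      show x * (xg D F k t * w) * x⁻¹ = x * xg D F k t * x⁻¹ * (x * w * x⁻¹) by group, e]
    group
  | inv x hx' hx =>
    obtain ⟨v, hv, e⟩ := hx
    replace hx' : x ∈ D.posUnipotent F := by rw [posUnipotent_eq hc]; exact hx'
    refine ⟨x⁻¹ * v⁻¹ * x, (U_normalizes_UG hc hx' _ _ (inv_mem hv)).2, ?_⟩
    have e2 : xg D F k t = x⁻¹ * xg D F k t * x * (x⁻¹ * v * x) := by
      rw [show x⁻¹ * xg D F k t * x * (x⁻¹ * v * x) = x⁻¹ * (xg D F k t * v) * x by group, ← e]; group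
    rw [inv_inv]
    calc x⁻¹ * xg D F k t * x = (x⁻¹ * xg D F k t * x * (x⁻¹ * v * x)) * (x⁻¹ * v⁻¹ * x) := by group
      _ = _ := by rw [← e2]

include hc in
theorem torusVal_simple (c : ℕ → Fˣ) {s : ℕ} (hs : s < D.nroots) :
    torusVal A D.rank c s = ∏ m ∈ Finset.range D.rank, torusVal A D.rank c (D.simple m) ^ A.co m s := by
  simp only [torusVal]
  rw [Finset.prod_congr rfl fun k hk => by rw [cA_linear hc (Finset.mem_range.1 hk) hs],
    Finset.prod_congr rfl fun k _ => zpow_sum' (c k) _ _, Finset.prod_comm]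
  refine Finset.prod_congr rfl fun m _ => ?_
  rw [← Finset.prod_zpow]
  exact Finset.prod_congr rfl fun k _ => by rw [← zpow_mul]

include hc in
theorem centralizing_mem_U (ha : addOK D A = true) {J : Set ℕ} (hJ : ∃ i, i < D.rank ∧ i ∉ J)
    {g : GL D.Idx F} (hg : g ∈ D.group F) (hcent : ∀ v ∈ D.unipotentRadical F J, g * v * g⁻¹ = v) :
    g ∈ D.posUnipotent F := by
  classical
  obtain ⟨i₀, hi₀, hiJ⟩ := hJ
  rw [unipotentRadical_eq hc] at hcent
  set P : ℕ → Prop := fun r => A.pos r = true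
  -- roots outside the Levi subsystem, and the ones differing by a fundamental root
  have hout : ∀ j < D.rank, (∃ r, r < D.nroots ∧ posOut D A J r ∧ r = D.simple j) ∨
      ∃ r r', r < D.nroots ∧ r' < D.nroots ∧ posOut D A J r ∧ posOut D A J r' ∧
        ∀ k < D.rank, A.co k r' = A.co k r + (if k = j then 1 else 0) := by
    intro j hj
    by_cases hjJ : j ∈ J
    · right
      have hne : i₀ ≠ j := fun e => hiJ (e ▸ hjJ)
      simp only [addOK, allB_iff, Bool.or_eq_true, Nat.beq_eq, List.any_eq_true, List.mem_range,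
        Bool.and_eq_true, bne_iff_ne] at ha
      rcases ha i₀ hi₀ j hj with e | ⟨r, hr, ⟨hp, hne0⟩, hm⟩
      · exact absurd e hne
      · split at hm
        · rename_i e _ _
          simp only [Bool.and_eq_true, Nat.blt_eq, bne_iff_ne, allB_iff, beq_iff_eq] at hm
          exact ⟨r, e.1, hr, hm.1.1.1, ⟨hp, i₀, hi₀, hiJ, hne0⟩, ⟨hm.1.1.2, i₀, hi₀, hiJ, hm.1.2⟩, hm.2⟩
        · simp at hm
    · exact Or.inl ⟨_, simple_lt hc hj, ⟨simple_pos hc hj, j, hj, hjJ, by rw [co_simple hc hj hj, if_pos rfl]; exact one_ne_zero⟩, rfl⟩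
  obtain ⟨w, b₁, n, b₂, hb₁, hb₂, -, e⟩ := Cfsg.Lib.LieBN.bruhat (P := bnPair (F := F) hc) ⟨g, hg⟩
  have hb₁' : (b₁ : GL D.Idx F) ∈ D.borelSubgroup F := hb₁
  have hb₂' : (b₂ : GL D.Idx F) ∈ D.borelSubgroup F := hb₂
  set b : GL D.Idx F := ((b₂ : GL D.Idx F) * (b₁ : GL D.Idx F))⁻¹ with hbdef
  have hbB : b ∈ D.borelSubgroup F := inv_mem (mul_mem hb₂' hb₁')
  have eg : g = (b₁ : GL D.Idx F) * ((n : ↥(D.group F)) : GL D.Idx F) * (b₂ : GL D.Idx F) := congrArg Subtype.val e
  -- `B` normalises the radical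
  have hnorm : ∀ x ∈ D.borelSubgroup F, ∀ v ∈ UG D F (posOut D A J) 0, x * v * x⁻¹ ∈ UG D F (posOut D A J) 0 := by
    intro x hx v hv
    rw [← unipotentRadical_eq hc] at hv ⊢
    have := parabolic_le_normalizer hc J (Subgroup.mem_sup_left hx : x ∈ D.parabolicSubgroup F J)
    exact (Subgroup.mem_normalizer_iff.1 this v).1 hv
  have hn : ∀ v ∈ UG D F (posOut D A J) 0,
      ((n : ↥(D.group F)) : GL D.Idx F) * v * ((n : ↥(D.group F)) : GL D.Idx F)⁻¹ = b * v * b⁻¹ := by
    intro v hv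
    have h1 := hcent _ (hnorm _ (inv_mem hb₂') v hv)
    rw [eg] at h1
    set x := ((n : ↥(D.group F)) : GL D.Idx F)
    calc x * v * x⁻¹ = (b₁ : GL D.Idx F)⁻¹ * ((b₁ : GL D.Idx F) * x * (b₂ : GL D.Idx F) *
          ((b₂ : GL D.Idx F)⁻¹ * v * (b₂ : GL D.Idx F)⁻¹⁻¹) * ((b₁ : GL D.Idx F) * x * (b₂ : GL D.Idx F))⁻¹) *
          (b₁ : GL D.Idx F) := by group
      _ = _ := by rw [h1, hbdef]; group
  obtain ⟨L, h, hh, hnw⟩ := (mem_N_iff hc).1 (n.2 : ((n : ↥(D.group F)) : GL D.Idx F) ∈ D.monomialSubgroup F)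
  replace hnw : ((n : ↥(D.group F)) : GL D.Idx F) = h * wg D F L := hnw
  obtain ⟨hπ, c, -, hcx⟩ := acts_hwg (F := F) hc hh L
  obtain ⟨u, hu, h', hh', eb⟩ := (mem_B_iff hc).1 hbB
  have hfix : ∀ r (hr : r < D.nroots), posOut D A J r → (wp hc L ⟨r, hr⟩ : ℕ) = r := by
    intro r hr hout'
    have h1 := hn _ (xg_mem_UG hr hout' (Nat.zero_le _) 1)
    obtain ⟨f, hf, rfl⟩ := H_diagonal hc hh'
    rw [hnw, hcx ⟨r, hr⟩ 1, eb, show u * dg D f * xg D F r 1 * (u * dg D f)⁻¹ =
      u * (dg D f * xg D F r 1 * (dg D f)⁻¹) * u⁻¹ by group, dg_conj_x hc hr hf, mul_one, mul_one] at h1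
    obtain ⟨v, hv, e1⟩ := U_conj_head hc hu hr hout'.1 ((f r : Fˣ) : F)
    rw [e1] at h1
    set s := wp hc L ⟨r, hr⟩
    have hps : A.pos (s : ℕ) = true := by
      cases hp : A.pos (s : ℕ) with
      | true => rfl
      | false =>
        exfalso
        have hmemV : xg D F s (c ⟨r, hr⟩ : F) ∈ D.negUnipotent F := xg_mem_V hc s.2 hp _
        have hmemB : xg D F s (c ⟨r, hr⟩ : F) ∈ D.borelSubgroup F := by
          rw [h1]
          refine Subgroup.mem_sup_left ?_
          rw [posUnipotent_eq hc]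
          exact mul_mem (xg_mem_UG hr hout'.1 (Nat.zero_le _) _) (UG_anti (Nat.zero_le _) hv)
        have h0 : xg D F s (c ⟨r, hr⟩ : F) ∈ D.borelSubgroup F ⊓ D.negUnipotent F := ⟨hmemB, hmemV⟩
        rw [B_inf_V hc, Subgroup.mem_bot, xg_eq_one_iff hc s.2] at h0
        exact (c ⟨r, hr⟩).ne_zero h0
    rcases lt_trichotomy (s : ℕ) r with hlt | heq | hgt
    · exfalso
      have hv' : xg D F r ((f r : Fˣ) : F) * v ∈ UG D F P ((s : ℕ) + 1) :=
        mul_mem (xg_mem_UG hr hout'.1 (by omega) _) (UG_anti (by omega) hv)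
      have := (UG_unique_head hc (fun _ h => h) s.2 hps (t := (c ⟨r, hr⟩ : F)) (t' := 0) (one_mem _) hv'
        (by rw [mul_one, xg_zero hc s.2, one_mul]; exact h1)).1
      exact (c ⟨r, hr⟩).ne_zero this
    · exact heq
    · exfalso
      have hv' : xg D F s (c ⟨r, hr⟩ : F) ∈ UG D F P (r + 1) := xg_mem_UG s.2 hps (by omega) _
      have := (UG_unique_head hc (fun _ h => h) hr hout'.1 (t := (0 : F)) (t' := ((f r : Fˣ) : F)) hv' hv
        (by rw [xg_zero hc hr, one_mul]; exact h1)).1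
      exact (f r).ne_zero this.symm
  have hπ1 : wp hc L = 1 := by
    refine IsRootAut.ext hc hπ isRootAut_one fun j => Fin.ext ?_
    show ((wp hc L (sR hc j) : Fin D.nroots) : ℕ) = D.simple j
    rcases hout j j.2 with ⟨r, hr, ho, rfl⟩ | ⟨r, r', hr, hr', ho, ho', hco⟩
    · exact hfix _ hr ho
    · obtain ⟨M, hM⟩ := hπ.linear
      refine root_ext hc (wp hc L (sR hc j)).2 (simple_lt hc j.2) fun k hk => ?_
      rw [co_simple hc j.2 hk]
      have e1 := hM (sR hc j) k hk
      have e2 := hM ⟨r, hr⟩ k hk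
      have e3 := hM ⟨r', hr'⟩ k hk
      simp only [hfix r hr ho] at e2
      simp only [hfix r' hr' ho'] at e3
      have e4 : ∑ m ∈ Finset.range D.rank, M k m * A.co m r' =
          ∑ m ∈ Finset.range D.rank, M k m * A.co m r + M k j := by
        rw [Finset.sum_congr rfl fun m hm => by rw [hco m (Finset.mem_range.1 hm), mul_add],
          Finset.sum_add_distrib]
        congr 1
        rw [Finset.sum_eq_single (j : ℕ)]
        · rw [if_pos rfl, mul_one]
        · intro m _ hm; rw [if_neg hm, mul_zero]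
        · intro h; exact absurd (Finset.mem_range.2 j.2) h
      rw [Finset.sum_eq_single (j : ℕ)] at e1
      · simp only [sR, co_simple hc j.2 j.2, if_true, mul_one] at e1
        have := hco k hk
        simp only [sR]
        rw [e1]
        omega
      · intro m hm hne; simp only [sR]; rw [co_simple hc j.2 (Finset.mem_range.1 hm), if_neg hne, mul_zero]
      · intro h; exact absurd (Finset.mem_range.2 j.2) h
  -- hence `g` lies in `B`
  have hnH : ((n : ↥(D.group F)) : GL D.Idx F) ∈ D.diagonalSubgroup F := by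
    rw [hnw]
    refine mul_mem hh ?_
    have hmem : wg D F L ∈ D.monomialSubgroup F := wg_mem_N hc L
    have hact : Acts D A (wg D F L) (wp hc L) := acts_wg hc L
    rw [hπ1] at hact
    exact mem_H_of_acts_one hc hmem hact
  have hgB : g ∈ D.borelSubgroup F := by
    rw [eg]; exact mul_mem (mul_mem hb₁' (Subgroup.mem_sup_right hnH)) hb₂'
  obtain ⟨u', hu', h'', hh'', rfl⟩ := (mem_B_iff hc).1 hgB
  obtain ⟨cc, rfl⟩ := (mem_H_iff hc).1 hh''
  suffices hone : ∀ s < D.nroots, torusVal A D.rank cc s = 1 by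
    have : dg D (torusVal A D.rank cc) = (1 : GL D.Idx F) := by
      rw [← dg_one]; exact dg_eq_iff.2 hone
    show u' * dg D (torusVal A D.rank cc) ∈ _
    rw [this, mul_one]; exact hu'
  have hval : ∀ r (hr : r < D.nroots), posOut D A J r → torusVal A D.rank cc r = 1 := by
    intro r hr hout'
    have h1 := hcent _ (xg_mem_UG hr hout' (Nat.zero_le _) 1)
    have hd : (u' * dg D (torusVal A D.rank cc)) * xg D F r 1 * (u' * dg D (torusVal A D.rank cc))⁻¹ =
        u' * (dg D (torusVal A D.rank cc) * xg D F r 1 * (dg D (torusVal A D.rank cc))⁻¹) * u'⁻¹ := by group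
    change (u' * dg D (torusVal A D.rank cc)) * xg D F r 1 * (u' * dg D (torusVal A D.rank cc))⁻¹ = _ at h1
    rw [hd, dg_conj_x hc hr (isChar_torusVal hc cc), mul_one] at h1
    obtain ⟨v, hv, e1⟩ := U_conj_head hc hu' hr hout'.1 ((torusVal A D.rank cc r : Fˣ) : F)
    rw [e1] at h1
    exact Units.ext (UG_unique_head hc (fun _ h => h) hr hout'.1 hv (one_mem _) (by rw [mul_one]; exact h1)).1
  have hs1 : ∀ j < D.rank, torusVal A D.rank cc (D.simple j) = 1 := by
    intro j hj
    rcases hout j hj with ⟨r, hr, ho, rfl⟩ | ⟨r, r', hr, hr', ho, ho', hco⟩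
    · exact hval _ hr ho
    · have h1 := torusVal_simple hc cc hr'
      rw [hval r' hr' ho', Finset.prod_congr rfl fun m hm => by rw [hco m (Finset.mem_range.1 hm), zpow_add],
        Finset.prod_mul_distrib, ← torusVal_simple hc cc hr, hval r hr ho, one_mul,
        Finset.prod_eq_single j] at h1
      · rw [if_pos rfl, zpow_one] at h1; exact h1.symm
      · intro m _ hm; rw [if_neg hm, zpow_zero]
      · intro h; exact absurd (Finset.mem_range.2 hj) h
  intro s hs
  rw [torusVal_simple hc cc hs]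
  exact Finset.prod_eq_one fun m hm => by rw [hs1 m (Finset.mem_range.1 hm), one_zpow]

include hc in
theorem isPGroup_U [Fintype F] (p : ℕ) [Fact p.Prime] [CharP F p] : IsPGroup p ↥(D.posUnipotent F) := by
  classical
  obtain ⟨n, -, hn⟩ := FiniteField.card F p
  refine IsPGroup.of_card (n := (n : ℕ) * ((Finset.range D.nroots).filter fun r => A.pos r = true).card) ?_
  rw [posUnipotent_eq hc, card_UG hc (fun _ h => h) (combClosed_pos hc), Nat.card_eq_fintype_card, hn, pow_mul]

include hc in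
theorem fstar_parabolic [Fintype F] (p : ℕ) [Fact p.Prime] [CharP F p] (ha : addOK D A = true) {J : Set ℕ}
    (hJ : ∃ i, i < D.rank ∧ i ∉ J) :
    IsPGroup p ↥(Cfsg.generalizedFittingSubgroup ↥(D.parabolicSubgroup F J)) := by
  classical
  set P := D.parabolicSubgroup F J
  have hPG : P ≤ D.group F := by
    show D.parabolicSubgroup F J ≤ D.group F
    rw [parabolic_eq hc]
    refine sup_le (H_le_group hc) ((Subgroup.closure_le _).2 ?_)
    rintro x ⟨r, t, hr, hx⟩
    have hr' : r < D.nroots := hr.elim (fun h => ((isPosRoot_iff hc).1 h).1) fun h => ((inRootSub_iff hc).1 h).1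
    rw [(eq_xg hc hr').1 hx]
    exact xg_mem_group hc hr' t
  have hUJU : D.unipotentRadical F J ≤ D.posUnipotent F := by
    rw [unipotentRadical_eq hc, posUnipotent_eq hc]
    refine (Subgroup.closure_le _).2 ?_
    rintro x ⟨r, t, hr, hp, h0, rfl⟩
    exact xg_mem_UG hr hp.1 h0 t
  have hUJP : D.unipotentRadical F J ≤ P :=
    hUJU.trans ((U_le_B : D.posUnipotent F ≤ _).trans le_sup_left)
  set UJ : Subgroup ↥P := (D.unipotentRadical F J).subgroupOf P
  haveI : UJ.Normal := ⟨fun v hv g => (Subgroup.mem_normalizer_iff.1 (parabolic_le_normalizer hc J g.2) v).1 hv⟩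
  have hUp := isPGroup_U hc (F := F) p
  have hUJp : IsPGroup p ↥UJ :=
    (hUp.to_le hUJU).of_equiv (Subgroup.subgroupOfEquivOfLe hUJP).symm
  have hC : Subgroup.centralizer (UJ : Set ↥P) ≤ (D.posUnipotent F).subgroupOf P := by
    intro x hx
    refine centralizing_mem_U hc ha hJ (hPG x.2) fun v hv => ?_
    have h1 := congrArg Subtype.val (Subgroup.mem_centralizer_iff.1 hx ⟨v, hUJP hv⟩ hv)
    simp only [Subgroup.coe_mul] at h1
    show (x : GL D.Idx F) * v * (x : GL D.Idx F)⁻¹ = v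
    rw [← h1, mul_inv_cancel_right]
  have hCp : IsPGroup p ↥(Subgroup.centralizer (UJ : Set ↥P)) :=
    ((hUp.to_le (le_refl _)).of_equiv
      (Subgroup.subgroupOfEquivOfLe ((U_le_B : D.posUnipotent F ≤ _).trans le_sup_left :
        D.posUnipotent F ≤ P)).symm).to_le hC
  haveI : (Subgroup.centralizer (UJ : Set ↥P)).Normal := inferInstance
  have hle : Subgroup.centralizer (pCore p ↥P : Set ↥P) ≤ pCore p ↥P :=
    (Subgroup.centralizer_le (Cfsg.Lib.Solv.le_pCore inferInstance hUJp)).trans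
      (Cfsg.Lib.Solv.le_pCore inferInstance hCp)
  rw [Cfsg.Lib.Comp.fstar_eq_pCore_iff.2 hle]
  exact Cfsg.Lib.Solv.isPGroup_pCore p

end Cfsg.Lib.Chev.ParabolicCharP
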