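import Cfsg.Agent.Lib.Chev.ParabolicCharP
import Cfsg.Agent.Lib.Chev.All

/-! Proper parabolic subgroups of the seven Chevalley groups have characteristic `p`. -/

set_option autoImplicit false
set_option maxRecDepth 100000

namespace Cfsg.Lib.Chev.ParabolicCharP

open Cfsg.Lie Cfsg.Lib.Chev

theorem addG2 : addOK chevG2 auxG2 = true := by decide +kernel
theorem addB2 : addOK chevB2 auxB2 = true := by decide +kernel
theorem addD4 : addOK chevD4 auxD4 = true := by decide +kernel
theorem addF4 : addOK chevF4 auxF4 = true := by decide +kernel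
theorem addE6 : addOK chevE6 auxE6 = true := by decide +kernel
theorem addE7 : addOK chevE7 auxE7 = true := by decide +kernel
theorem addE8 : addOK chevE8 auxE8 = true := by decide +kernel

theorem fstar_parabolic_of_mem {F : Type*} [Field F] [Fintype F] (p : ℕ) [Fact p.Prime] [CharP F p]
    {D : ChevalleyDatum} (hD : D ∈ [chevG2, chevB2, chevD4, chevF4, chevE6, chevE7, chevE8]) {J : Set ℕ}
    (hJ : ∃ i, i < D.rank ∧ i ∉ J) :
    IsPGroup p ↥(Cfsg.generalizedFittingSubgroup ↥(D.parabolicSubgroup F J)) := by
  simp only [List.mem_cons, List.not_mem_nil, or_false] at hD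
  rcases hD with rfl | rfl | rfl | rfl | rfl | rfl | rfl
  · exact fstar_parabolic certG2 p addG2 hJ
  · exact fstar_parabolic certB2 p addB2 hJ
  · exact fstar_parabolic certD4 p addD4 hJ
  · exact fstar_parabolic certF4 p addF4 hJ
  · exact fstar_parabolic certE6 p addE6 hJ
  · exact fstar_parabolic certE7 p addE7 hJ
  · exact fstar_parabolic certE8 p addE8 hJ

end Cfsg.Lib.Chev.ParabolicCharP
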