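import Cfsg.Agent.Lib.Chev.CoxeterData

/-! The centre of a Weyl group, and generation by the Coxeter element and one or two reflections. -/

set_option autoImplicit false

namespace Cfsg.Lib.Chev.WeylCentre

open Cfsg.Lie Cfsg.Lib.LieBN Cfsg.Lib.Chev

variable {D : ChevalleyDatum} {A : Aux} (hc : Cert D A)

theorem toWord_range : toWord D (List.range D.rank) = List.finRange D.rank := by
  rw [← List.map_coe_finRange_eq_range, toWord, List.filterMap_map]
  simp [Function.comp_def]

/-- the Coxeter element -/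
def cox : Wgrp hc := wprod (sW hc) (List.finRange D.rank)

theorem coe_cox : (cox hc : Equiv.Perm (Fin D.nroots)) = wp hc (List.finRange D.rank) := coe_wprod_sW hc _

theorem iterWord_cox (m : ℕ) (s : Fin D.nroots) :
    iterWord A (List.range D.rank) m s = (((cox hc : Equiv.Perm (Fin D.nroots)) ^ m) s : Fin D.nroots) := by
  induction m with
  | zero => simp [iterWord]
  | succ m ih =>
    rw [iterWord, ih, wordApp_eq hc (fun i hi => List.mem_range.1 hi), toWord_range, pow_succ', coe_cox]
    rfl

/-! ### generation -/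

/-- the root `r` carries a reflection lying in `H` -/
def Ref (H : Subgroup (Wgrp hc)) (r : ℕ) : Prop :=
  ∃ (π : Wgrp hc) (i : Fin D.rank), (((π : Equiv.Perm (Fin D.nroots)) (sR hc i)) : ℕ) = r ∧
    π * sW hc i * π⁻¹ ∈ H

theorem refl_eq {π π' : Wgrp hc} {i k : Fin D.rank}
    (h : (π : Equiv.Perm (Fin D.nroots)) (sR hc i) = (π' : Equiv.Perm (Fin D.nroots)) (sR hc k)) :
    π * sW hc i * π⁻¹ = π' * sW hc k * π'⁻¹ := by
  have hts : ((π'⁻¹ * π : Wgrp hc) : Equiv.Perm (Fin D.nroots)) (sR hc i) = sR hc k := by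
    rw [Subgroup.coe_mul, Equiv.Perm.mul_apply, h, Subgroup.coe_inv]
    exact (π' : Equiv.Perm (Fin D.nroots)).symm_apply_apply _
  have h1 : π'⁻¹ * π * sW hc i = sW hc k * (π'⁻¹ * π) :=
    Subtype.ext (conj_sig hc (isRootAut_of_mem hc (π'⁻¹ * π).2) hts)
  calc π * sW hc i * π⁻¹ = π' * (π'⁻¹ * π * sW hc i) * π⁻¹ := by group
    _ = π' * sW hc k * π'⁻¹ := by rw [h1]; group

theorem ref_mem {H : Subgroup (Wgrp hc)} {j : Fin D.rank} (h : Ref hc H (D.simple j)) : sW hc j ∈ H := by
  obtain ⟨π, i, hr, hH⟩ := h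
  rw [refl_eq hc (π' := 1) (k := j) (Fin.ext (by simpa [sR] using hr))] at hH
  simpa using hH

theorem ref_cox {H : Subgroup (Wgrp hc)} (hcH : cox hc ∈ H) {r : ℕ} (h : Ref hc H r) :
    Ref hc H (wordApp A (List.range D.rank) r) := by
  obtain ⟨π, i, rfl, hH⟩ := h
  refine ⟨cox hc * π, i, ?_, ?_⟩
  · rw [Subgroup.coe_mul, Equiv.Perm.mul_apply, wordApp_eq hc (fun i hi => List.mem_range.1 hi), toWord_range,
      coe_cox]
  · rw [show cox hc * π * sW hc i * (cox hc * π)⁻¹ = cox hc * (π * sW hc i * π⁻¹) * (cox hc)⁻¹ by group]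
    exact H.mul_mem (H.mul_mem hcH hH) (H.inv_mem hcH)

theorem ref_refl {H : Subgroup (Wgrp hc)} {L : List ℕ} (hL : ∀ x ∈ L, x < D.rank) {i : ℕ} (hi : i < D.rank)
    (ha : Ref hc H (wordApp A L (D.simple i))) {g : ℕ} (hg : Ref hc H g) :
    Ref hc H (wordApp A (L ++ i :: L.reverse) g) := by
  obtain ⟨π, k, rfl, hH⟩ := hg
  obtain ⟨π', k', hr', hH'⟩ := ha
  set w : Wgrp hc := ⟨wp hc (toWord D L), (mem_Wgrp hc).2 ⟨_, rfl⟩⟩ with hwdef
  have hσ : w * sW hc ⟨i, hi⟩ * w⁻¹ ∈ H := by
    rw [← refl_eq hc (π := π') (π' := w) (i := k') (k := ⟨i, hi⟩) (Fin.ext ?_)]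
    · exact hH'
    · rw [hr']; exact wordApp_eq hc hL (sR hc ⟨i, hi⟩)
  refine ⟨w * sW hc ⟨i, hi⟩ * w⁻¹ * π, k, ?_, ?_⟩
  · have hL' : ∀ x ∈ L ++ i :: L.reverse, x < D.rank := by
      intro x hx
      rcases List.mem_append.1 hx with h | h
      · exact hL x h
      · rcases List.mem_cons.1 h with rfl | h
        · exact hi
        · exact hL x (List.mem_reverse.1 h)
    rw [wordApp_eq hc hL', show toWord D (L ++ i :: L.reverse) = toWord D L ++ ⟨i, hi⟩ :: (toWord D L).reverse by
      rw [toWord, List.filterMap_append]; exact congrArg _ ((toWord_cons hi _).trans (by rw [toWord_reverse]))]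
    rw [wp_append, wp_cons, wp_reverse, Subgroup.coe_mul, Equiv.Perm.mul_apply, ← mul_assoc]
    rfl
  · rw [show w * sW hc ⟨i, hi⟩ * w⁻¹ * π * sW hc k * (w * sW hc ⟨i, hi⟩ * w⁻¹ * π)⁻¹ =
      w * sW hc ⟨i, hi⟩ * w⁻¹ * (π * sW hc k * π⁻¹) * (w * sW hc ⟨i, hi⟩ * w⁻¹)⁻¹ by group]
    exact H.mul_mem (H.mul_mem hσ hH) (H.inv_mem hσ)

/-- closure of a set of roots under the Coxeter element and its own reflections, along a certificate -/
def closOK (D : ChevalleyDatum) (A : Aux) (m : ℕ) : List ℕ → List (Option (List ℕ × ℕ) × ℕ) → Bool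
  | known, [] => (List.range D.rank).all fun j => Nat.beq j m || known.contains (D.simple j)
  | known, (none, r) :: S => known.contains r && closOK D A m (wordApp A (List.range D.rank) r :: known) S
  | known, (some (L, i), g) :: S => known.contains g && Nat.blt i D.rank && L.all (fun x => Nat.blt x D.rank) &&
      known.contains (wordApp A L (D.simple i)) && closOK D A m (wordApp A (L ++ i :: L.reverse) g :: known) S

theorem clos_sound {H : Subgroup (Wgrp hc)} (hcH : cox hc ∈ H) {m : Fin D.rank} :
    ∀ (S : List (Option (List ℕ × ℕ) × ℕ)) (known : List ℕ), closOK D A m known S = true →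
      (∀ r ∈ known, Ref hc H r) → ∀ j : Fin D.rank, j ≠ m → sW hc j ∈ H
  | [], known, h, hk => by
    intro j hj
    simp only [closOK, List.all_eq_true, List.mem_range, Bool.or_eq_true, Nat.beq_eq, List.contains_iff_mem] at h
    exact ref_mem hc (hk _ ((h j j.2).resolve_left fun e => hj (Fin.ext e)))
  | (none, r) :: S, known, h, hk => by
    simp only [closOK, Bool.and_eq_true, List.contains_iff_mem] at h
    refine clos_sound hcH S _ h.2 fun x hx => ?_
    rcases List.mem_cons.1 hx with rfl | hx
    · exact ref_cox hc hcH (hk r h.1)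
    · exact hk x hx
  | (some (L, i), g) :: S, known, h, hk => by
    simp only [closOK, Bool.and_eq_true, List.contains_iff_mem, Nat.blt_eq, List.all_eq_true] at h
    obtain ⟨⟨⟨⟨hg, hi⟩, hL⟩, ha⟩, hrest⟩ := h
    refine clos_sound hcH S _ hrest fun x hx => ?_
    rcases List.mem_cons.1 hx with rfl | hx
    · exact ref_refl hc hL hi (hk _ ha) (hk _ hg)
    · exact hk x hx

include hc in
theorem gen_coxeter (M : CoxeterMatrix (Fin D.rank))
    (hM : ∀ i j : Fin D.rank, ordOK D A i j (M i j) = true) (st : Finset (Fin D.rank)) (m : Fin D.rank)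
    (L : List ℕ) (hL : ∀ t ∈ L, ∃ t' ∈ st, (t' : ℕ) = t) (S : List (Option (List ℕ × ℕ) × ℕ))
    (h : closOK D A m (L.map D.simple) S = true) :
    ∃ T : Finset M.Group, T.card = st.card ∧ (∀ t ∈ T, ∃ (g : M.Group) (i : Fin D.rank), t = g * M.simple i * g⁻¹) ∧
      Subgroup.closure (({((List.finRange D.rank).map M.simple).prod} : Set M.Group) ∪ ↑T) = ⊤ := by
  classical
  obtain ⟨e, he⟩ := exists_coxeter_equiv hc M hM
  have hinj : Function.Injective M.simple := fun i j hij => sW_injective hc (e.injective (by rw [he, he, hij]))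
  refine ⟨st.image M.simple, Finset.card_image_of_injective _ hinj, fun t ht => ?_, ?_⟩
  · obtain ⟨i, -, rfl⟩ := Finset.mem_image.1 ht
    exact ⟨1, i, by simp⟩
  · set H := Subgroup.closure (({((List.finRange D.rank).map M.simple).prod} : Set M.Group) ∪ ↑(st.image M.simple))
    have hcm : e (cox hc) = ((List.finRange D.rank).map M.simple).prod := by
      rw [cox, wprod, map_list_prod, List.map_map]
      congr 1
      exact List.map_congr_left fun i _ => he i
    have hcox : cox hc ∈ H.comap e.toMonoidHom := by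
      show e (cox hc) ∈ H
      rw [hcm]; exact Subgroup.subset_closure (Or.inl rfl)
    have hne : ∀ j, j ≠ m → M.simple j ∈ H := by
      intro j hj
      have := clos_sound hc hcox S _ h (fun r hr => ?_) j hj
      · show M.simple j ∈ H
        rw [← he j]; exact this
      · obtain ⟨t, ht, rfl⟩ := List.mem_map.1 hr
        obtain ⟨t', ht', rfl⟩ := hL t ht
        refine ⟨1, t', rfl, ?_⟩
        rw [one_mul, inv_one, mul_one]
        show e (sW hc t') ∈ H
        rw [he]
        exact Subgroup.subset_closure (Or.inr (Finset.mem_coe.2 (Finset.mem_image_of_mem _ ht')))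
    have hall : ∀ j, M.simple j ∈ H := by
      intro j
      by_cases hj : j = m
      · subst hj
        obtain ⟨P, S', hPS⟩ := List.append_of_mem (List.mem_finRange j)
        have hnd : (P ++ j :: S').Nodup := hPS ▸ List.nodup_finRange _
        have hjP : j ∉ P := fun hp => (List.disjoint_of_nodup_append hnd) hp List.mem_cons_self
        have hjS : j ∉ S' := (List.nodup_cons.1 (List.Nodup.of_append_right hnd)).1
        have hP : (P.map M.simple).prod ∈ H := by
          refine list_prod_mem fun x hx => ?_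
          obtain ⟨i, hi, rfl⟩ := List.mem_map.1 hx
          exact hne i fun e' => hjP (e' ▸ hi)
        have hS : (S'.map M.simple).prod ∈ H := by
          refine list_prod_mem fun x hx => ?_
          obtain ⟨i, hi, rfl⟩ := List.mem_map.1 hx
          exact hne i fun e' => hjS (e' ▸ hi)
        have heq : ((List.finRange D.rank).map M.simple).prod =
            (P.map M.simple).prod * (M.simple j * (S'.map M.simple).prod) := by
          rw [hPS]; simp
        have : M.simple j = ((P.map M.simple).prod)⁻¹ * ((List.finRange D.rank).map M.simple).prod *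
            ((S'.map M.simple).prod)⁻¹ := by rw [heq]; group
        rw [this, ← hcm]
        exact H.mul_mem (H.mul_mem (H.inv_mem hP) hcox) (H.inv_mem hS)
      · exact hne j hj
    refine eq_top_iff.2 ?_
    rw [← M.toCoxeterSystem.subgroup_closure_range_simple, Subgroup.closure_le]
    rintro _ ⟨j, rfl⟩
    rw [CoxeterMatrix.toCoxeterSystem_simple]
    exact hall j

/-! ### the centre -/

/-- the only roots negated by `w i` are `±p_i` -/
def negOK (D : ChevalleyDatum) (A : Aux) : Bool :=
  allB D.rank fun i => allB D.nroots fun r =>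
    !Nat.beq (A.w i r) (negI D r) || Nat.beq r (D.simple i) || Nat.beq r (negI D (D.simple i))

/-- every listed node after the first is bonded to an earlier one -/
def connOK (D : ChevalleyDatum) (A : Aux) : List ℕ → List ℕ → Bool
  | _, [] => true
  | seen, j :: L => Nat.blt j D.rank &&
      seen.any (fun i => Nat.blt i D.rank && !Nat.beq i j && A.cA i (D.simple j) != 0) && connOK D A (j :: seen) L

include hc in
theorem co_w_simple {i j : Fin D.rank} (hne : i ≠ j) :
    A.co i (A.w i (D.simple j)) = -A.cA i (D.simple j) := by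
  rw [co_w hc i.2 i.2 (simple_lt hc j.2), co_simple hc j.2 i.2, if_neg fun e => hne (Fin.ext e), if_pos rfl]
  ring

include hc in
theorem sign_eq {z : Equiv.Perm (Fin D.nroots)} (hz : IsRootAut D A z)
    {i j : Fin D.rank} (hcom : sig hc i * z = z * sig hc i) (hne : i ≠ j) (hA : A.cA i (D.simple j) ≠ 0)
    (hi : z (sR hc i) = sR hc i) (hj : z (sR hc j) = nR (sR hc j)) : False := by
  have hr : z (sig hc i (sR hc j)) = nR (sig hc i (sR hc j)) := by
    have h1 := congrArg (fun f : Equiv.Perm (Fin D.nroots) => f (sR hc j)) hcom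
    simp only [Equiv.Perm.mul_apply] at h1
    rw [← h1, hj]
    exact Fin.ext (by rw [sig_apply]; exact w_neg hc i.2 (simple_lt hc j.2))
  obtain ⟨M, hM⟩ := hz.linear
  have hcol : ∀ b : Fin D.rank, M i b = A.co i (z (sR hc b) : Fin D.nroots) := by
    intro b
    have e := hM (sR hc b) i i.2
    rw [Finset.sum_eq_single (b : ℕ)] at e
    · simp only [sR, co_simple hc b.2 b.2, if_true, mul_one] at e
      exact e.symm
    · intro k hk hne'
      simp only [sR]; rw [co_simple hc b.2 (Finset.mem_range.1 hk), if_neg hne', mul_zero]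
    · intro h; exact absurd (Finset.mem_range.2 b.2) h
  have e := hM (sig hc i (sR hc j)) i i.2
  rw [Finset.sum_eq_single (i : ℕ)] at e
  · rw [hcol i, hi, hr] at e
    simp only [nR, sR, sig_apply] at e
    rw [co_neg hc i.2 (w_lt hc i.2 (simple_lt hc j.2)), co_simple hc i.2 i.2, if_pos rfl,
      co_w_simple hc hne] at e
    omega
  · intro k hk hki
    by_cases hkj : k = (j : ℕ)
    · subst hkj
      rw [hcol j, hj]
      simp only [nR, sR]
      rw [co_neg hc i.2 (simple_lt hc j.2), co_simple hc j.2 i.2, if_neg fun e => hne (Fin.ext e)]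
      simp
    · simp only [sR, sig_apply]
      rw [co_w hc i.2 (Finset.mem_range.1 hk) (simple_lt hc j.2), co_simple hc j.2 (Finset.mem_range.1 hk),
        if_neg hkj, if_neg hki]
      ring
  · intro h; exact absurd (Finset.mem_range.2 i.2) h

include hc in
theorem central_cases (hn : negOK D A = true) {L : List ℕ} {j₀ : ℕ} (hj₀ : j₀ < D.rank)
    (hconn : connOK D A [j₀] L = true) (hcov : ∀ j < D.rank, j ∈ j₀ :: L) {w : Wgrp hc}
    (hw : w ∈ Subgroup.center (Wgrp hc)) :
    w = 1 ∨ ∀ s : Fin D.nroots, (w : Equiv.Perm (Fin D.nroots)) s = nR s := by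
  set z : Equiv.Perm (Fin D.nroots) := (w : Equiv.Perm (Fin D.nroots))
  have hz : IsRootAut D A z := isRootAut_of_mem hc w.2
  have hcom : ∀ i, sig hc i * z = z * sig hc i := fun i =>
    congrArg Subtype.val (Subgroup.mem_center_iff.1 hw (sW hc i))
  have hpm : ∀ i, z (sR hc i) = sR hc i ∨ z (sR hc i) = nR (sR hc i) := by
    intro i
    have h1 : sig hc i (z (sR hc i)) = nR (z (sR hc i)) := by
      have h1 := congrArg (fun f : Equiv.Perm (Fin D.nroots) => f (sR hc i)) (hcom i)
      simp only [Equiv.Perm.mul_apply] at h1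
      rw [h1, sig_simple, hz.neg]
    simp only [negOK, allB_iff, Bool.or_eq_true, Bool.not_eq_true', Nat.beq_eq] at hn
    rcases hn i i.2 (z (sR hc i)) (z (sR hc i)).2 with (h | h) | h
    · have h2 := congrArg Fin.val h1
      rw [sig_apply] at h2
      simp only [nR] at h2
      rw [h2] at h
      simp at h
    · exact Or.inl (Fin.ext h)
    · exact Or.inr (Fin.ext h)
  have hsame : ∀ (L seen : List ℕ) (P : Fin D.rank → Prop),
      (∀ i j : Fin D.rank, i ≠ j → A.cA i (D.simple j) ≠ 0 → (P i ↔ P j)) →
      connOK D A seen L = true → (∀ i : Fin D.rank, (i : ℕ) ∈ seen → P i) →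
        ∀ i : Fin D.rank, (i : ℕ) ∈ seen ∨ (i : ℕ) ∈ L → P i := by
    intro L
    induction L with
    | nil =>
      intro seen P _ _ hs i hi
      exact hs i (hi.resolve_right List.not_mem_nil)
    | cons j L ih =>
      intro seen P hP hco hs i hi
      simp only [connOK, Bool.and_eq_true, Nat.blt_eq, List.any_eq_true, bne_iff_ne] at hco
      obtain ⟨⟨hjr, a, ha, ⟨har, hne⟩, hA⟩, hrest⟩ := hco
      have hne' : (⟨a, har⟩ : Fin D.rank) ≠ ⟨j, hjr⟩ := fun e => by
        have := congrArg Fin.val e; simp at this; simp [this] at hne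
      have hPj : P ⟨j, hjr⟩ := (hP ⟨a, har⟩ ⟨j, hjr⟩ hne' hA).1 (hs ⟨a, har⟩ ha)
      refine ih (j :: seen) P hP hrest (fun b hb => ?_) i ?_
      · rcases List.mem_cons.1 hb with e | hb
        · rwa [show b = ⟨j, hjr⟩ from Fin.ext e]
        · exact hs b hb
      · rcases hi with h | h
        · exact Or.inl (List.mem_cons_of_mem _ h)
        · rcases List.mem_cons.1 h with e | h
          · exact Or.inl (e ▸ List.mem_cons_self)
          · exact Or.inr h
  have hP : ∀ i j : Fin D.rank, i ≠ j → A.cA i (D.simple j) ≠ 0 →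
      (z (sR hc i) = sR hc i ↔ z (sR hc j) = sR hc j) := by
    intro i j hne hA
    constructor
    · intro hi
      exact (hpm j).resolve_right fun hj => sign_eq hc hz (hcom i) hne hA hi hj
    · intro hj
      refine (hpm i).resolve_right fun hi => ?_
      -- exchange the roles through the reflection in the other node
      have hz' : IsRootAut D A (z * z) := hz.mul hz
      obtain ⟨M, hM⟩ := hz.linear
      have hr : z (sig hc i (sR hc j)) = sig hc i (sR hc j) := by
        have h1 := congrArg (fun f : Equiv.Perm (Fin D.nroots) => f (sR hc j)) (hcom i)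
        simp only [Equiv.Perm.mul_apply] at h1
        rw [← h1, hj]
      have hcol : ∀ b : Fin D.rank, M i b = A.co i (z (sR hc b) : Fin D.nroots) := by
        intro b
        have e := hM (sR hc b) i i.2
        rw [Finset.sum_eq_single (b : ℕ)] at e
        · simp only [sR, co_simple hc b.2 b.2, if_true, mul_one] at e
          exact e.symm
        · intro k hk hne'
          simp only [sR]; rw [co_simple hc b.2 (Finset.mem_range.1 hk), if_neg hne', mul_zero]
        · intro h; exact absurd (Finset.mem_range.2 b.2) h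
      have e := hM (sig hc i (sR hc j)) i i.2
      rw [Finset.sum_eq_single (i : ℕ)] at e
      · rw [hcol i, hi, hr] at e
        simp only [nR, sR, sig_apply] at e
        rw [co_neg hc i.2 (simple_lt hc i.2), co_simple hc i.2 i.2, if_pos rfl, co_w_simple hc hne] at e
        omega
      · intro k hk hki
        by_cases hkj : k = (j : ℕ)
        · subst hkj
          rw [hcol j, hj]
          simp only [sR]
          rw [co_simple hc j.2 i.2, if_neg fun e => hne (Fin.ext e)]
          simp
        · simp only [sR, sig_apply]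
          rw [co_w hc i.2 (Finset.mem_range.1 hk) (simple_lt hc j.2), co_simple hc j.2 (Finset.mem_range.1 hk),
            if_neg hkj, if_neg hki]
          ring
      · intro h; exact absurd (Finset.mem_range.2 i.2) h
  have hall : ∀ P : Fin D.rank → Prop, (∀ i j : Fin D.rank, i ≠ j → A.cA i (D.simple j) ≠ 0 → (P i ↔ P j)) →
      P ⟨j₀, hj₀⟩ → ∀ i, P i := fun P hP h0 i =>
    hsame L [j₀] P hP hconn (fun b hb => by rwa [show b = ⟨j₀, hj₀⟩ from Fin.ext (List.mem_singleton.1 hb)]) i
      (by simpa using hcov i i.2)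
  by_cases h0 : z (sR hc ⟨j₀, hj₀⟩) = sR hc ⟨j₀, hj₀⟩
  · exact Or.inl (Subtype.ext (IsRootAut.ext hc hz isRootAut_one fun i => by
      rw [hall _ hP h0 i]; rfl))
  · refine Or.inr ?_
    have hneg : ∀ i, z (sR hc i) = nR (sR hc i) := fun i =>
      (hpm i).resolve_left (hall (fun i => ¬ z (sR hc i) = sR hc i) (fun a b h1 h2 => not_congr (hP a b h1 h2)) h0 i)
    obtain ⟨M, hM⟩ := hz.linear
    intro s
    refine Fin.ext (root_ext hc (z s).2 (nR s).2 fun j hj => ?_)
    have hcol : ∀ k ∈ Finset.range D.rank, M j k * A.co k s = if k = j then -A.co j s else 0 := by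
      intro k hk
      have e := hM (sR hc ⟨k, Finset.mem_range.1 hk⟩) j hj
      rw [Finset.sum_eq_single k] at e
      · rw [hneg] at e
        simp only [nR, sR] at e
        rw [co_neg hc hj (simple_lt hc (Finset.mem_range.1 hk)), co_simple hc (Finset.mem_range.1 hk) hj,
          co_simple hc (Finset.mem_range.1 hk) (Finset.mem_range.1 hk), if_pos rfl, mul_one] at e
        rw [← e]
        by_cases hjk : k = j
        · subst hjk; simp
        · simp [hjk, Ne.symm hjk]
      · intro b hb hne'
        simp only [sR]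
        rw [co_simple hc (Finset.mem_range.1 hk) (Finset.mem_range.1 hb), if_neg hne', mul_zero]
      · intro h; exact absurd hk h
    rw [hM s j hj, Finset.sum_congr rfl hcol, Finset.sum_ite_eq', if_pos (Finset.mem_range.2 hj)]
    simp only [nR]
    rw [co_neg hc hj s.2]

include hc in
theorem centre_two (M : CoxeterMatrix (Fin D.rank))
    (hM : ∀ i j : Fin D.rank, ordOK D A i j (M i j) = true) (hn : negOK D A = true) {L : List ℕ} {j₀ : ℕ}
    (hj₀ : j₀ < D.rank) (hconn : connOK D A [j₀] L = true) (hcov : ∀ j < D.rank, j ∈ j₀ :: L) (k : ℕ)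
    (hk : ∀ s : Fin D.nroots, iterWord A (List.range D.rank) k s = negI D s) :
    Nat.card (Subgroup.center M.Group) = 2 ∧
      Subgroup.center M.Group ≤ Subgroup.zpowers ((List.finRange D.rank).map M.simple).prod := by
  obtain ⟨e, he⟩ := exists_coxeter_equiv hc M hM
  have hcm : e (cox hc) = ((List.finRange D.rank).map M.simple).prod := by
    rw [cox, wprod, map_list_prod, List.map_map]
    congr 1
    exact List.map_congr_left fun i _ => he i
  set z₀ : Wgrp hc := cox hc ^ k with hz₀
  have hzs : ∀ s, (z₀ : Equiv.Perm (Fin D.nroots)) s = nR s := fun s =>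
    Fin.ext ((iterWord_cox hc k s).symm.trans (hk s))
  have hzc : z₀ ∈ Subgroup.center (Wgrp hc) := Subgroup.mem_center_iff.2 fun g =>
    Subtype.ext (Equiv.ext fun s => by
      show (g : Equiv.Perm (Fin D.nroots)) ((z₀ : Equiv.Perm (Fin D.nroots)) s) =
        (z₀ : Equiv.Perm (Fin D.nroots)) ((g : Equiv.Perm (Fin D.nroots)) s)
      rw [hzs, hzs, (isRootAut_of_mem hc g.2).neg])
  have hz1 : z₀ ≠ 1 := fun h => by
    have h1 := hzs (sR hc ⟨j₀, hj₀⟩)
    rw [h] at h1
    have h2 := congrArg (fun s : Fin D.nroots => A.pos s) h1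
    simp [nR, pos_neg hc (simple_lt hc hj₀), sR, simple_pos hc hj₀] at h2
  have hiff : ∀ w : Wgrp hc, w ∈ Subgroup.center (Wgrp hc) ↔ w = 1 ∨ w = z₀ := by
    intro w
    constructor
    · intro hw
      rcases central_cases hc hn hj₀ hconn hcov hw with h | h
      · exact Or.inl h
      · exact Or.inr (Subtype.ext (Equiv.ext fun s => (h s).trans (hzs s).symm))
    · rintro (rfl | rfl)
      · exact one_mem _
      · exact hzc
  have hset : (Subgroup.center M.Group : Set M.Group) = {1, e z₀} := by
    ext g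
    obtain ⟨w, rfl⟩ := e.surjective g
    rw [SetLike.mem_coe, Subgroup.mem_center_iff]
    simp only [Set.mem_insert_iff, Set.mem_singleton_iff, e.map_eq_one_iff, EmbeddingLike.apply_eq_iff_eq]
    rw [← hiff, Subgroup.mem_center_iff]
    constructor
    · intro h x; exact e.injective (by rw [map_mul, map_mul]; exact h (e x))
    · intro h x
      obtain ⟨x, rfl⟩ := e.surjective x
      rw [← map_mul, ← map_mul, h x]
  refine ⟨?_, fun g hg => ?_⟩
  · show Nat.card ↥(Subgroup.center M.Group : Set M.Group) = 2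
    rw [hset, Nat.card_coe_set_eq, Set.ncard_pair]
    exact fun h => hz1 (e.map_eq_one_iff.1 h.symm)
  · rw [← SetLike.mem_coe, hset] at hg
    rw [← hcm]
    rcases hg with h | h
    · rw [h]; exact one_mem _
    · rw [h, hz₀, map_pow]; exact Subgroup.npow_mem_zpowers _ _

include hc in
theorem centre_one (M : CoxeterMatrix (Fin D.rank))
    (hM : ∀ i j : Fin D.rank, ordOK D A i j (M i j) = true) (hn : negOK D A = true) {L : List ℕ} {j₀ : ℕ}
    (hj₀ : j₀ < D.rank) (hconn : connOK D A [j₀] L = true) (hcov : ∀ j < D.rank, j ∈ j₀ :: L) (W : List ℕ)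
    (hW : ∀ i ∈ W, i < D.rank)
    (hW1 : ∀ s : Fin D.nroots, A.pos s = true → A.pos (negI D (wordApp A W s)) = true)
    (hW2 : ∃ i : Fin D.rank, negI D (wordApp A W (D.simple i)) ≠ D.simple i) :
    Nat.card (Subgroup.center M.Group) = 1 ∧
      Subgroup.center M.Group ≤ Subgroup.zpowers ((List.finRange D.rank).map M.simple).prod := by
  obtain ⟨e, -⟩ := exists_coxeter_equiv hc M hM
  have hone : ∀ w ∈ Subgroup.center (Wgrp hc), w = 1 := by
    intro w hw
    refine (central_cases hc hn hj₀ hconn hcov hw).resolve_right fun h => ?_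
    obtain ⟨i, hi⟩ := hW2
    have hv : (w : Equiv.Perm (Fin D.nroots)) * wp hc (toWord D W) ∈ Wgrp hc :=
      mul_mem w.2 ((mem_Wgrp hc).2 ⟨_, rfl⟩)
    have hval : ∀ s : Fin D.nroots, (((w : Equiv.Perm (Fin D.nroots)) * wp hc (toWord D W)) s : Fin D.nroots) =
        (negI D (wordApp A W s) : ℕ) := fun s => by
      rw [Equiv.Perm.mul_apply, h, wordApp_eq hc hW]; rfl
    have h0 : len D A ((w : Equiv.Perm (Fin D.nroots)) * wp hc (toWord D W)) = 0 := by
      rw [len, Finset.card_eq_zero, Finset.filter_eq_empty_iff]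
      intro s _ hs
      rw [hval, hW1 s hs.1] at hs
      exact Bool.noConfusion hs.2
    have h1 := eq_one_of_len_eq_zero hc hv h0
    have h2 := hval (sR hc i)
    rw [h1] at h2
    exact hi h2.symm
  have hbot : Subgroup.center M.Group = ⊥ := by
    rw [Subgroup.eq_bot_iff_forall]
    intro g hg
    obtain ⟨w, rfl⟩ := e.surjective g
    rw [hone w ?_, map_one]
    rw [Subgroup.mem_center_iff] at hg ⊢
    intro x; exact e.injective (by rw [map_mul, map_mul]; exact hg (e x))
  rw [hbot]
  exact ⟨Nat.card_eq_one_iff_unique.2 ⟨inferInstance, inferInstance⟩, bot_le⟩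

end Cfsg.Lib.Chev.WeylCentre
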